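import Cfsg.Agent.H9.Sh7

/-! Fitting height two for operator groups of order a product of two primes. -/

set_option autoImplicit false

namespace H9
open Module H2 Subgroup H15 Cfsg
open scoped commutatorElement

universe u

variable {G : Type u} [Group G] [Finite G]
variable {F W : Type*} [Field F] [AddCommGroup W] [Module F W] {ρ : G →* End F W}

/-- two consecutive levels with a minimal action -/
structure Lv (ρ : G →* End F W) (K A X Q : Subgroup G) : Prop where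
  op : Op K A
  ker : ρ.ker ⊓ K = ⊥
  fx : fix ρ A = ⊥
  AF : (Nat.card A : F) ≠ 0
  XK : X ≤ K
  QK : Q ≤ K
  AX : A ≤ 𝒩(X)
  m : MinA (X ⊔ A) X Q
  QF : (Nat.card Q : F) ≠ 0
  cop : (Nat.card X).Coprime (Nat.card Q)

theorem Tw.exists_lv {K A T R : Subgroup G} {q r : ℕ} (h : Tw ρ K A T R q r) {X : Subgroup G}
    (hX : X ≤ R) (hA : A ≤ 𝒩(X)) (hn : ¬ X ≤ 𝒞(T)) : ∃ Q ≤ T, Lv ρ K A X Q := by
  obtain ⟨Q, hQ, m⟩ := h.exists_minA hX hA hn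
  exact ⟨Q, hQ, h.op, h.ker, h.fx, h.AF, hX.trans h.RK, hQ.trans h.TK, hA, m, h.card_ne hQ,
    h.cop hX hQ⟩

theorem Op.cop_ord {K A Y : Subgroup G} (h : Op K A) (hY : Y ≤ K) {d : G} (hd : d ∈ A) :
    (Nat.card Y).Coprime (orderOf d) := by
  rw [← Nat.card_zpowers]; exact (h.cop' hY (zpowers_le.2 hd)).symm

theorem Op.le_comm_sup {K A X B : Subgroup G} (h : Op K A) (hX : X ≤ K) (hB : B ≤ A)
    (hBX : B ≤ 𝒩(X)) : X ≤ ⁅X, B⁆ ⊔ X ⊓ 𝒞(B) :=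
  (H1.commutator_sup_centralizer hBX (h.cop' hX hB) (Or.inr (h.solv' hX))).ge

namespace Lv
variable {K A X Q : Subgroup G} (h : Lv ρ K A X Q)
include h

theorem AQ : A ≤ 𝒩(Q) := le_sup_right.trans h.m.norm

theorem ordF {d : G} (hd : d ∈ A) : (orderOf d : F) ≠ 0 :=
  natCast_ne_zero_of_dvd h.AF (A.orderOf_dvd_natCard hd)

theorem le_comm_sup {B : Subgroup G} (hB : B ≤ X) : Q ≤ ⁅Q, B⁆ ⊔ Q ⊓ 𝒞(B) :=
  (H1.commutator_sup_centralizer (hB.trans h.m.le_norm) (h.cop.coprime_dvd_left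
    (card_dvd_of_le hB)) (Or.inr (h.op.solv' h.QK))).ge

theorem two_conj {a : G} {p p' : ℕ} (P : PQ A a p p') (hA : ¬ A ≤ 𝒞(A)) {c g : G} (hc : c ∈ A)
    (hca : c ∉ zpowers a) (hg : g ∈ A) (hg' : g ∉ zpowers c) {Y : Subgroup G} (h1 : ⁅Q, Q⁆ ≤ Y)
    (h2 : ⁅Q, ⁅X, zpowers c⁆⁆ ≤ Y) {k : G} (hk : k ∈ Q ⊓ 𝒞(⁅X, zpowers c⁆)) : g⁻¹ * k * g ∈ Y := by
  have hc' : g⁻¹ * c * g ∈ A := mul_mem (mul_mem (inv_mem hg) hc) hg
  have n1 : zpowers c ≤ 𝒩(X) := (zpowers_le.2 hc).trans h.AX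
  have n2 : zpowers (g⁻¹ * c * g) ≤ 𝒩(X) := (zpowers_le.2 hc').trans h.AX
  refine cent_le_of_two (S₁ := ⁅X, zpowers (g⁻¹ * c * g)⁆) h.m.le_norm (comm_le_left n1)
    (normalizer_commutator_ge_left _ _) ((h.op.le_comm h.XK h.AX).trans ((commutator_mono le_rfl
      (P.le_sup_conj hA hc hca hg hg')).trans (le_comm_sup_comm n2 n1))) h.cop (h.op.solv' h.QK)
    (h.m.der.ge.trans h1) h2 ⟨H1.conj_mem_of_mem_normalizer' (h.AQ hg) hk.1, ?_⟩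
  have := conj_mem_cj (g := g⁻¹) hk.2
  rwa [cj_cent, cj_comm, cj_zpowers, cj_of_mem_norm (inv_mem (h.AX hg)), inv_inv] at this

variable [IsAlgClosed F] [FiniteDimensional F W]

theorem stab_ne {S : Subgroup G} (hS : A ≤ 𝒩(S)) {l : G → F} (hl : wt ρ S l ≠ ⊥) :
    ∃ d ∈ A, d ≠ 1 ∧ d ∈ wstab S l := by
  obtain ⟨⟨d, hd⟩, hd1⟩ := ne_bot_iff_exists_ne_one.1 (wstab_ne_bot h.AF hS
    (U := ⊤) (le_top.trans stabOn_top.ge) (by rw [h.fx, inf_bot_eq]) (by rwa [top_inf_eq]))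
  exact ⟨d, hd.1, fun e => hd1 (Subtype.ext e), hd.2⟩

theorem ab_stab {a : G} {p p' : ℕ} (P : PQ A a p p') (hab : ⁅Q, Q⁆ = ⊥) :
    ∃ l : G → F, wt ρ Q l ≠ ⊥ ∧ ¬ Q ≤ kerOn ρ (wt ρ Q l) ∧
      ∃ d ∈ A, d ≠ 1 ∧ d ∈ wstab Q l ∧ ⁅X, zpowers d⁆ ≤ wstab Q l := by
  obtain ⟨l, hl⟩ := H9.exists_wt (ρ := ρ) (S := Q) (U := ⊤) (X := fix ρ Q) h.QF
    (le_top.trans stabOn_top.ge) (hab.le.trans bot_le) (fun h' => h.m.lt.ne_bot (le_bot_iff.1
      (h.ker ▸ le_inf (by rw [← kerOn_top]; exact le_kerOn_iff.2 h') h.QK)))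
  rw [top_inf_eq] at hl
  have hl0 : wt ρ Q l ≠ ⊥ := fun h => hl (by rw [h]; exact bot_le)
  have hl1 : ¬ Q ≤ kerOn ρ (wt ρ Q l) := fun h => hl (le_kerOn_iff.1 h)
  obtain ⟨d, hd, hd1, hdS⟩ := h.stab_ne h.AQ hl0
  refine ⟨l, hl0, hl1, d, hd, hd1, hdS, ?_⟩
  set S := wstab Q l
  have n1 : S ⊓ 𝒩(X) ≤ 𝒩(X) := inf_le_right
  have h1 : ¬ A ≤ A ⊓ (X ⊔ S ⊓ 𝒩(X)) := fun h1 => by
    obtain ⟨k, hk, hk'⟩ := H1.glauberman_exists h.AX (h.op.cop' h.XK le_rfl)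
      (Or.inr (h.op.solv' h.XK)) ((1 : G) : G ⧸ S) fun g hg => by
        obtain ⟨k, hk, s, hs, rfl⟩ := (H1.mem_sup_of_le_normalizer_left n1).1 (h1 hg).2
        exact ⟨k, hk, QuotientGroup.eq.2 (by simpa using hs.1)⟩
    have hkQ := h.m.le_norm hk
    have h2 : A ≤ wstab Q fun y => l (k⁻¹ * y * k) := fun g hg => (mem_wstab_conj hkQ).2 (by
      simpa [mul_assoc] using QuotientGroup.eq.1 (hk' g hg).symm)
    refine hl1 fun y hy => (mem_kerOn_wt_iff hl0 hy).2 ?_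
    have hy' := H1.conj_mem_of_mem_normalizer hkQ hy
    simpa [mul_assoc] using (mem_kerOn_wt_iff (wt_conj_ne_bot hkQ hl0) hy').1
      (comm_le_kerOn_wt h2 (h.op.le_comm h.QK h.AQ hy'))
  have h2 : ∀ x ∈ X, cj(x⁻¹, zpowers d) ≤ S := fun x hx => by
    obtain ⟨e, he, he1, heS⟩ := h.stab_ne h.AQ (wt_conj_ne_bot (h.m.le_norm hx) hl0)
    rw [mem_wstab_conj (h.m.le_norm hx)] at heS
    have hxN := le_norm_self X hx
    have h3 : e ∈ A ⊓ (X ⊔ S ⊓ 𝒩(X)) := ⟨he, by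
      have h4 : x⁻¹ * e * x ∈ 𝒩(X) := mul_mem (mul_mem (inv_mem hxN) (h.AX he)) hxN
      have := mul_mem (mul_mem (mem_sup_left hx) (mem_sup_right (S := X) (T := S ⊓ 𝒩(X))
        ⟨heS, h4⟩)) (mem_sup_left (inv_mem hx))
      simpa [mul_assoc] using this⟩
    refine (cj_mono (zpowers_le.2 (P.le_zp inf_le_left h1 h3 he1
      ⟨hd, mem_sup_right ⟨hdS, h.AX hd⟩⟩))).trans ?_
    rw [cj_zpowers, inv_inv]; exact zpowers_le.2 heS
  refine commutator_le.2 fun x hx b hb => mul_mem ?_ (inv_mem (zpowers_le.2 hdS hb))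
  simpa using h2 _ (inv_mem hx) (conj_mem_cj hb)

theorem nonab {a : G} {p p' : ℕ} (P : PQ A a p p') (hab : ⁅Q, Q⁆ ≠ ⊥) :
    ∃ l : G → F, wt ρ ⁅Q, Q⁆ l ≠ ⊥ ∧ ¬ Q ≤ rad ρ Q ⁅Q, Q⁆ l ∧
      ∃ d ∈ A, d ≠ 1 ∧ d ∈ wstab ⁅Q, Q⁆ l ∧ wt ρ ⁅Q, Q⁆ l ⊓ fix ρ (zpowers d) = ⊥ := by
  have hAZ := le_norm_comm h.AQ h.AQ
  have hZK := h.m.lt.le.trans h.QK
  obtain ⟨l, hl⟩ := H9.exists_wt (ρ := ρ) (S := ⁅Q, Q⁆) (U := ⊤) (X := fix ρ ⁅Q, Q⁆)
    (natCast_ne_zero_of_dvd h.QF (card_dvd_of_le h.m.lt.le)) (le_top.trans stabOn_top.ge)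
    (by rw [le_cent_iff_comm.1 (h.m.lt.le.trans h.m.cent)]; exact bot_le)
    (fun h' => hab (le_bot_iff.1
      (h.ker ▸ le_inf (by rw [← kerOn_top]; exact le_kerOn_iff.2 h') hZK)))
  rw [top_inf_eq] at hl
  have hl0 : wt ρ ⁅Q, Q⁆ l ≠ ⊥ := fun h => hl (by rw [h]; exact bot_le)
  obtain ⟨d, hd, hd1, hdS⟩ := h.stab_ne hAZ hl0
  refine ⟨l, hl0, fun h' => hl (le_kerOn_iff.1 (commutator_le.2 fun k hk y hy =>
    ((mem_rad h.m.cent).1 (h' hk)).2 y hy)), d, hd, hd1, hdS, ?_⟩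
  have h1 := wt_fix_eq_bot h.AF hAZ (U := ⊤) (le_top.trans stabOn_top.ge)
    (by rw [h.fx, inf_bot_eq]) l
  rw [top_inf_eq] at h1
  refine le_bot_iff.1 (h1 ▸ inf_le_inf_left _ (fix_anti ρ (P.le_zp inf_le_left (fun h2 => ?_)
    ⟨hd, hdS⟩ hd1)))
  exact hl (le_kerOn_iff.1 ((h.op.le_comm hZK hAZ).trans
    (comm_le_kerOn_wt (h2.trans inf_le_right))))

theorem frob {l : G → F} (hl : wt ρ ⁅Q, Q⁆ l ≠ ⊥) {d : G} (hd : d ∈ A) (hp : (orderOf d).Prime)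
    (hdw : d ∈ wstab ⁅Q, Q⁆ l) (h0 : wt ρ ⁅Q, Q⁆ l ⊓ fix ρ (zpowers d) = ⊥) {R : Subgroup G}
    (hR : R ≤ X) (hdR : d ∈ 𝒩(R)) (hC : R ⊓ 𝒞(zpowers d) ≤ 𝒞(Q)) : ⁅Q, R⁆ ≤ rad ρ Q ⁅Q, Q⁆ l :=
  frob_contra le_rfl h.m.cent hl hp (h.ordF hd) (h.AQ hd) hdw h0 h.QF (h.op.cop_ord h.QK hd)
    (h.op.solv' h.QK) (hR.trans h.m.le_norm) (hR.trans h.m.le_cent) hdR hC
    (h.op.cop_ord (hR.trans h.XK) hd) (h.cop.coprime_dvd_left (card_dvd_of_le hR))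
    (h.op.solv' (hR.trans h.XK))

theorem caseB {a : G} {p p' : ℕ} (P : PQ A a p p') (hA : ¬ A ≤ 𝒞(A))
    (h1 : X ⊓ 𝒞(zpowers a) ≤ 𝒞(Q)) (h2 : ⁅X, X⁆ ≤ 𝒞(Q)) : False := by
  have hAZ := le_norm_comm h.AQ h.AQ
  by_cases hab : ⁅Q, Q⁆ = ⊥
  · obtain ⟨l, hl, hl', d, hd, hd1, hdS, hXS⟩ := h.ab_stab P hab
    by_cases hda : d ∈ zpowers a
    · rw [P.zp_eq hda hd1] at hXS
      exact hl' (h.m.comm.ge.trans (comm_le_kerOn_wt ((h.op.le_comm_sup h.XK (zpowers_le.2 P.mem)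
        ((zpowers_le.2 P.mem).trans h.AX)).trans (sup_le hXS (h1.trans (cent_le_wstab Q l))))))
    refine hl' ((h.le_comm_sup (comm_le_left ((zpowers_le.2 hd).trans h.AX))).trans
      (sup_le (comm_le_kerOn_wt hXS) fun k hk => (mem_kerOn_wt_iff hl hk.1).2 ?_))
    refine prod_wt (comm_of_le_cent (le_cent_iff_comm.2 hab)) h.AQ (h.op.fpf' h.QK)
      (h.op.cop' h.QK le_rfl) hl hk.1 fun g hg hg' => ?_
    exact (mem_kerOn_wt_iff hl (H1.conj_mem_of_mem_normalizer' (h.AQ hg) hk.1)).1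
      (h.two_conj P hA hd hda hg (fun h' => hg' (zpowers_le.2 hdS h')) (hab.le.trans bot_le)
        (comm_le_kerOn_wt hXS) hk)
  obtain ⟨l, hl, hl', d, hd, hd1, hdS, h0⟩ := h.nonab P hab
  have hdX : zpowers d ≤ 𝒩(X) := (zpowers_le.2 hd).trans h.AX
  by_cases hda : d ∈ zpowers a
  · exact hl' (h.m.comm.ge.trans (h.frob hl hd (P.prime_ord hd hd1) hdS h0 le_rfl (h.AX hd)
      (by rwa [P.zp_eq hda hd1])))
  have h3 := h.frob hl hd (P.prime_ord hd hd1) hdS h0 (comm_le_left hdX)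
    (normalizer_commutator_ge_right X _ (mem_zpowers d)) (le_trans (le_trans
      (le_inf (inf_le_inf_right _ (comm_le_left hdX)) inf_le_left)
      (H7.inf_centralizer_inf_commutator_le hdX (h.op.cop' h.XK (zpowers_le.2 hd)))) h2)
  refine hl' ((h.le_comm_sup (comm_le_left hdX)).trans (sup_le h3 fun k hk => ?_))
  exact prod_rad le_rfl h.m.lt.le h.m.cent h.AQ hAZ (h.op.fpf' (h.m.lt.le.trans h.QK))
    (h.op.cop' (h.m.lt.le.trans h.QK) le_rfl) hl hk.1 fun g hg hg' =>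
      h.two_conj P hA hd hda hg (fun h' => hg' (zpowers_le.2 hdS h'))
        (der_le_rad (h.m.cent.trans (cent_le_stabOn _ l)) (wt_scalar le_rfl l)) h3 hk

theorem caseA {a : G} {p p' : ℕ} (P : PQ A a p p') (hX : X ≤ 𝒞(zpowers a)) : False := by
  have hAZ := le_norm_comm h.AQ h.AQ
  have hZK := h.m.lt.le.trans h.QK
  have haA : zpowers a ≤ A := zpowers_le.2 P.mem
  have fp : ∀ c ∈ A, c ∉ zpowers a → K ⊓ 𝒞(zpowers a) ⊓ 𝒞(zpowers c) = ⊥ := fun c hc hc' =>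
    le_bot_iff.1 (h.op.fpf ▸ le_inf (inf_le_left.trans inf_le_left) ((le_cent_sup
      (inf_le_left.trans inf_le_right) inf_le_right).trans (cent_anti (P.out c hc hc').2)))
  have fX : ∀ c ∈ A, c ∉ zpowers a → X ⊓ 𝒞(zpowers c) = ⊥ := fun c hc hc' =>
    le_bot_iff.1 (fp c hc hc' ▸ inf_le_inf_right _ (le_inf h.XK hX))
  obtain ⟨c, hc, hca⟩ := SetLike.not_le_iff_exists.1 P.ex
  have hCa : Q ⊓ 𝒞(zpowers a) ≤ ⁅Q, Q⁆ := by
    rw [h.m.der]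
    refine le_inf inf_le_left (H1.le_centralizer_of_coprime_of_isNilpotent
      (nilpotent_of_fpf_conj (K := K ⊓ 𝒞(zpowers a)) (h.op.solv' inf_le_left)
        (le_norm_inf h.op.le_norm (le_norm_cent P.nrm) hc) P.hp'
        (by rw [← (P.out c hc hca).1, pow_orderOf_eq_one]) (by rw [← cent_zpowers, fp c hc hca]))
      (inf_le_inf_right _ h.QK) (le_inf h.XK hX)
      (h.cop.symm.coprime_dvd_left (card_dvd_of_le inf_le_left)))
  have hQa : Q ≤ ⁅Q, zpowers a⁆ ⊔ ⁅Q, Q⁆ :=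
    (h.op.le_comm_sup h.QK haA (haA.trans h.AQ)).trans (sup_le_sup_left hCa _)
  by_cases hab : ⁅Q, Q⁆ = ⊥
  · obtain ⟨l, hl, hl', d, hd, hd1, hdS, hXS⟩ := h.ab_stab P hab
    by_cases hda : d ∈ zpowers a
    · rw [hab, sup_bot_eq, ← P.zp_eq hda hd1] at hQa
      exact hl' (hQa.trans (comm_le_kerOn_wt (zpowers_le.2 hdS)))
    have := h.op.le_comm_sup h.XK (zpowers_le.2 hd) ((zpowers_le.2 hd).trans h.AX)
    rw [fX d hd hda, sup_bot_eq] at this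
    exact hl' (h.m.comm.ge.trans (comm_le_kerOn_wt (this.trans hXS)))
  obtain ⟨l, hl, hl', d, hd, hd1, hdS, h0⟩ := h.nonab P hab
  by_cases hda : d ∉ zpowers a
  · exact hl' (h.m.comm.ge.trans (h.frob hl hd (P.prime_ord hd hd1) hdS h0 le_rfl (h.AX hd)
      (by rw [fX d hd hda]; exact bot_le)))
  have e := P.zp_eq (not_not.1 hda) hd1
  have hD := der_le_rad (h.m.cent.trans (cent_le_stabOn (ρ := ρ) _ l)) (wt_scalar le_rfl l)
  have hM : ⁅Q, zpowers a⁆ ≤ Q := comm_le_left (haA.trans h.AQ)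
  have h1 := (shult_prime le_rfl h.m.cent hl (P.prime_ord hd hd1) (h.ordF hd) (h.AQ hd) hdS h0 h.QF
    (h.op.cop_ord h.QK hd)).resolve_left fun h' => hl' (hQa.trans (sup_le (e ▸ h') hD))
  rw [← Nat.card_zpowers, e, Nat.card_zpowers, P.ord, ← H1.relIndex_sup_of_le_normalizer
    (hM.trans (le_norm_rad h.m.cent (le_norm_self Q) (h.m.cent.trans (cent_le_wstab _ l)))),
    le_antisymm (sup_le hM (relC_le _ _)) (hQa.trans (sup_le_sup_left hD _))] at h1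
  obtain ⟨q, hq, hqQ, -⟩ := h.m.ex
  haveI := Fact.mk hq
  obtain ⟨t, ht⟩ := relIndex_eq_pow hqQ (rad ρ Q ⁅Q, Q⁆ l)
  obtain ⟨s, hs, hs'⟩ := exists_pow_of_sq hq (h1.symm.trans ht)
    fun h' => hl' (relIndex_eq_one.1 (h1.trans h'))
  have hc' := (P.out c hc hca).1
  rcases P.cent_or hc hca with ⟨hA, rfl⟩ | ⟨-, hA⟩
  swap
  · rw [hs'] at hA
    have h2 := h.op.cop_ord h.QK hc
    rw [hc', (Nat.prime_dvd_prime_iff_eq P.hp' hq).1 (P.hp'.dvd_of_dvd_pow hA)] at h2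
    exact h.m.lt.ne_bot (card_eq_one.1 ((Nat.coprime_self _).1
      (H1.IsPGroup.coprime_card hqQ h2)))
  have haS : zpowers a ≤ wstab ⁅Q, Q⁆ l := e ▸ zpowers_le.2 hdS
  obtain ⟨S, hS1, hS2, hS3⟩ := exists_cyc_cover (x := c) (M := ⊥) P.hp.pos fun j => by
    rw [mem_bot, ← hc', orderOf_dvd_iff_pow_eq_one]
  have h3 := h.m.prod_bound le_rfl h.AQ h.AX (h.op.fpf' h.QK) (h.op.cop' h.QK le_rfl) hl hl' S
    (fun g hg => zpowers_le.2 hc (hS2 g hg)) (fun g hg hg' => by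
      have h4 := (P.out c hc hca).2 hg
      rw [sup_comm] at h4
      obtain ⟨v, hv, u, hu, rfl⟩ := (H1.mem_sup_of_le_normalizer_right
        ((zpowers_le.2 hc).trans P.nrm)).1 h4
      obtain ⟨s, hs, hs'⟩ := hS3 v hv fun h' => hg' (by rw [mem_bot.1 h', one_mul]; exact haS hu)
      exact ⟨s, hs, by rw [← mul_assoc, mem_bot.1 hs', one_mul]; exact haS hu⟩) le_rfl h.AQ
  have hcA : zpowers c ≤ A := zpowers_le.2 hc
  have hcc : Nat.card (zpowers c) = p' := by rw [Nat.card_zpowers, hc']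
  have h4 := (wiel_mod (K := X) (R := zpowers c) (M := Q) (Y := ⁅Q, Q⁆)
    (le_norm_comm h.m.le_norm h.m.le_norm) (hcA.trans hAZ) (normalizer_commutator_ge_left Q Q)
    (h.op.solv' h.XK) (hcA.trans h.AX) h.m.le_norm (hcA.trans h.AQ) (h.op.solv' h.QK) h.cop.symm
    (h.op.cop' h.QK hcA).symm (h.op.cop' h.XK hcA) (by rw [hcc]; exact P.hp)
    (fun h' => hca (by
      have : c ∈ K ⊓ A := ⟨hZK (h' (mem_zpowers c)), hc⟩
      rw [h.op.inf_eq, mem_bot] at this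
      rw [this]; exact one_mem _)) (by rw [fX c hc hca]; exact bot_le) le_rfl
    (le_sup_of_le_left h.m.comm.ge)).1
  have n1 : A ≤ 𝒩(𝒞(zpowers c)) := le_norm_cent (le_norm_of_le_cent (hA.trans (cent_anti hcA)))
  have h5 := semireg_dvd (H := zpowers a) (Q := Q ⊓ 𝒞(zpowers c)) (Z := ⁅Q, Q⁆ ⊓ 𝒞(zpowers c))
    (haA.trans (le_norm_inf h.AQ n1)) (haA.trans (le_norm_inf hAZ n1))
    (inf_le_inf_right _ h.m.lt.le) (le_norm_inf (inf_le_left.trans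
      (normalizer_commutator_ge_left Q Q)) (inf_le_right.trans (le_norm_self _)))
    (h.op.cop' (inf_le_left.trans hZK) haA) fun g hg hg1 => by
      rw [← cent_zpowers, P.zp_eq hg hg1]
      exact le_inf ((inf_le_inf_right _ inf_le_left).trans hCa) (inf_le_left.trans inf_le_right)
  have e2 : (⁅Q, Q⁆ ⊓ 𝒞(zpowers c)).relIndex (Q ⊓ 𝒞(zpowers c)) =
      (⁅Q, Q⁆).relIndex (Q ⊓ 𝒞(zpowers c)) := by
    rw [← inf_relIndex_right, inf_assoc, inf_eq_right.2 inf_le_right, inf_relIndex_right]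
  obtain ⟨D, hD⟩ := relIndex_eq_pow (hqQ.to_le (inf_le_left : Q ⊓ 𝒞(zpowers c) ≤ Q)) ⁅Q, Q⁆
  rw [e2, hD, Nat.card_zpowers, P.ord] at h5
  rw [hD, hcc] at h4
  have hp2 := P.hp.two_le
  obtain ⟨k, rfl⟩ := two_mul_dvd_of_dvd_pow_sub_one hq.two_le hs (by omega) h5
  have hk : k ≠ 0 := by
    rintro rfl
    exact h.m.lt.not_ge (relIndex_eq_one.1 (by simpa using h4))
  rw [h4, h1, hs'] at h3
  replace h3 := h3.trans (Nat.pow_le_pow_right (pow_pos (pow_pos hq.pos _) _) hS1)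
  rw [← pow_mul, ← pow_mul, ← pow_mul, Nat.pow_le_pow_iff_right hq.one_lt] at h3
  obtain ⟨j, rfl⟩ : ∃ j, p' = j + 1 := ⟨p' - 1, by omega⟩
  obtain ⟨i, rfl⟩ := Nat.exists_eq_succ_of_ne_zero hk
  simp only [Nat.add_sub_cancel, Nat.succ_eq_add_one] at h3
  nlinarith [Nat.zero_le (s * i * j), Nat.zero_le (s * i)]

end Lv

theorem exists_normal_prime {A : Subgroup G} {p p' : ℕ} (hp : p.Prime) (hp' : p'.Prime)
    (hle : p' ≤ p) (hA : Nat.card A = p * p') : ∃ a ∈ A, orderOf a = p ∧ A ≤ 𝒩(zpowers a) := by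
  haveI := Fact.mk hp
  obtain ⟨a, ha⟩ := exists_prime_orderOf_dvd_card' (G := A) p (hA ▸ dvd_mul_right _ _)
  have h1 := (zpowers a).card_mul_index
  rw [Nat.card_zpowers, ha, hA, Nat.mul_right_inj hp.ne_zero] at h1
  have h2 : (zpowers a).Normal := normal_of_index_eq_minFac_card (by
    rw [h1, hA]
    have h3 := Nat.minFac_le_of_dvd hp'.two_le (dvd_mul_left p' p)
    have h4 := Nat.minFac_prime (fun h => hp.ne_one (Nat.eq_one_of_mul_eq_one_right h) : p * p' ≠ 1)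
    rcases (h4.dvd_mul.1 (Nat.minFac_dvd _)) with h | h
    · have := (Nat.prime_dvd_prime_iff_eq h4 hp).1 h; omega
    · exact ((Nat.prime_dvd_prime_iff_eq h4 hp').1 h).symm)
  refine ⟨a, a.2, by rw [Subgroup.orderOf_coe, ha], le_normalizer_iff.2 fun g hg k hk => ?_⟩
  obtain ⟨j, rfl⟩ := hk
  obtain ⟨i, hi⟩ := h2.conj_mem _ (zpow_mem_zpowers a j) ⟨g, hg⟩
  exact ⟨i, congrArg Subtype.val hi⟩

theorem Tw.pq [IsAlgClosed F] [FiniteDimensional F W] {K A T R : Subgroup G} {q r : ℕ}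
    (h : Tw ρ K A T R q r) {p p' : ℕ} (hp : p.Prime) (hp' : p'.Prime) (hle : p' ≤ p)
    (hA : Nat.card A = p * p') (hc : ¬ IsCyclic A) : False := by
  obtain ⟨a, ha, ho, hn⟩ := exists_normal_prime hp hp' hle hA
  have P := pq_of_card hp hp' hA hc ha ho hn
  have caseA : ∀ {a p p'}, PQ A a p p' → R ⊓ 𝒞(zpowers a) ≤ 𝒞(T) := fun P => by
    by_contra h1
    obtain ⟨Q, -, hQ⟩ := h.exists_lv inf_le_left (le_norm_inf h.AR (le_norm_cent P.nrm)) h1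
    exact hQ.caseA P inf_le_right
  by_cases hab : A ≤ 𝒞(A)
  · haveI := comm_of_le_cent hab
    obtain ⟨c, hc1, hc2⟩ := SetLike.not_le_iff_exists.1 P.ex
    obtain rfl := ((P.cent_or hc1 hc2).resolve_right fun h => h.1 hab).2
    refine h.nc (H1.le_of_forall_centralizer_le hc h.AR (h.op.cop' h.RK le_rfl) fun b hb hb1 => ?_)
    rw [← cent_zpowers]
    refine caseA (pq_of_card hp hp hA hc hb ?_ (le_norm_of_le_cent (hab.trans (cent_anti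
      (zpowers_le.2 hb)))))
    by_cases h1 : b ∈ zpowers a
    · rw [← Nat.card_zpowers, P.zp_eq h1 hb1, Nat.card_zpowers, ho]
    · exact (P.out b hb h1).1
  obtain ⟨X, ⟨h1, h2⟩, hXR, hmin⟩ := H1.exists_minimal_le
    (fun X : Subgroup G => A ≤ 𝒩(X) ∧ ¬ X ≤ 𝒞(T)) ⟨h.AR, h.nc⟩
  obtain ⟨Q, hQT, hQ⟩ := h.exists_lv hXR h1 h2
  refine hQ.caseB P hab (((inf_le_inf_right _ hXR).trans (caseA P)).trans (cent_anti hQT))
    (le_trans ?_ (cent_anti hQT))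
  by_contra h3
  have h4 := H1.commutator_self_lt (h.op.solv' (hXR.trans h.RK)) fun h0 => h2 (h0 ▸ bot_le)
  exact h4.ne (hmin _ ⟨le_norm_comm h1 h1, h3⟩ h4.le)

theorem card_cyc_map {G' : Type*} [Group G'] {A : Subgroup G} {f : G →* G'} (h : f.ker ⊓ A = ⊥) :
    Nonempty (A ≃* A.map f) :=
  ⟨MulEquiv.ofBijective (f.subgroupMap A) ⟨(injective_iff_map_eq_one _).2 fun a ha =>
    Subtype.ext (mem_bot.1 (h ▸ (⟨congrArg Subtype.val ha, a.2⟩ : (a : G) ∈ f.ker ⊓ A))),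
    f.subgroupMap_surjective A⟩⟩

theorem Op.equiv_map {K A N : Subgroup G} [N.Normal] (h : Op K A) (hN : N ≤ K) :
    Nonempty (A ≃* A.map (QuotientGroup.mk' N)) :=
  card_cyc_map (by
    rw [QuotientGroup.ker_mk']; exact le_bot_iff.1 (h.inf_eq ▸ inf_le_inf_right _ hN))

theorem Op.nres_nres {K A : Subgroup G} (h : Op K A) {p p' : ℕ} (hp : p.Prime) (hp' : p'.Prime)
    (hA : Nat.card A = p * p') (hc : ¬ IsCyclic A) : nres (nres K) = ⊥ := by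
  by_contra hD
  haveI := h.nrm
  obtain ⟨N, _, F, _, _, W, _, _, _, ρ, q, r, T, R, hN, h1, -⟩ := h.tower3 le_rfl hD
  obtain ⟨e⟩ := h.equiv_map hN
  rw [Nat.card_congr e.toEquiv] at hA
  have hc' : ¬ IsCyclic (A.map (QuotientGroup.mk' N)) := fun _ =>
    hc (isCyclic_of_surjective e.symm e.symm.surjective)
  rcases le_total p' p with hle | hle
  · exact h1.pq hp hp' hle hA hc'
  · exact h1.pq hp' hp hle (by rw [hA, mul_comm]) hc'

theorem height_two_of_pq {G A : Type*} [Group G] [Finite G] [Group A] [Finite A]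
    (φ : A →* MulAut G) (hG : Group.IsSolvable G) (hcop : (Nat.card A).Coprime (Nat.card G))
    (h : ∀ g : G, (∀ a, φ a g = g) → g = 1) {p p' : ℕ} (hp : p.Prime) (hp' : p'.Prime)
    (hA : Nat.card A = p * p') (hc : ¬ IsCyclic A) : nres^[2] (⊤ : Subgroup G) = ⊥ :=
  nres_iter_of_sdL φ ((op_sdp φ hG hcop h).nres_nres hp hp' (by rw [H8.card_sdR, card_top, hA])
    fun _ => hc (isCyclic_of_injective ((SemidirectProduct.inr).codRestrict (H8.sdR φ ⊤)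
      fun a => ⟨a, mem_top a, rfl⟩) fun _ _ e =>
        SemidirectProduct.inr_injective (congrArg Subtype.val e)))

end H9
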