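import Cfsg.Agent.H26.Rv1

set_option autoImplicit false
open Cfsg H17 H19 H26Rv Subgroup

namespace H9.Two

universe u

variable {p : ℕ} [Fact p.Prime] {H : Type u} [Group H] [Finite H]

theorem two (hp : ¬ p ∣ Nat.card H) : TwoP p H := by
  intro h2 U _ _ _ ρ β hi ha
  classical
  haveI := Fintype.ofFinite H
  have c2 : ∀ a : ZMod p, a + a = 0 := fun a => by
    rw [← two_mul, show (2 : ZMod p) = ((2 : ℕ) : ZMod p) by norm_num, ← h2, ZMod.natCast_self,
      zero_mul]
  have sy : ∀ x y, β y x = β x y := fun x y => by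
    have := ha (x + y)
    simp only [map_add, LinearMap.add_apply, ha, zero_add, add_zero] at this
    linear_combination this - c2 (β x y)
  let b := Module.finBasis (ZMod p) U
  let γ0 : U →ₗ[ZMod p] U →ₗ[ZMod p] ZMod p :=
    b.constr (ZMod p) fun i => b.constr (ZMod p) fun j => if i < j then β (b i) (b j) else 0
  have h0 : γ0 + γ0.flip = β := LinearMap.ext_basis b b fun i j => by
    simp only [γ0, LinearMap.add_apply, LinearMap.flip_apply, Module.Basis.constr_basis]
    rcases lt_trichotomy i j with h | rfl | h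
    · rw [if_pos h, if_neg h.not_gt, add_zero]
    · rw [if_neg (lt_irrefl _), add_zero, ha]
    · rw [if_neg h.not_gt, if_pos h, zero_add, sy]
  have h1 : ∀ x y, γ0 x y + γ0 y x = β x y := fun x y => by rw [← h0]; rfl
  have hc : (Fintype.card H : ZMod p) = 1 := by
    rw [← Nat.card_eq_fintype_card]
    obtain ⟨k, hk⟩ : Odd (Nat.card H) := Nat.not_even_iff_odd.1 fun e => hp (h2 ▸ e.two_dvd)
    rw [hk]
    push_cast
    linear_combination c2 k
  refine ⟨∑ h : H, γ0.compl₁₂ (ρ h) (ρ h), fun g x y => ?_, fun x y => ?_⟩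
  · simp only [LinearMap.sum_apply, LinearMap.compl₁₂_apply]
    exact Fintype.sum_equiv (Equiv.mulRight g) _ _ fun h => by simp
  · simp only [LinearMap.sum_apply, LinearMap.compl₁₂_apply]
    rw [← Finset.sum_add_distrib]
    simp only [h1, hi _ x y]
    rw [Finset.sum_const, Finset.card_univ, nsmul_eq_mul, hc, one_mul]

end H9.Two
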