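import Cfsg.Agent.H9.O8c
import Cfsg.Agent.H9.Q24
import Cfsg.Agent.H9.A23a
/-! The subgroups of order 13 of M(24). -/
namespace H9
open Cfsg H27 H28 H16 Subgroup
set_option Elab.async false
set_option maxRecDepth 100000
variable {G : Type*} [Group G] [Finite G] {D : Set G} {ε : Nat → G} {xs : List G}
def xc13 : Ex := .w [7, 5, 8, 6, 3, 10, 11, 4]
theorem c13_o (h : F24' D ε xs) : orderOf (xc13.ev xs) = 13 := h.orderOf_eq (b24 h) (by norm_num) 48 (by decide +kernel)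
theorem c13_r (h : F24' D ε xs) : Rep t24 ε (orL [0, 1, 2, 114827, 277019, 278063]) (D ∩ (C[zpowers (xc13.ev xs)] : Set G)) :=
  rep_eq (h.rep_fixX _) (by decide +kernel)
def tc13 : Ex := .w [10, 6, 5, 11, 9, 7, 4, 5, 4, 3, 9, 10, 11, 10, 4, 5, 4, 10, 6, 5, 4, 3, 4, 10, 6, 7, 8, 6, 5, 10, 11, 6, 7, 4, 5, 10, 6, 5, 4, 3, 6, 5, 7, 10, 6, 5, 11, 7, 5, 10, 6, 4, 5, 4, 6, 10, 5, 6, 7, 5, 10, 6, 4, 5, 4, 6, 10, 5, 7, 10, 11, 8, 6, 5, 7, 10, 6, 4, 5, 4, 6, 10, 7, 5, 6, 8, 11, 10, 7, 4, 6, 11]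
theorem c13_f (h : F24' D ε xs) : Frb (zpowers (xc13.ev xs)) (zpowers (xc13.ev xs) ⊔ zpowers (tc13.ev xs)) 78 :=
  frb_of (a := 4) (e := 6) (c13_o h) (h.eq_ofQ q24ok (b24 h) (a := tc13.cj xc13) (b := xc13.pow 4) (by decide +kernel))
    (h.eq_ofQ q24ok (b24 h) (a := tc13.pow 6) (b := .one) (by decide +kernel)) (by decide)
def qb13 : Px := (5, .w [9, 8, 7, 6, 5, 10, 4, 5, 3, 6, 7, 8, 9, 4, 5, 10, 6, 5, 7, 8, 6, 7, 4, 5, 3, 10, 6, 4])
def qc13 : Px := (3, .w [3, 10, 4, 2, 3, 4, 5, 10, 11, 6, 7, 8, 9, 4, 5, 10, 6, 4, 5, 10, 6, 7, 8, 6, 4, 2, 3, 4, 5, 10, 11, 6, 7, 4, 5, 10, 6, 5, 4, 2])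
omit [Finite G] in
theorem cl_four (a b c d : G) : closure ({a, b, c, d} : Set G) = closure {a, d} ⊔ closure {b, c} := by
  rw [← Subgroup.closure_union]; congr 1; ext; simp; tauto
theorem s3s3 (m : M24 D) {a b c d : G} (ha : a ∈ D) (hb : b ∈ D) (hc : c ∈ D) (hd : d ∈ D) (n1 : ¬ Commute a d)
    (n2 : ¬ Commute b c) (c1 : Commute a b) (c2 : Commute a c) (c3 : Commute d b) (c4 : Commute d c) :
    Nat.card (closure ({a, b, c, d} : Set G)) = 36 ∧ C[closure ({a, b, c, d} : Set G)] ⊓ closure {a, b, c, d} = ⊥ := by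
  obtain ⟨i1, -, -, ⟨e1⟩, -⟩ := np_main m.lv.tg ha hd n1 (m.line ha hd n1).1.ln
  obtain ⟨i2, -, -, ⟨e2⟩, -⟩ := np_main m.lv.tg hb hc n2 (m.line hb hc n2).1.ln
  rw [cn_two, ← centralizer_closure] at i1 i2
  have l : closure ({b, c} : Set G) ≤ C[closure ({a, d} : Set G)] := by
    rw [centralizer_closure, closure_le]; rintro _ (rfl | rfl) _ (rfl | rfl) <;> assumption
  have l' := le_centralizer_iff.1 l
  rw [cl_four]
  refine ⟨by rw [prod_card l' (eq_bot_iff.2 (i1 ▸ inf_le_inf_left _ l)), Nat.card_congr e1.toEquiv, Nat.card_congr e2.toEquiv]; simp; rfl,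
    eq_bot_iff.2 fun z ⟨h1, h2⟩ => ?_⟩
  obtain ⟨u, hu, v, hv, rfl⟩ := (mem_sup_lr (.inl (l'.trans (cent_le_norm _)))).1 h2
  rw [i1.le ⟨hu, (mul_mem_cancel_right (l hv)).1 (centralizer_le (SetLike.coe_mono le_sup_left) h1)⟩,
    i2.le ⟨hv, (mul_mem_cancel_left (l' hu)).1 (centralizer_le (SetLike.coe_mono le_sup_right) h1)⟩]
  simp
omit [Finite G] in
theorem tr13 {X T K : Subgroup G} {k : G} (hK : K :^ k = K) (hT : T :^ k = T) (h : N[X] ≤ N[K] ∧ Nat.card ↥(K ⊓ N[X]) = 78 ∧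
    K ⊓ C[X] = X ∧ ((K ⊓ N[X]) ⊔ T).relIndex N[X] = 2) : N[X :^ k] ≤ N[K] ∧ Nat.card ↥(K ⊓ N[X :^ k]) = 78 ∧
    K ⊓ C[X :^ k] = X :^ k ∧ ((K ⊓ N[X :^ k]) ⊔ T).relIndex N[X :^ k] = 2 := by
  rw [← hK, ← hT, norm_cj, norm_cj, cent_cj, ← cj_inf, ← cj_inf, ← cj_sup, card_cj, relIndex_cj, cj_le_cj, H16.cj_inj]; exact h
theorem n24_13 (h : F24' D ε xs) (hR : Res D Spor.Fi23) (m : M24 D) : ∃ (a b c d : G) (T K : Subgroup G),
    (∀ x ∈ [a, b, c, d], x ∈ D) ∧ ¬ Commute a d ∧ ¬ Commute b c ∧ Commute a b ∧ Commute a c ∧ Commute d b ∧ Commute d c ∧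
    T = closure ({a, b, c, d} : Set G) ∧ K = C[T] ∧ Nonempty (K ≃* G23) ∧ ∀ B : Subgroup G, B ≤ K → Nat.card B = 13 →
      N[B] ≤ N[K] ∧ Nat.card ↥(K ⊓ N[B]) = 78 ∧ K ⊓ C[B] = B ∧ (((K ⊓ N[B]) ⊔ T).subgroupOf N[B]).index = 2 := by
  obtain ⟨T, hT⟩ : ∃ T, T = closure ({ε 0, ε 114827, ε 277019, ε 2} : Set G) := ⟨_, rfl⟩
  have e1 : ε 0 * ε 2 * (ε 0)⁻¹ = ε 1 := (h.ix_eq (p := (0, .one)) (by decide)).symm ▸ (h.actQ q24ok (by decide) (by decide +kernel)).2
  have eb : ε 114827 = qb13.ex.ev xs := (by decide +kernel : qb13.ix t24 = 114827) ▸ h.ix_eq (by decide)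
  have ec : ε 277019 = qc13.ex.ev xs := (by decide +kernel : qc13.ix t24 = 277019) ▸ h.ix_eq (by decide)
  have e2 : ε 114827 * ε 277019 * (ε 114827)⁻¹ = ε 278063 := eb.symm ▸ (h.actQ q24ok (by decide) (by decide +kernel)).2
  have n1 : ¬ Commute (ε 0) (ε 2) := fun k => absurd (h.inj (by decide) (by decide) (e1.symm.trans (k.mul_inv_cancel))) (by decide)
  have n2 : ¬ Commute (ε 114827) (ε 277019) := fun k => absurd (h.inj (by decide) (by decide) (e2.symm.trans (k.mul_inv_cancel))) (by decide)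
  have fx : ∀ {e : Ex} {i}, i < 306936 → toQ q24 12 e i i = true → Commute (ε i) (e.ev xs) := fun hi c =>
    (mul_inv_eq_iff_eq_mul.1 (h.actQ q24ok hi c).2).symm
  have c1 : Commute (ε 0) (ε 114827) := eb ▸ fx (by decide) (by decide +kernel)
  have c2 : Commute (ε 0) (ε 277019) := ec ▸ fx (by decide) (by decide +kernel)
  have c3 : Commute (ε 2) (ε 114827) := eb ▸ fx (by decide) (by decide +kernel)
  have c4 : Commute (ε 2) (ε 277019) := ec ▸ fx (by decide) (by decide +kernel)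
  have mm : ∀ {i}, i < 306936 → ε i ∈ D := h.mem
  obtain ⟨cT, iT⟩ := s3s3 m (mm (by decide)) (mm (by decide)) (mm (by decide)) (mm (by decide)) n1 n2 c1 c2 c3 c4
  have ct : ∀ e : Ex, allL [0, 114827, 277019, 2] (fun i => toQ q24 12 e i i) = true → zpowers (e.ev xs) ≤ C[T] := fun e c => by
    rw [hT, centralizer_closure, zpowers_le]
    rintro _ (rfl | rfl | rfl | rfl) <;> exact fx (by decide) ((allL_iff _ _).1 c _ (by simp))
  have x1 := ct xc13 (by decide +kernel)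
  have cB := (card_zpowers _).trans (c13_o h)
  have iso : Nonempty (C[T] ≃* G23) := by
    obtain ⟨b, c₁, c₂, -, -, -, o, k, -, ⟨e⟩⟩ := pairs24 m (mm (by decide)) (mm (by decide)) n1
    obtain ⟨g, hg, u, v⟩ := o _ _ (mm (by decide)) (mm (by decide)) c1 c3 c2 c4 n2
    have q : C[T] :^ g = Cn [ε 0, ε 2] ⊓ C[closure {b, g * ε 277019 * g⁻¹}] := by
      rw [← u, ← cj_pair, ← cent_four_cj hg, hT, centralizer_closure]; congr 2; ext; simp; tauto
    obtain v | v := v <;> rw [v, ← cent_four] at q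
    · have := card_dvd x1
      rw [cB, ← card_cj _ g, q, k] at this
      exact absurd this (by norm_num)
    · exact ⟨((equivMapOfInjective _ _ (MulAut.conj g).injective).trans (MulEquiv.subgroupCongr q)).trans e⟩
  have cK := (Nat.card_congr iso.some.toEquiv).trans card_g23
  refine ⟨ε 0, ε 114827, ε 277019, ε 2, T, C[T], fun x hx => by
    simp only [List.mem_cons, List.not_mem_nil, or_false] at hx; rcases hx with rfl | rfl | rfl | rfl <;> exact mm (by decide), n1, n2, c1, c2, c3, c4,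
    hT, rfl, iso, fun B hB c => ?_⟩
  obtain ⟨⟨k, hk⟩, e⟩ := cj_of_sylow1 (p := 13) (by norm_num) (by rw [cK]; norm_num) _ _ ((card_sgo x1).trans cB) ((card_sgo hB).trans c)
  obtain rfl : zpowers (xc13.ev xs) :^ k = B := eq_of_le_of_card_ge (cj_le_forall.2 fun y hy =>
    e.le (cj_mem (x := ⟨y, x1 hy⟩) hy)) (by rw [card_cj, c, cB])
  refine tr13 (cj_self hk) (cj_cent hk) ?_
  clear e c hB hk k
  have f := c13_f h
  have r := Fr.rep_list (c13_r h)
  have eT : closure (D ∩ (C[zpowers (xc13.ev xs)] : Set G)) = T := hT ▸ le_antisymm ((closure_le _).2 fun y hy => by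
      have s : ∀ y ∈ ({ε 0, ε 114827, ε 277019, ε 2} : Set G), y ∈ closure ({ε 0, ε 114827, ε 277019, ε 2} : Set G) := fun _ a => subset_closure a
      simp only [r, List.map_cons, List.map_nil, List.mem_cons, List.not_mem_nil, or_false, ← e1, ← e2] at hy
      rcases hy with rfl | rfl | rfl | rfl | rfl | rfl <;>
        first | (apply s; simp; done) | exact mul_mem (mul_mem (s _ (by simp)) (s _ (by simp))) (inv_mem (s _ (by simp))))
    (closure_mono fun y hy => (r y).2 (by simp at hy ⊢; tauto))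
  have cN := (tower_syl hR (by decide) cB ((r (ε 0)).2 (by simp)) h.tm.cj (by norm_num) (fun Y hY => (n23_13 m23 res23 Y hY).2)
    ((h.rep_ncard (c13_r h)).trans (by decide +kernel : _ = 6)) h.card (by decide)).1
  have tN : T ≤ N[zpowers (xc13.ev xs)] := (eT ▸ closure_fix_le D _).trans (cent_le_norm _)
  rw [← hT] at cT iT
  have cS := prod_card (F := C[T] ⊓ N[zpowers (xc13.ev xs)]) inf_le_left (eq_bot_iff.2 (iT ▸ inf_le_inf_right _ inf_le_left))
  have dv := card_dvd (sup_le (inf_le_right (a := C[T])) tN)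
  have le : zpowers (xc13.ev xs) ⊔ zpowers (tc13.ev xs) ≤ C[T] ⊓ N[zpowers (xc13.ev xs)] :=
    le_inf (sup_le x1 (ct tc13 (by decide +kernel))) f.norm
  obtain ⟨k, hk⟩ := card_dvd le
  obtain ⟨n, s1, s2⟩ := sylow_count (p := 13) (k := 1) (by norm_num) x1 cB (by rw [cK]; norm_num)
  rw [inf_comm, cK] at s2
  rw [cS, cN, cT, hk, f.card] at dv
  have k1 : k = 1 := by
    have := Nat.le_of_dvd (by norm_num) dv
    rw [hk, f.card] at s2
    obtain rfl | rfl | rfl : k = 0 ∨ k = 1 ∨ k = 2 := by omega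
    all_goals omega
  rw [k1, mul_one] at hk
  refine ⟨norm_cent (fun g hg => mem_norm_of_cj_le ?_), hk.trans f.card, ?_, ?_⟩
  · rw [← eT]
    exact map_le_iff_le_comap.2 ((closure_le _).2 fun y hy => subset_closure (fix_conj h.tm.cj hg hy))
  · have := f.inf
    rwa [eq_of_le_of_card_ge le hk.le, inf_assoc, inf_eq_right.2 (cent_le_norm _)] at this
  · have := (((C[T] ⊓ N[zpowers (xc13.ev xs)]) ⊔ T).subgroupOf N[zpowers (xc13.ev xs)]).card_mul_index
    rw [card_sgo (sup_le inf_le_right tN), cS, cN, cT, hk, f.card] at this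
    rw [relIndex]; omega
end H9
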