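import Cfsg.Agent.H9.Fy1
import Cfsg.Agent.H9.Fr22
import Cfsg.Agent.H28.O8

set_option autoImplicit false

/-! Automorphisms of groups given by a frame: fixed subgroups, parity arguments. -/

namespace H9
open Cfsg H27 H28 H16 Subgroup
noncomputable section
variable {G : Type*} [Group G]

/-- the elements fixed by an automorphism -/
def Fx (t : MulAut G) : Subgroup G := (t : G →* G).eqLocus (MonoidHom.id G)
theorem mem_Fx {t : MulAut G} {g : G} : g ∈ Fx t ↔ t g = g := Iff.rfl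
theorem card_Fx_conj {t u : MulAut G} (h : IsConj t u) : Nat.card (Fx t) = Nat.card (Fx u) := by
  obtain ⟨φ, rfl⟩ := isConj_iff.1 h
  rw [← card_map_of_injective (f := (φ : G →* G)) φ.injective]
  congr 2
  ext g
  obtain ⟨g, rfl⟩ := φ.surjective g
  rw [← MonoidHom.coe_coe φ, mem_map_iff_mem φ.injective, mem_Fx, mem_Fx]
  simp

theorem odd_fix {α : Type*} {N : Set α} (hN : Odd N.ncard) {t : α → α} (tN : ∀ x ∈ N, t x ∈ N)
    (tt : ∀ x ∈ N, t (t x) = x) : ∃ x ∈ N, t x = x := by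
  have : Finite N := Set.finite_of_ncard_ne_zero hN.pos.ne'
  have := Fintype.ofFinite N
  obtain ⟨x, hx⟩ := Equiv.Perm.exists_fixed_point_of_prime (p := 2) (n := 1) (α := N) (by
    rw [← Nat.card_eq_fintype_card, Nat.card_coe_set_eq]; exact hN.not_two_dvd_nat)
    (σ := Function.Involutive.toPerm (fun x => ⟨t x, tN x x.2⟩) fun x => Subtype.ext (tt x x.2))
    (Equiv.ext fun x => Subtype.ext (tt x x.2))
  exact ⟨x, x.2, congrArg Subtype.val hx⟩

/-- the members of `N` with the same neighbours in `N` as `x` -/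
def Fb (N : Set G) (x : G) : Set G := {y | y ∈ N ∧ ∀ z ∈ N, Commute x z ↔ Commute y z}
theorem fb_aut {N : Set G} (φ : MulAut G) (hφ : ∀ y, φ y ∈ N ↔ y ∈ N) (x y : G) : φ y ∈ Fb N (φ x) ↔ y ∈ Fb N x := by
  have c : ∀ a b, Commute (φ a) (φ b) ↔ Commute a b := fun a b => by
    simp only [commute_iff_eq, ← map_mul, φ.injective.eq_iff]
  refine and_congr (hφ y) ⟨fun k z hz => by rw [← c, k _ ((hφ z).2 hz), c], fun k z hz => ?_⟩
  obtain ⟨z, rfl⟩ := φ.surjective z
  rw [c, c, k z ((hφ z).1 hz)]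
theorem fb_card {N : Set G} (φ : MulAut G) (hφ : ∀ y, φ y ∈ N ↔ y ∈ N) (x : G) : (Fb N (φ x)).ncard = (Fb N x).ncard := by
  rw [← Set.ncard_image_of_injective (Fb N x) φ.injective]
  congr 1
  ext y
  obtain ⟨y, rfl⟩ := φ.surjective y
  rw [fb_aut φ hφ, φ.injective.mem_set_image]
theorem fb_trans {N : Set G} {x y z : G} (h : y ∈ Fb N x) (k : z ∈ Fb N y) : z ∈ Fb N x :=
  ⟨k.1, fun w hw => (h.2 w hw).trans (k.2 w hw)⟩
theorem blk_fix [Finite G] {N : Set G} (t : MulAut G) (tN : ∀ y, t y ∈ N ↔ y ∈ N) (tt : ∀ x, t (t x) = x)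
    {m k : ℕ} (hk : Odd k) (hm : 0 < m) (hc : N.ncard = k * m) (fib : ∀ x ∈ N, (Fb N x).ncard = m) :
    ∃ x ∈ N, t x ∈ Fb N x := by
  classical
  have key := Finset.card_eq_sum_card_image (Fb N) N.toFinite.toFinset
  have e : ∀ x ∈ N, ∀ y ∈ N, Fb N y = Fb N x ↔ y ∈ Fb N x := fun x hx y hy =>
    ⟨fun q => q ▸ ⟨hy, fun _ _ => Iff.rfl⟩, fun q => Set.ext fun z => ⟨fb_trans q,
      fb_trans ⟨hx, fun w hw => (q.2 w hw).symm⟩⟩⟩
  rw [Finset.sum_congr rfl (g := fun _ => m), Finset.sum_const, smul_eq_mul, ← Set.ncard_eq_toFinset_card _ N.toFinite, hc,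
    Nat.mul_left_inj hm.ne', ← Set.ncard_coe_finset, Finset.coe_image, Set.Finite.coe_toFinset] at key
  · have im : ∀ x, t '' Fb N x = Fb N (t x) := fun x => Set.ext fun y => by
      obtain ⟨y, rfl⟩ := t.surjective y
      rw [fb_aut t tN, t.injective.mem_set_image]
    obtain ⟨_, ⟨x, hx, rfl⟩, q⟩ := odd_fix (key ▸ hk) (t := fun S => t '' S)
      (by rintro _ ⟨x, hx, rfl⟩; exact ⟨t x, (tN x).2 hx, (im x).symm⟩)
      (by rintro _ ⟨x, hx, rfl⟩; simp only [im, tt])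
    exact ⟨x, hx, (e x hx _ ((tN x).2 hx)).1 ((im x).symm.trans q)⟩
  · intro S hS
    obtain ⟨x, hx, rfl⟩ := Finset.mem_image.1 hS
    rw [Set.Finite.mem_toFinset] at hx
    rw [← fib x hx, ← Set.ncard_coe_finset]
    congr 1
    ext y
    simp only [Finset.coe_filter, Set.Finite.mem_toFinset, Set.mem_setOf_eq]
    exact ⟨fun q => (e x hx y q.1).1 q.2, fun q => ⟨q.1, (e x hx y q.1).2 q⟩⟩
theorem nb_aut {D : Set G} (φ : MulAut G) (hφ : ∀ y, φ y ∈ D ↔ y ∈ D) {l : List G} (hl : ∀ x, φ x ∈ l ↔ x ∈ l) (y : G) :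
    φ y ∈ Nb D l ↔ y ∈ Nb D l := by
  have c : ∀ a b, Commute (φ a) (φ b) ↔ Commute a b := fun a b => by
    simp only [commute_iff_eq, ← map_mul, φ.injective.eq_iff]
  refine and_congr (hφ y) (and_congr (not_congr (hl y)) ⟨fun k x hx => (c _ _).1 (k _ ((hl x).2 hx)), fun k x hx => ?_⟩)
  obtain ⟨x, rfl⟩ := φ.surjective x
  exact (c _ _).2 (k x ((hl x).1 hx))
theorem mem_of_maps (φ : MulAut G) {l : List G} (h : ∀ x ∈ l, φ x ∈ l) (x : G) : φ x ∈ l ↔ x ∈ l := by
  refine ⟨fun k => ?_, h x⟩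
  obtain ⟨y, hy, e⟩ := ((Set.Finite.injOn_iff_bijOn_of_mapsTo (List.finite_toSet l) (f := φ) h).1 φ.injective.injOn).surjOn k
  exact φ.injective e ▸ hy

theorem sub_of_cl {xs : List G} {As : List Ex} (h1 : ∀ a ∈ As, a.ev xs * a.ev xs = 1)
    (h2 : ∀ a ∈ As, ∀ b ∈ As, Commute (a.ev xs) (b.ev xs)) {g : G} (hg : g ∈ cl (As.map (Ex.ev xs))) :
    ∃ u ∈ (List.range As.length).sublists, g = (Ex.sub As u).ev xs := by
  let v : ℕ → G := fun i => (nth .one As i).ev xs
  have m : ∀ i, nth .one As i = .one ∨ nth .one As i ∈ As := fun i => by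
    rw [nth_eq]
    rcases lt_or_ge i As.length with k | k
    · rw [List.getD_eq_getElem _ _ k]; exact .inr (List.getElem_mem k)
    · exact .inl (List.getD_eq_default _ _ k)
  have v1 : ∀ i, v i * v i = 1 := fun i => (m i).elim (fun e => by simp [v, e, Ex.ev_one]) (h1 _)
  have v2 : ∀ i j, Commute (v i) (v j) := fun i j => (m i).elim (fun e => by simp [v, e, Ex.ev_one]) fun a =>
    (m j).elim (fun e => by simp [v, e, Ex.ev_one]) (h2 _ a _)
  have c : ∀ i u, (Ex.sub As (i :: u)).ev xs = v i * (Ex.sub As u).ev xs := fun _ _ => rfl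
  have key : ∀ (l u : List ℕ), u.Sublist l → ∀ i ∈ l, ∃ u', u'.Sublist l ∧
      v i * (Ex.sub As u).ev xs = (Ex.sub As u').ev xs := by
    intro l u hu
    induction hu with
    | slnil => intro i hi; cases hi
    | @cons u l a hu ih =>
      intro i hi
      rcases List.mem_cons.1 hi with rfl | hi
      · exact ⟨i :: u, hu.cons_cons i, rfl⟩
      · obtain ⟨u', a, b⟩ := ih i hi
        exact ⟨u', a.cons _, b⟩
    | @cons_cons u l a hu ih =>
      intro i hi
      rcases List.mem_cons.1 hi with rfl | hi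
      · exact ⟨u, hu.cons _, by rw [c, ← mul_assoc, v1, one_mul]⟩
      · obtain ⟨u', p, q⟩ := ih i hi
        exact ⟨a :: u', p.cons_cons a, by rw [c, c, ← q, ← mul_assoc, ← mul_assoc, (v2 i a).eq]⟩
  simp only [List.mem_sublists]
  induction hg using Subgroup.closure_induction_left with
  | one => exact ⟨[], List.nil_sublist _, rfl⟩
  | mul_left a ha _ _ ih =>
    obtain ⟨u, p, rfl⟩ := ih
    obtain ⟨a, hb, rfl⟩ := List.mem_map.1 ha
    obtain ⟨i, hi, rfl⟩ := List.getElem_of_mem hb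
    obtain ⟨u', q, r⟩ := key _ u p i (List.mem_range.2 hi)
    exact ⟨u', q, by rw [← r, ← List.getD_eq_getElem _ .one hi, ← nth_eq]⟩
  | inv_mul_cancel a ha _ _ ih =>
    obtain ⟨u, p, rfl⟩ := ih
    obtain ⟨a, hb, rfl⟩ := List.mem_map.1 ha
    rw [inv_eq_of_mul_eq_one_right (h1 a hb)]
    obtain ⟨i, hi, rfl⟩ := List.getElem_of_mem hb
    obtain ⟨u', q, r⟩ := key _ u p i (List.mem_range.2 hi)
    exact ⟨u', q, by rw [← r, ← List.getD_eq_getElem _ .one hi, ← nth_eq]⟩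

/-- `s` acts on the table as the network `S` -/
def AutN (n : Nat) (ε : Nat → G) (s : MulAut G) (S : Net) : Prop := ∀ j < n, nf S j < n ∧ s (ε j) = ε (nf S j)
def autChk (T : TD) (K : Nat) (S : Net) (Y : List Px) : Bool :=
  and' (and' (S.valid T.n) (xok K S)) (allN K fun b => force (plane K T.n b) fun I => force (S.app I) fun J =>
    and' (Nat.beq (S.app J) I) (allN T.m fun g => Nat.beq ((nth .nil T.Ns g).app J)
      (S.app ((nth px0 Y g).ex.ap T.Ns false I))))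
def autIx (T : TD) (S : Net) (Y : List Px) : Bool := allN T.m fun g =>
  and' (Nat.ble (Nat.succ (nth px0 Y g).1) T.m) (Nat.beq ((nth px0 Y g).ix T) (nf S (nth 0 T.I g)))
def mvS (T : TD) (K : Nat) (S : Net) (a : Ex) (k : Nat) : Nat := Nat.rec (motive := fun _ => Nat) 0 (fun k ih =>
  force ih fun X => force (plane K T.n k) fun I => Nat.lor X (Nat.xor (a.ap T.Ns false (S.app I)) I)) k
def fxS (T : TD) (K : Nat) (S : Net) (a : Ex) : Nat := H28.dif (ones T.n) (mvS T K S a K)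
def imS (T : TD) (S : Net) (P Q : List Px) : Bool := all2 (fun p q => and' (and' (Nat.ble (Nat.succ p.1) T.m)
  (Nat.ble (Nat.succ q.1) T.m)) (Nat.beq (nf S (p.ix T)) (q.ix T))) P Q
def isP (T : TD) (p : Px) (j : Nat) : Bool := and' (Nat.ble (Nat.succ p.1) T.m) (Nat.beq (p.ix T) j)
def fbChk (T : TD) (a : Nat) (q : Px) (Q R : List Px) (L : List Nat) : Bool :=
  force a fun a => force (Nat.land a (q.nb T)) fun b => and' (and' (and' (Nat.ble (Nat.succ q.1) T.m) (okP T Q))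
    (and' (allL Q fun z => tb b (z.ix T)) (subM (Nat.land a (nbL T Q)) (orL L))))
    (all2 (fun r j => and' (and' (isP T r j) (tb a j)) (Nat.beq (Nat.land a (r.nb T)) b)) R L)

namespace Fr
variable {T : TD} {K c : Nat} {D : Set G} {ε : Nat → G} {xs : List G}
theorem plane_iff (h : Fr T K c D ε xs) (i : Nat) {j : Nat} (hj : j < T.n) : (plane K T.n i).testBit j = j.testBit i := by
  rw [plane, show Nat.land _ _ = idp i K &&& ones T.n from rfl, Nat.testBit_and, testBit_idp, (testBit_ones _ _).2 hj]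
  simp [lt_of_lt_of_le hj h.ok.1]
theorem px (h : Fr T K c D ε xs) {p : Px} {j : Nat} (hc : isP T p j = true) : j < T.n ∧ p.ex.ev xs = ε j := by
  simp only [isP, and'_eq, Bool.and_eq_true, Nat.ble_eq, beq_iff] at hc
  exact hc.2 ▸ ⟨h.ix_lt hc.1, (h.ix_eq hc.1).symm⟩
theorem aut (h : Fr T K c D ε xs) {r : Nat} (hr : T.rch r = true) {S : Net} {Y : List Px} (hc : autChk T K S Y = true)
    (hi : autIx T S Y = true) : ∃ s : MulAut G, AutN T.n ε s S ∧ s * s = 1 ∧
      ∀ a, Rep T ε (fxS T K S a) {y | y ∈ D ∧ (s * MulAut.conj (a.ev xs)) y = y} := by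
  simp only [autChk, autIx, and'_eq, Bool.and_eq_true, allN_iff, force_eq, beq_iff, Nat.ble_eq] at hc hi
  obtain ⟨⟨v, x⟩, hc⟩ := hc
  have ok := Net.ok_of_valid v
  have e : ∀ j, nf S j = S.fn j := nf_eq h.ok.1 ok (by rw [x, or'_eq, Bool.or_true])
  have lt : ∀ {j}, j < T.n → S.fn j < T.n := fun hj => Net.fn_lt ok hj
  have b : ∀ {i j}, i < T.n → j < T.n → (∀ k < K, (plane K T.n k).testBit i = (plane K T.n k).testBit j) → i = j :=
    fun hi hj q => eq_of_testBit_lt (hi.trans_le h.ok.1) (hj.trans_le h.ok.1) fun k hk => by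
      rw [← h.plane_iff k hi, q k hk, h.plane_iff k hj]
  have ss : ∀ j < T.n, S.fn (S.fn j) = j := fun j hj => b (lt (lt hj)) hj fun k hk => by
    rw [← Net.testBit_app ok, ← Net.testBit_app ok, (hc k hk).1]
  obtain ⟨σ, f, q⟩ := h.tm.fhom_of hr (β := fun k => ε (S.fn k)) (fun k hk => tt_sq h.tm.tt (h.mem (lt hk)))
    fun g hg k hk => by
      rw [← e (nth 0 T.I g), ← (hi g hg).2, h.ix_eq (hi g hg).1, h.act _ (lt hk)]
      refine congrArg ε (b (h.fn_lt _ _ (lt hk)) (lt (fnW_lt h.tm.ok _ hk)) fun i hi => ?_)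
      rw [← h.ap_eq, ← Net.testBit_app ok, ← (hc i hi).2 g hg, Net.testBit_app (h.tm.ok g), Net.testBit_app ok]
      rfl
  have fi := h.tm.fiso_of f q fun i hi j hj k => by
    rw [← ss i hi, h.inj (lt hi) (lt hj) k, ss j hj]
  have im : σ '' D = D := (h.tm.image_eq q).trans (Set.ext fun y => ⟨by rintro ⟨k, hk, rfl⟩; exact h.mem (lt hk), fun hy => by
    obtain ⟨j, hj, rfl⟩ := h.surj hy
    exact ⟨_, lt hj, congrArg ε (ss j hj)⟩⟩)
  rw [im] at fi
  have t := h.tm.gen_top h.top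
  obtain ⟨s, hs⟩ := fi.mulEquiv t t (fun _ => tt_inv h.tm.tt) (fun _ => tt_inv h.tm.tt) h.cen h.cen
  have a : ∀ j < T.n, s (ε j) = ε (S.fn j) := fun j hj => (hs _ (h.mem hj)).trans (q j hj)
  refine ⟨s, fun j hj => e j ▸ ⟨lt hj, a j hj⟩, ?_, fun w => ⟨fun y hy => h.surj hy.1, fun j => ?_⟩⟩
  · refine MulEquiv.toMonoidHom_injective (MonoidHom.eq_of_eqOn_dense t fun y hy => ?_)
    obtain ⟨j, hj, rfl⟩ := h.surj hy
    change s (s (ε j)) = ε j
    rw [a j hj, a _ (lt hj), ss j hj]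
  · rw [fxS, dif_iff, testBit_ones, Bool.not_eq_true]
    refine and_congr_right fun hj => ?_
    have hw := h.fn_lt w false hj
    have key : ∀ k, (mvS T K S w k).testBit j = false ↔
        ∀ i < k, (plane K T.n i).testBit (S.fn (w.fn T.Ns false j)) = (plane K T.n i).testBit j := fun k => by
      induction k with
      | zero => simp [mvS]
      | succ k ih =>
        rw [show mvS T K S w (k + 1) = force (mvS T K S w k) fun X => force (plane K T.n k) fun I =>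
          X ||| (w.ap T.Ns false (S.app I) ^^^ I) from rfl, force_eq, force_eq, Nat.testBit_or, Bool.or_eq_false_iff,
          Nat.testBit_xor, h.ap_eq, Net.testBit_app ok, Nat.forall_lt_succ_right]
        exact and_congr ih (by simp)
    rw [key, Set.mem_setOf_eq, MulAut.mul_apply, MulAut.conj_apply, h.act w hj, a _ hw]
    exact ⟨fun k => ⟨h.mem hj, congrArg ε (b (lt hw) hj k)⟩, fun k i _ => by rw [h.inj (lt hw) hj k.2]⟩
theorem s_sub (h : Fr T K c D ε xs) {s : MulAut G} {S : Net} (a : AutN T.n ε s S) {P Q : List Px}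
    (hc : imS T S P Q = true) (u : List Nat) :
    s ((Ex.sub (mapL Px.ex P) u).ev xs) = (Ex.sub (mapL Px.ex Q) u).ev xs := by
  have key : ∀ i, s ((nth .one (mapL Px.ex P) i).ev xs) = (nth .one (mapL Px.ex Q) i).ev xs := by
    rw [imS, all2_iff] at hc
    induction hc with
    | nil => exact fun i => by cases i <;> exact map_one s
    | @cons p q _ _ k _ ih =>
      simp only [and'_eq, Bool.and_eq_true, Nat.ble_eq, beq_iff] at k
      intro i
      cases i with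
      | zero =>
        change s (p.ex.ev xs) = q.ex.ev xs
        rw [← h.ix_eq k.1.1, ← h.ix_eq k.1.2, (a _ (h.ix_lt k.1.1)).2, k.2]
      | succ i => exact ih i
  induction u with
  | nil => exact map_one s
  | cons i u ih => exact (map_mul s _ _).trans (congrArg₂ (· * ·) (key i) ih)
theorem lvlH [Finite G] (h : Fr T K c D ε xs) (H : Subgroup G) {P : List Px} (Q : List ((List Nat × Nat) × Px)) (d : Px)
    {a : Nat} (ha : ∀ g ∈ H ⊓ CA ((alph P []).map (Ex.ev xs)), ∀ j < T.n, g * d.ex.ev xs * g⁻¹ = ε j → a.testBit j = true)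
    (c1 : Nat) (hc : lvl T K a P [] Q d c1 = true) {c0 : Nat}
    (h0 : Nat.card ↥(H ⊓ CA ((alph (d :: P) []).map (Ex.ev xs))) ≤ c0) :
    Nat.card ↥(H ⊓ CA ((alph P []).map (Ex.ev xs))) ≤ c1 * c0 := by
  simp only [lvl, dvOk, and'_eq, Bool.and_eq_true, Nat.ble_eq, beq_iff, allL_iff, frc_eq, mapL_eq] at hc
  obtain ⟨⟨h1, h2⟩, h3⟩ := hc
  obtain ⟨hd, hP⟩ := List.forall_mem_cons.1 (okP_iff.1 h1)
  rw [alph_cons, List.map_cons, CA_cons, ← inf_assoc] at h0
  refine (card_le_orb _ (d.ex.ev xs) fun g hg => ?_).trans (Nat.mul_le_mul ((h.rep_img _).trans_le h3) h0)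
  obtain ⟨j, hj, e⟩ := h.surj (h.tm.cj g _ (h.ex_mem hd))
  refine ⟨j, ⟨hj, h.cand_mem (h.ix_lt hd) hj (by rw [h.ix_eq hd, e]) (g := g) (ha g hg j hj e.symm) ?_⟩, e⟩
  rw [List.forall_mem_map]
  intro q hq
  obtain ⟨⟨a, b⟩, k⟩ := h2 q hq
  exact ⟨b, by rw [← h.ix_eq b, ← k]; exact (h.dv_comm (okP_iff.2 hP) a).2 g hg.2⟩
theorem cand_fx (h : Fr T K c D ε xs) {t : MulAut G} {a : Nat} (r : Rep T ε a {y | y ∈ D ∧ t y = y}) {d : Px}
    (hc : and' (Nat.ble (Nat.succ d.1) T.m) (tb a (d.ix T)) = true) (C : Subgroup G) :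
    ∀ g ∈ Fx t ⊓ C, ∀ j < T.n, g * d.ex.ev xs * g⁻¹ = ε j → a.testBit j = true := fun g hg j hj e => by
  simp only [and'_eq, Bool.and_eq_true, Nat.ble_eq, tb_eq] at hc
  have := ((r.2 _).1 hc.2).2.2
  rw [h.ix_eq hc.1] at this
  exact (r.2 j).2 ⟨hj, h.mem hj, by rw [← e, map_mul, map_mul, map_inv, this, mem_Fx.1 hg.1]⟩
theorem rep_nb (h : Fr T K c D ε xs) {P : List Px} {L : List Nat} (hc : all2 (isP T) P L = true) :
    P.map (fun p => p.ex.ev xs) = L.map ε ∧ Rep T ε (H28.dif (nbL T P) (orL L)) (Nb D (L.map ε)) := by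
  rw [all2_iff] at hc
  have k : okP T P = true ∧ P.map (fun p => p.ex.ev xs) = L.map ε ∧ ∀ j ∈ L, j < T.n := by
    induction hc with
    | nil => exact ⟨rfl, rfl, by simp⟩
    | cons a _ ih =>
      have := h.px a
      simp only [isP, and'_eq, Bool.and_eq_true, Nat.ble_eq] at a
      exact ⟨okP_iff.2 (List.forall_mem_cons.2 ⟨a.1, okP_iff.1 ih.1⟩), by simp only [List.map_cons, this.2, ih.2.1],
        List.forall_mem_cons.2 ⟨this.1, ih.2.2⟩⟩
  have r := h.rep_nbL k.1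
  rw [k.2.1] at r
  refine ⟨k.2.1, fun y hy => h.surj hy.1, fun j => ?_⟩
  rw [dif_iff, r.2, testBit_orL, and_assoc]
  refine and_congr_right fun hj => ⟨fun ⟨⟨a, b⟩, c⟩ => ⟨a, fun q => ?_, fun x hx => (mem_CA.1 b x hx).symm⟩,
    fun ⟨a, b, c⟩ => ⟨⟨a, mem_CA.2 fun x hx => (c x hx).symm⟩, fun q => b (List.mem_map_of_mem q)⟩⟩
  obtain ⟨i, hi, e⟩ := List.mem_map.1 q
  exact c (h.inj (k.2.2 i hi) hj e ▸ hi)
theorem fb_eq (h : Fr T K c D ε xs) {a : Nat} {N : Set G} (r : Rep T ε a N) {q : Px} {Q R : List Px} {L : List Nat}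
    (hc : fbChk T a q Q R L = true) (y : G) : y ∈ Fb N (q.ex.ev xs) ↔ y ∈ L.map ε := by
  simp only [fbChk, force_eq, and'_eq, Bool.and_eq_true, Nat.ble_eq, allL_iff, tb_eq, all2_iff] at hc
  obtain ⟨⟨⟨h1, h2⟩, h3, h4⟩, h5⟩ := hc
  have la : ∀ a b j, (Nat.land a b).testBit j = true ↔ a.testBit j = true ∧ b.testBit j = true := fun a b j => by
    rw [show Nat.land a b = a &&& b from rfl, Nat.testBit_and, Bool.and_eq_true]
  constructor
  · rintro ⟨hy, k⟩
    obtain ⟨j, hj, rfl⟩ := r.1 y hy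
    refine List.mem_map_of_mem ((testBit_orL _ _).1 (subM_iff h4 ((la _ _ _).2 ⟨(r.2 j).2 ⟨hj, hy⟩,
      ((h.rep_nbL h2).2 j).2 ⟨hj, h.mem hj, mem_CA.2 (List.forall_mem_map.2 fun z hz => ?_)⟩⟩)))
    have := (la _ _ _).1 (h3 z hz)
    rw [← h.ix_eq (okP_iff.1 h2 z hz)]
    exact (k _ ((r.2 _).1 this.1).2).1 ((h.nb_iff h1 _).1 this.2).2
  · intro hy
    obtain ⟨j, hj, rfl⟩ := List.mem_map.1 hy
    obtain ⟨p, -, ⟨e1, e2⟩, e3⟩ : ∃ p ∈ R, (isP T p j = true ∧ a.testBit j = true) ∧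
        Nat.beq (Nat.land a (p.nb T)) (Nat.land a (q.nb T)) = true := by
      clear h4 hy
      induction h5 with
      | nil => cases hj
      | cons a _ ih =>
        rcases List.mem_cons.1 hj with rfl | hj
        · exact ⟨_, .head _, a⟩
        · obtain ⟨p, b, c⟩ := ih hj
          exact ⟨p, .tail _ b, c⟩
    refine ⟨((r.2 j).1 e2).2, fun z hz => ?_⟩
    obtain ⟨i, hi, rfl⟩ := r.1 z hz
    have e4 := congrArg (fun x => Nat.testBit x i = true) ((beq_iff _ _).1 e3)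
    have hp : p.1 < T.m := by
      simp only [isP, and'_eq, Bool.and_eq_true, Nat.ble_eq] at e1; exact e1.1
    simp only [la, h.nb_iff hp, h.nb_iff h1, (r.2 i).2 ⟨hi, hz⟩, hi, true_and, (h.px e1).2, eq_iff_iff] at e4
    exact e4.symm
end Fr
end
end H9
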