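import Cfsg.Agent.H9.Ao2

set_option autoImplicit false

/-! The fixed subgroups of the outer involutions of a group of type M(22). -/

namespace H9.Ao
open Cfsg H27 H28 H16 H9 Subgroup
set_option maxRecDepth 100000
noncomputable section
variable {G : Type*} [Group G] [Finite G] {D : Set G} {ε : Nat → G} {xs : List G} {s : MulAut G}

structure St (D : Set G) (ε : Nat → G) (xs : List G) (s : MulAut G) : Prop where
  h : F22 D ε xs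
  m : M22 D
  a : AutN 3510 ε s sN
  ss : s * s = 1
  fx : ∀ w : Ex, Rep t22 ε (fxS t22 12 sN w) {y | y ∈ D ∧ (s * MulAut.conj (w.ev xs)) y = y}

theorem ex_st (h : F22 D ε xs) (m : M22 D) : ∃ s, St D ε xs s :=
  let ⟨s, a, b, c⟩ := h.aut t22_r sN_c sN_i; ⟨s, h, m, a, b, c⟩

omit [Finite G] in
theorem rep_uniq {T : TD} {a : Nat} {A B : Set G} (r : Rep T ε a A) (k : Rep T ε a B) : A = B :=
  Set.ext fun y => ⟨fun hy => let ⟨j, hj, e⟩ := r.1 y hy; e ▸ ((k.2 j).1 ((r.2 j).2 ⟨hj, e ▸ hy⟩)).2,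
    fun hy => let ⟨j, hj, e⟩ := k.1 y hy; e ▸ ((r.2 j).1 ((k.2 j).2 ⟨hj, e ▸ hy⟩)).2⟩

namespace St
variable (z : St D ε xs s)
include z

theorem e1 : q1.ex.ev xs = ε 6 := (z.h.px q1_c).2
theorem e2 : q2.ex.ev xs = ε 43 := (z.h.px q2_c).2
theorem fm : FM t22 ε xs D := ⟨z.h.tm, z.h.top, z.h.cen⟩
theorem r1 : Rep t22 ε o8M {y | y ∈ D ∧ s y = y} := by
  simpa [Ex.ev_one] using rep_eq (z.fx .one) fx_1
theorem sv : s (ε 6) = ε 6 ∧ s (ε 43) = ε 43 ∧ s (ε 88) = ε 88 ∧ s (ε 106) = ε 106 ∧ s (ε 1469) = ε 2141 ∧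
    s (ε 2141) = ε 1469 ∧ s (ε 95) = ε 95 ∧ s (ε 0) = ε 637 := by
  have := s_v
  simp only [mapL_eq, List.map_cons, List.map_nil, List.cons.injEq, and_true] at this
  obtain ⟨a, b, c, d, e, f, g, h⟩ := this
  exact ⟨a ▸ (z.a 6 (by norm_num)).2, b ▸ (z.a 43 (by norm_num)).2, c ▸ (z.a 88 (by norm_num)).2,
    d ▸ (z.a 106 (by norm_num)).2, e ▸ (z.a 1469 (by norm_num)).2, f ▸ (z.a 2141 (by norm_num)).2,
    g ▸ (z.a 95 (by norm_num)).2, h ▸ (z.a 0 (by norm_num)).2⟩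
theorem base8 : IsBase t22.n ε (mapL t22.pi o8R) := by
  have oR : ∀ p ∈ o8R, p.1 < t22.m := by decide
  rw [mapL_eq]
  exact ⟨List.forall_mem_map.2 fun p hp => z.h.tm.pi_lt (oR p hp), fun g hg => z.m.cen8 z.fm fun p hp =>
    z.h.tm.pi_eq (oR p hp) ▸ (hg _ (List.mem_map_of_mem hp)).symm⟩
theorem w2_le : Nat.card ↥(Fx s ⊓ CA [ε 43, ε 6]) ≤ 46080 := by
  have b := z.base8
  rw [o8R_i] at b
  have e := z.h.end_bot b _ chE
  have k := z.h.lvlH (Fx s) cQ1 cD1 (z.h.cand_fx z.r1 cm1 _) _ ch1 (z.h.lvlH (Fx s) cQ2 cD2 (z.h.cand_fx z.r1 cm2 _) _ ch2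
    (z.h.lvlH (Fx s) cQ3 cD3 (z.h.cand_fx z.r1 cm3 _) _ ch3 (z.h.lvlH (Fx s) cQ4 cD4 (z.h.cand_fx z.r1 cm4 _) _ ch4
    (z.h.lvlH (Fx s) cQ5 cD5 (z.h.cand_fx z.r1 cm5 _) _ ch5 (z.h.lvlH (Fx s) cQ6 cD6 (z.h.cand_fx z.r1 cm6 _) _ ch6
    (c0 := 1) (by rw [e, inf_bot_eq, card_bot]))))))
  rw [← z.e1, ← z.e2]
  exact k
theorem ne12 : ε 6 ≠ ε 43 := fun e => absurd (z.h.inj (by decide) (by decide) e) (by decide)
theorem w1_le : Nat.card ↥(Fx s ⊓ CA [ε 6]) ≤ 2903040 := by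
  have k := z.w2_le
  rw [← z.e1, ← z.e2] at k
  rw [← z.e1]
  refine z.h.lvlH (Fx s) cQ0 cD0 (fun g hg j hj e => dif_iff.2 ⟨z.h.cand_fx z.r1 cm0 _ g hg j hj e, fun q => ?_⟩) _ ch0 k
  rw [testBit_orL, List.mem_singleton] at q
  have c : Commute g (ε 6) := z.e1 ▸ mem_CA.1 hg.2 _ (.head _)
  rw [q, ← conj_eq_iff_commute.2 c] at e
  exact z.ne12 ((mul_left_cancel (mul_right_cancel e)).symm.trans z.e2)
theorem fs_le : Nat.card (Fx s) ≤ 1045094400 := by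
  refine (card_le_orb _ (ε 6) (A := {y | y ∈ D ∧ s y = y}) fun g hg => ⟨z.h.tm.cj _ _ (z.h.mem (by decide)), ?_⟩).trans ?_
  · rw [map_mul, map_mul, map_inv, z.sv.1, mem_Fx.1 hg]
  · have e : CA [ε 6] = C1[ε 6] := cn_one _
    rw [z.h.rep_ncard z.r1, show pop 12 t22.n o8M = 360 from (beq_iff _ _).1 o8_p, ← e]
    have := z.w1_le
    omega
theorem o8_eq : O8 ε = {y | y ∈ D ∧ s y = y} := rep_uniq (z.m.o8 z.fm).1 z.r1
theorem fs_eq : Fx s = cl (o8P.map (pv xs)) := by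
  obtain ⟨-, b, -, c, -⟩ := z.m.o8 z.fm
  refine (eq_of_le_of_card_ge ?_ (c ▸ z.fs_le)).symm
  rw [← b, z.o8_eq]
  exact (closure_le _).2 fun y hy => hy.2
theorem fx_ctr {p : Px} {Q : List Px} (hc : ctrChk p Q = true) :
    Fx (s * MulAut.conj (p.ex.ev xs)) = Fx s ⊓ C1[p.ex.ev xs] := by
  simp only [ctrChk, force_eq, and'_eq, Bool.and_eq_true, Nat.ble_eq, allL_iff, tb_eq] at hc
  obtain ⟨⟨⟨h1, h2⟩, h3, h4⟩, h5, h6⟩ := hc
  have r := z.fx p.ex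
  have hp := ((r.2 _).1 h3).2
  rw [z.h.ix_eq h1] at hp
  have cj : ∀ g ∈ Fx (s * MulAut.conj (p.ex.ev xs)), ∀ y ∈ {y | y ∈ D ∧ (s * MulAut.conj (p.ex.ev xs)) y = y},
      g * y * g⁻¹ ∈ {y | y ∈ D ∧ (s * MulAut.conj (p.ex.ev xs)) y = y} := fun g hg y hy =>
    ⟨z.h.tm.cj _ _ hy.1, by rw [map_mul, map_mul, map_inv, hy.2, mem_Fx.1 hg]⟩
  have key : ∀ g ∈ Fx (s * MulAut.conj (p.ex.ev xs)), p.ex.ev xs * g * (p.ex.ev xs)⁻¹ = g := fun g hg => by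
    obtain ⟨j, hj, e⟩ := r.1 _ (cj g hg _ hp)
    have : j = p.ix t22 := by
      refine List.mem_singleton.1 ((testBit_orL _ _).1 (subM_iff h6 ?_))
      rw [show ∀ a b, Nat.land a b = a &&& b from fun _ _ => rfl, Nat.testBit_and, Bool.and_eq_true]
      refine ⟨(r.2 j).2 ⟨hj, e ▸ cj g hg _ hp⟩, ((z.h.rep_nbL h2).2 j).2 ⟨hj, z.h.mem hj,
        mem_CA.2 (List.forall_mem_map.2 fun y hy => ?_)⟩⟩
      have a := ((r.2 _).1 (h5 y hy)).2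
      rw [z.h.ix_eq (okP_iff.1 h2 y hy)] at a
      obtain ⟨i, hi, e'⟩ := r.1 _ (cj _ (inv_mem hg) _ a)
      have b := ((z.h.nb_iff h1 i).1 (subM_iff h4 ((r.2 i).2 ⟨hi, e' ▸ cj _ (inv_mem hg) _ a⟩))).2
      rw [e', ← commute_conj_iff g] at b
      rw [e]; simpa [mul_assoc] using b
    rw [this, z.h.ix_eq h1] at e
    exact conj_eq_iff_commute.2 (conj_eq_iff_commute.1 e.symm).symm
  ext g
  rw [mem_inf, mem_Fx, mem_Fx, H28.mem_cent1, ← conj_eq_iff_commute, MulAut.mul_apply, MulAut.conj_apply]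
  exact ⟨fun q => ⟨by rwa [key g q] at q, key g q⟩, fun q => by rw [q.2, q.1]⟩
theorem fa : Fx (s * MulAut.conj (ε 6)) = Fx s ⊓ C1[ε 6] := z.e1 ▸ z.fx_ctr z1_c
theorem fb : Fx (s * MulAut.conj (ε 43)) = Fx s ⊓ C1[ε 43] := z.e2 ▸ z.fx_ctr z2_c
theorem c12 : Commute (ε 6) (ε 43) := z.e1 ▸ ((z.h.adj_iff (p := q1) (by decide) 43).1 (by decide +kernel)).2
theorem rab : Rep t22 ε (fxS t22 12 sN (q1.ex.mul q2.ex)) {y | y ∈ D ∧ (s * MulAut.conj (ε 6 * ε 43)) y = y} := by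
  have := z.fx (q1.ex.mul q2.ex)
  rwa [Ex.ev_mul, z.e1, z.e2] at this
theorem fab_le : Nat.card (Fx (s * MulAut.conj (ε 6 * ε 43))) ≤ 3317760 := by
  have p := fab_p
  rw [and'_eq, Bool.and_eq_true, beq_iff, tb_eq] at p
  have a := ((z.rab.2 _).1 p.2).2
  refine (card_le_orb _ (ε 6) (A := {y | y ∈ D ∧ (s * MulAut.conj (ε 6 * ε 43)) y = y}) fun g hg =>
    ⟨z.h.tm.cj _ _ a.1, by rw [map_mul, map_mul, map_inv, a.2, mem_Fx.1 hg]⟩).trans ?_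
  rw [z.h.rep_ncard z.rab, show pop 12 t22.n _ = 72 from p.1]
  refine (Nat.mul_le_mul_left _ ((card_le fun g hg => ?_).trans z.w2_le)).trans (by norm_num)
  have c := H28.mem_cent1.1 hg.2
  have k : g ∈ Fx (s * MulAut.conj (ε 43)) := by
    have := mem_Fx.1 hg.1
    rwa [z.c12.eq, map_mul, ← mul_assoc, MulAut.mul_apply, MulAut.conj_apply, conj_eq_iff_commute.2 c] at this
  rw [z.fb] at k
  exact ⟨k.1, mem_CA.2 (by simpa using ⟨(H28.mem_cent1.1 k.2).symm, c.symm⟩)⟩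
end St
end
end H9.Ao
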