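import Cfsg.Agent.H9.Ao3
import Cfsg.Agent.H28.Tz4
import Cfsg.Agent.H29.Sp62M

set_option autoImplicit false

/-! The structure of the fixed subgroups of the outer involutions of a group of type M(22). -/

namespace H9.Ao
open Cfsg H27 H28 H16 H9 Subgroup
set_option maxRecDepth 100000
set_option Elab.async false
noncomputable section
variable {G : Type*} [Group G] [Finite G] {D : Set G} {ε : Nat → G} {xs : List G} {s : MulAut G}

abbrev Sp6 := Matrix.symplecticGroup (Fin 3) (ZMod 2)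
theorem card_sp6 : Nat.card Sp6 = 1451520 :=
  (Cfsg.Agent.S0245.result (ZMod.card 2) 3).trans (by decide +kernel)
theorem cen_sp6 : center Sp6 = ⊥ := card_eq_one.1 (Cfsg.Agent.S0246.result (ZMod.card 2) 3 (by norm_num))
theorem sp_model : ∃ M : H29.Model Sp6, M.mul = H29.a2_6.mul ∧ M.one = H29.a2_6.one ∧ (∀ c ∈ tL, M.In ⊤ c) ∧
    M.cl tL = ⊤ := by
  obtain ⟨fm⟩ := H29.exists_fm1 (ZMod.card 2)
  have hv := H29.FM.in_Sp (fm := fm) (a := H29.a2_6) (n := 6) (L := tL) (e := (finSumFinEquiv (m := 3) (n := 3)).symm)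
    (cJ := fun x y => if x = y + 3 ∨ y = x + 3 then 1 else 0) (by decide +kernel) (by decide +kernel)
  have sb : ∀ c ∈ H29.sp62_g, c ∈ tL := by decide +kernel
  haveI : Finite Sp6 := Nat.finite_of_card_ne_zero (card_sp6.trans_ne (by norm_num))
  exact ⟨_, rfl, rfl, hv, eq_top_iff.2 ((H29.sp62v_top (fun c hc => hv c (sb c hc)) card_sp6).ge.trans
    (closure_mono fun g ⟨c, a, b⟩ => ⟨c, sb c a, b⟩))⟩
theorem tL_c : allN 63 (fun k => and' (Nat.beq (H29.a2_6.mul (nth 0 tL k) (nth 0 tL k)) H29.a2_6.one) (allN 7 fun g =>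
    Nat.beq (H29.a2_6.mul (H29.a2_6.mul (nth 0 tL (nth 0 w7.I g)) (nth 0 tL k)) (nth 0 tL (nth 0 w7.I g)))
      (nth 0 tL (fnW w7.Ns [g] k)))) = true := by decide +kernel
theorem w7_m : ∀ p ∈ w7P, p.1 < 9 ∧ tb o8M (t22.pi p) = true ∧ q1.adj t22 (t22.pi p) = true := by decide +kernel

theorem w7_hom (h : F22 D ε xs) : ∃ φ : cl (w7P.map (pv xs)) →* Sp6, Function.Surjective φ := by
  obtain ⟨M, a, b, v, top⟩ := sp_model
  obtain ⟨ε', t, -⟩ := h.tm.subT w7_c ((allN_iff _ _).1 w7_a)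
  have c := tL_c
  simp only [allN_iff, and'_eq, Bool.and_eq_true, beq_iff, ← a, ← b] at c
  have len : tL.length = 63 := rfl
  have r : ∀ k < 63, M.R (nth 0 tL k) (mG M (nth 0 tL k)) := fun k hk => mG_R (v _ (by
    rw [nth_eq, List.getD_eq_getElem _ _ (by omega)]; exact List.getElem_mem _))
  have sq : ∀ k < 63, mG M (nth 0 tL k) * mG M (nth 0 tL k) = 1 := fun k hk =>
    M.unique (M.R_mul (r k hk) (r k hk)) ((c k hk).1 ▸ M.R_one)
  obtain ⟨σ, f, q⟩ := t.fhom_of w7_r (β := fun k => mG M (nth 0 tL k)) sq fun g hg k hk => by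
    have i := (t.idx g hg).1
    rw [inv_eq_of_mul_eq_one_right (sq _ i)]
    exact M.unique (M.R_mul (M.R_mul (r _ i) (r k hk)) (r _ i)) ((c k hk).2 g hg ▸ r _ (fnW_lt t.ok _ hk))
  obtain ⟨φ, a, -⟩ := f.homT (t.gen_top (cl_subL _)) (by
    rw [t.image_eq q]
    refine eq_top_iff.2 (top.ge.trans (closure_mono ?_))
    rintro g ⟨c, hc, e⟩
    obtain ⟨k, hk, rfl⟩ := List.getElem_of_mem hc
    rw [← List.getD_eq_getElem _ 0 hk, ← nth_eq] at e
    exact ⟨k, hk, M.unique (r k hk) e⟩) cen_sp6 fun _ => tt_inv t.tt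
  exact ⟨φ, a⟩

abbrev O6 := (H23.Form.ofQuad (H22.qMinus 2 (ZMod 2) 1 1)).O
theorem cen_o6 : center O6 = ⊥ := eq_bot_iff.2 fun m hm => by
  have hQ := H22.qMinus_nondeg (F := ZMod 2) 2 H22.aniso_two
  obtain ⟨a, ha⟩ := cent_omega hQ (by simp) (m := m) fun k _ => (mem_center_iff.1 hm k).symm
  obtain rfl : a = 1 := (by decide : ∀ a : ZMod 2, a * a = 1 → a = 1) a (H22.norm_eq_one_of_scalar hQ m ha)
  exact H22.O_ext _ fun x => by rw [ha, one_smul]; rfl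
theorem hq2 : HQ (n := 6) ((Equiv.sumCongr finSumFinEquiv (Equiv.refl _)).trans finSumFinEquiv) (H22.qMinus 2 (ZMod 2) 1 1) w2L :=
  fun f => by
    rw [H22.coe_qMinus, quadFormMinus, Fin.sum_univ_two]
    change f 0 * f 2 + f 1 * f 3 + (f 4 ^ 2 + 1 * f 4 * f 5 + 1 * f 5 ^ 2) = _
    simp [w2L, sq, add_assoc]
theorem w2_m : force (fxS t22 12 sN (q1.ex.mul q2.ex)) (fun f => allL w2P fun p =>
    and' (Nat.ble (Nat.succ p.1) 9) (tb f (t22.pi p))) = true := by decide +kernel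
theorem w2_hom (h : F22 D ε xs) : ∃ φ : cl (w2P.map (pv xs)) →* O6, Function.Surjective φ ∧
    cl (x6E.map (Ex.ev xs)) ≤ φ.ker.map (cl (w2P.map (pv xs))).subtype := by
  obtain ⟨ε', t, e⟩ := h.tm.subT w2_c ((allN_iff _ _).1 w2_a)
  obtain ⟨σ, f, b, q⟩ := t.refl_hom w2_r _ hq2 (c := 1) (by norm_num) (by simp) w2_h
  obtain ⟨φ, a, w⟩ := f.homT (t.gen_top (cl_subL _))
    (b ▸ rs_two (H22.qMinus_nondeg (F := ZMod 2) 2 H22.aniso_two) (by simp)) cen_o6 fun _ => tt_inv t.tt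
  refine ⟨φ, a, cl_le ?_⟩
  rw [x6E, mapL_eq, List.map_map, List.forall_mem_map]
  intro u hu
  obtain ⟨c1, c2, c3, c4, c5⟩ := x6_c u hu
  refine ⟨ε' u.2.1 * ε' u.2.2, ?_, ?_⟩
  · change φ _ = 1
    rw [map_mul, w _ (t.bij.mapsTo c3), w _ (t.bij.mapsTo c4), (q _ c3).2, (q _ c4).2, c5]
    exact H22.refl_mul_self _ _
  · change (ε' _).1 * (ε' _).1 = _
    rw [e _ c3, e _ c4, ← (h.px c1).2, ← (h.px c2).2]; rfl

namespace St
variable (z : St D ε xs s)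
include z
theorem sgn : ∃ χ : Fx s →* Multiplicative (ZMod 2), ∀ y : Fx s, y.1 ∈ D → χ y ≠ 1 := by
  obtain ⟨ra, -⟩ := z.m.o8 z.fm
  obtain ⟨ε', t, e, -, -⟩ := z.h.tm.subF o8_chk o8_act ra o8_A
  obtain ⟨φ, -, v, -, -⟩ := t.tri (cl_subL _) o8_rch o8_tri (p := (0, [])) (q := (8, [])) (by decide) ⟨o8_v.1, o8_v.2.2.1⟩
  have : Fact (Nat.Prime 2) := ⟨Nat.prime_two⟩
  let ι : ℤˣ ≃* Multiplicative (ZMod 2) := mulEquivOfPrimeCardEq (p := 2) (by simp) (by simp)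
  refine ⟨(ι.toMonoidHom.comp (Equiv.Perm.sign.comp φ)).comp (inclusion z.fs_eq.le), fun y hy => ?_⟩
  obtain ⟨c, hc, q⟩ := v (inclusion z.fs_eq.le y) (z.o8_eq.ge ⟨hy, y.2⟩)
  change ι (Equiv.Perm.sign (φ _)) ≠ 1
  rw [q, map_ne_one_iff _ ι.injective]
  exact (by decide : ∀ c < 3, Equiv.Perm.sign (tau c) ≠ 1) c hc
theorem w_iso : Nat.card ↥(Fx s ⊓ C1[ε 6]) = 2903040 ∧
    Nonempty (↥(Fx s ⊓ C1[ε 6]) ≃* Multiplicative (ZMod 2) × PSp 3 (ZMod 2)) := by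
  obtain ⟨φ, hφ⟩ := w7_hom z.h
  obtain ⟨χ, hχ⟩ := z.sgn
  have le : cl (w7P.map (pv xs)) ≤ Fx s ⊓ C1[ε 6] := cl_le (List.forall_mem_map.2 fun p hp => by
    obtain ⟨a, b, c⟩ := w7_m p hp
    rw [← z.h.tm.pi_eq a]
    exact ⟨((z.r1.2 _).1 (tb_eq _ _ ▸ b)).2.2, H28.mem_cent1.2 (z.e1 ▸ ((z.h.adj_iff (p := q1) (by decide) _).1 c).2)⟩)
  have ma : ε 6 ∈ cl (w7P.map (pv xs)) := by
    rw [← z.e1, ← z.h.eq_of z.h.base0 w7_z, Ex.ev_pow]
    refine pow_mem (Ex.sub_mem ?_ _) _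
    rw [mapL_eq, List.forall_mem_map]
    exact fun p hp => mem_cl (List.mem_map_of_mem hp)
  have ub : Nat.card ↥(Fx s ⊓ C1[ε 6]) ≤ 2903040 := by
    have e : CA [ε 6] = C1[ε 6] := cn_one _
    exact e ▸ z.w1_le
  have d6 : ε 6 ∈ D := z.h.mem (by decide)
  have k1 : (⟨ε 6, ma⟩ : cl (w7P.map (pv xs))) ∈ φ.ker := cen_sp6.le (mem_center_iff.2 fun m => by
    obtain ⟨g, rfl⟩ := hφ m
    rw [← map_mul, ← map_mul]
    exact congrArg φ (Subtype.ext (H16.mem_cent1.1 (le g.2).2)))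
  have n1 : (⟨⟨ε 6, ma⟩, k1⟩ : φ.ker) ≠ 1 := fun e => by
    have := z.h.tm.tt.1 _ d6
    rw [show ε 6 = 1 from congrArg (fun x : φ.ker => x.1.1) e, orderOf_one] at this
    omega
  have c1 := card_eq_card_quotient_mul_card_subgroup φ.ker
  rw [Nat.card_congr (QuotientGroup.quotientKerEquivOfSurjective φ hφ).toEquiv, card_sp6] at c1
  have c2 : 1 < Nat.card φ.ker := Finite.one_lt_card_iff_nontrivial.2 ⟨_, _, n1⟩
  have c3 := card_le le
  have e := eq_of_le_of_card_ge le (by omega)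
  obtain ⟨y, -, u⟩ := (Nat.card_eq_two_iff' (1 : φ.ker)).1 (by omega)
  refine ⟨by omega, ⟨(MulEquiv.subgroupCongr e.symm).trans (MulEquiv.ofBijective
    ((χ.comp (inclusion (le.trans inf_le_left))).prod ((quotZ cen_sp6).toMonoidHom.comp φ))
    ((Nat.bijective_iff_injective_and_card _).2 ⟨(injective_iff_map_eq_one _).2 fun g hg => ?_, ?_⟩))⟩⟩
  · have k2 : g ∈ φ.ker := (map_eq_one_iff _ (quotZ cen_sp6).injective).1 (congrArg Prod.snd hg)
    by_contra n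
    have : (⟨g, k2⟩ : φ.ker) = ⟨⟨ε 6, ma⟩, k1⟩ := (u _ fun q => n (congrArg Subtype.val q)).trans (u _ n1).symm
    obtain rfl : g = ⟨ε 6, ma⟩ := congrArg Subtype.val this
    exact hχ _ d6 (congrArg Prod.fst hg)
  · rw [Nat.card_prod, ← Nat.card_congr (quotZ cen_sp6).toEquiv, card_sp6]
    simp only [Nat.card_eq_fintype_card, Fintype.card_multiplicative, ZMod.card]
    omega
theorem ab_str : Nat.card (Fx (s * MulAut.conj (ε 6 * ε 43))) = 3317760 ∧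
    ∃ O : Subgroup G, O = (pCore 2 (Fx (s * MulAut.conj (ε 6 * ε 43)))).map (Fx (s * MulAut.conj (ε 6 * ε 43))).subtype ∧
      IsElementaryAbelian 2 O ∧ Nat.card O = 64 ∧ ∃ _ : (O.subgroupOf (Fx (s * MulAut.conj (ε 6 * ε 43)))).Normal,
      Nonempty (↥(Fx (s * MulAut.conj (ε 6 * ε 43))) ⧸ O.subgroupOf (Fx (s * MulAut.conj (ε 6 * ε 43))) ≃*
        isometryGroup (ZMod 2) (quadFormMinus 2 (ZMod 2) 1 1)) := by
  obtain ⟨φ, hφ, k⟩ := w2_hom z.h
  have le : cl (w2P.map (pv xs)) ≤ Fx (s * MulAut.conj (ε 6 * ε 43)) := cl_le (List.forall_mem_map.2 fun p hp => by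
    have := w2_m
    simp only [force_eq, allL_iff, and'_eq, Bool.and_eq_true, Nat.ble_eq, tb_eq] at this
    rw [← z.h.tm.pi_eq (this p hp).1]
    exact ((z.rab.2 _).1 (this p hp).2).2.2)
  have f := x6_f
  simp only [allL_iff, and'_eq, Bool.and_eq_true] at f
  have ea := (ea_cl (p := 2) (l := x6E.map (Ex.ev xs)) (by norm_num)
    (List.forall_mem_map.2 fun a ha => z.h.eq_one z.h.base0 (f a ha).1)
    (List.forall_mem_map.2 fun a ha => List.forall_mem_map.2 fun b hb => z.h.eq_of z.h.base0 ((f a ha).2 b hb))).1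
  have lo := z.h.low' (H := cl (x6E.map (Ex.ev xs))) (fun a ha => mem_cl (List.mem_map_of_mem ha)) _ x6_l
  obtain ⟨⟨e5⟩, -, p5⟩ := p5_equiv
  let ι := H22.isomEquiv (H22.qMinus 2 (ZMod 2) 1 1)
  have c0 : Nat.card O6 = 51840 := by rw [← Nat.card_congr ι.toEquiv, ← card_p5]; exact (Nat.card_congr e5.toEquiv).symm
  have c1 := card_eq_card_quotient_mul_card_subgroup φ.ker
  rw [Nat.card_congr (QuotientGroup.quotientKerEquivOfSurjective φ hφ).toEquiv, c0] at c1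
  have c2 := card_le k
  have c4 := card_map_of_injective (K := φ.ker) (cl (w2P.map (pv xs))).subtype_injective
  have c3 := card_le le
  have ub := z.fab_le
  have e := eq_of_le_of_card_ge le (by omega)
  have e' := eq_of_le_of_card_ge k (by omega)
  refine ⟨by omega, ?_⟩
  rw [← e]
  have pc : pCore 2 (cl (w2P.map (pv xs))) = φ.ker := le_antisymm (fun g hg =>
      (map_eq_one_iff _ (ι.symm.trans e5.symm).injective).1 (p5.le (H1.map_pCore_le 2
        (f := (ι.symm.trans e5.symm).toMonoidHom.comp φ) ((ι.symm.trans e5.symm).surjective.comp hφ) ⟨g, hg, rfl⟩)))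
    (H1.le_pCore (IsPGroup.of_card (n := 6) (by omega)))
  have so : (φ.ker.map (cl (w2P.map (pv xs))).subtype).subgroupOf (cl (w2P.map (pv xs))) = φ.ker :=
    comap_map_eq_self_of_injective (cl (w2P.map (pv xs))).subtype_injective _
  refine ⟨_, rfl, pc ▸ e' ▸ ea, by rw [pc]; omega, ?_⟩
  rw [pc, so]
  exact ⟨inferInstance, ⟨(QuotientGroup.quotientKerEquivOfSurjective φ hφ).trans ι.symm⟩⟩
end St
end
end H9.Ao
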