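import Cfsg.Agent.H9.Ao4

set_option autoImplicit false

/-! The classes of outer involutions of a group of type M(22). -/

namespace H9.Ao
open Cfsg H27 H28 H16 H9 Subgroup
set_option maxRecDepth 100000
noncomputable section
variable {G : Type*} [Group G] {D : Set G} {ε : Nat → G} {xs : List G} {s t : MulAut G}

abbrev In (G : Type*) [Group G] : Subgroup (MulAut G) := (MulAut.conj : G →* MulAut G).range
def Ot (t : MulAut G) : Prop := t * t = 1 ∧ t ∉ In G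
def Gl (s : MulAut G) (ε : Nat → G) (t : MulAut G) : Prop :=
  IsConj t s ∨ IsConj t (s * MulAut.conj (ε 6)) ∨ IsConj t (s * MulAut.conj (ε 6 * ε 43))
theorem Gl.of {u : MulAut G} (h : Gl s ε u) (c : IsConj t u) : Gl s ε t :=
  h.imp c.trans (Or.imp c.trans c.trans)
theorem Ot.tt (h : Ot t) (x : G) : t (t x) = x := by rw [← MulAut.mul_apply, h.1, MulAut.one_apply]
theorem Ot.step (h : Ot t) (g : G) (H : ∀ u : MulAut G, Ot u →
    (∀ {p q p' q' : G}, g * p * g⁻¹ = p' → g * q * g⁻¹ = q' → t p' = q' → u p = q) → Gl s ε u) : Gl s ε t := by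
  have m : MulAut.conj g ∈ In G := ⟨g, rfl⟩
  refine (H ((MulAut.conj g)⁻¹ * t * MulAut.conj g) ⟨?_, ?_⟩ fun a b c => ?_).of (isConj_iff.2 ⟨_, by rw [inv_inv]⟩)
  · rw [show ∀ a b : MulAut G, a⁻¹ * b * a * (a⁻¹ * b * a) = a⁻¹ * (b * b) * a from fun a b => by group, h.1]; simp
  · rw [mul_mem_cancel_right m, mul_mem_cancel_left (inv_mem m)]; exact h.2
  · simp only [MulAut.mul_apply, MulAut.conj_apply, MulAut.conj_inv_apply, a, c, ← b]; group
theorem ncard_list {n : Nat} (h : Set.InjOn ε {j | j < n}) {L : List Nat} (hL : L.Nodup ∧ ∀ j ∈ L, j < n) {A : Set G}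
    (e : ∀ y, y ∈ A ↔ y ∈ L.map ε) : A.ncard = L.length := by
  classical
  rw [show A = ↑(L.map ε).toFinset from Set.ext fun y => by simp [e], Set.ncard_coe_finset, List.toFinset_card_of_nodup
    (hL.1.map_on fun a ha b hb => h (hL.2 a ha) (hL.2 b hb)), List.length_map]
def L6 : List Nat := [6, 43, 88, 106, 1469, 2141]
abbrev VV (xs : List G) : Subgroup G := cl ((mapL Px.ex vP).map (Ex.ev xs))

namespace St
variable [Finite G] (z : St D ε xs s)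
include z
theorem s2 (x : G) : s (s x) = x := by rw [← MulAut.mul_apply, z.ss, MulAut.one_apply]
theorem ne {i j : Nat} (h : i < 3510 ∧ j < 3510 ∧ i ≠ j) : ε i ≠ ε j := fun e => h.2.2 (z.h.inj h.1 h.2.1 e)
theorem out : s ∉ In G := fun ⟨g, e⟩ => by
  have b := z.base8
  rw [o8R_i] at b
  have : g = 1 := b.2 g fun i hi => conj_eq_iff_commute.1 (by
    rw [← MulAut.conj_apply, e]
    exact ((z.r1.2 i).1 ((by decide +kernel : ∀ i ∈ [6, 1, 47, 88, 40, 7, 43, 180], o8M.testBit i = true) i hi)).2.2)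
  have k := z.sv.2.2.2.2.2.2.2
  rw [← e, this, map_one, MulAut.one_apply] at k
  exact z.ne (by decide) k
theorem autD (φ : MulAut G) (y : G) : φ y ∈ D ↔ y ∈ D := by
  obtain ⟨d, hd⟩ := z.m.ne
  conv_lhs => rw [← z.m.uniq (class_map (z.m.lv.isClass hd) φ)]
  exact φ.injective.mem_set_image
theorem acts {e : Ex} {L M : List Nat} (hL : ∀ i ∈ L, i < 3510)
    (hc : all2 (fun i j => Nat.beq (e.fn t22.Ns false i) j) L M = true) :
    List.Forall₂ (fun i j => e.ev xs * ε i * (e.ev xs)⁻¹ = ε j) L M := by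
  rw [all2_iff] at hc
  induction hc with
  | nil => exact .nil
  | cons a _ ih => exact .cons ((beq_iff _ _).1 a ▸ z.h.act e (hL _ (.head _))) (ih fun i hi => hL i (.tail _ hi))
theorem ra : ∃ r : G, r = rE.ev xs ∧ r * ε 6 * r⁻¹ = ε 6 ∧ r * ε 43 * r⁻¹ = ε 43 ∧ r * ε 88 * r⁻¹ = ε 88 ∧
    r * ε 106 * r⁻¹ = ε 1469 ∧ r * ε 1469 * r⁻¹ = ε 2141 ∧ r * ε 2141 * r⁻¹ = ε 106 :=
  ⟨_, rfl, by simpa only [List.forall₂_cons, List.Forall₂.nil, and_true] using z.acts (by decide) rE_c⟩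
theorem ka : ∃ r : G, r * ε 6 * r⁻¹ = ε 6 ∧ r * ε 43 * r⁻¹ = ε 43 ∧ r * ε 88 * r⁻¹ = ε 106 ∧
    r * ε 106 * r⁻¹ = ε 88 ∧ r * ε 1469 * r⁻¹ = ε 2141 ∧ r * ε 2141 * r⁻¹ = ε 1469 :=
  ⟨_, by simpa only [List.forall₂_cons, List.Forall₂.nil, and_true] using z.acts (by decide) kE_c⟩
theorem clq3 : Clq D [ε 88, ε 6, ε 43] := by
  have := z.h.tm.clq' (l := [(5, []), (2, []), (7, [])]) (by decide +kernel)
  simp only [List.map_cons, List.map_nil, ← z.h.tm.pi_eq (p := (5, [])) (by decide), ← z.h.tm.pi_eq (p := (2, [])) (by decide),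
    ← z.h.tm.pi_eq (p := (7, [])) (by decide)] at this
  exact this
theorem vE : (mapL Px.ex vP).map (Ex.ev xs) = vL.map ε := by
  rw [← (z.h.rep_nb v_c).1, mapL_eq, List.map_map]; rfl
theorem vle : VV xs ≤ CA (([6, 43, 88, 106, 1469, 2141, 95] ++ (vL ++ bL)).map ε) :=
  cl_le (List.forall_mem_map.2 (z.h.fixL_mem (by decide) v_f))
theorem vea : IsElementaryAbelian 2 (VV xs) :=
  (ea_cl (by norm_num) (by
      rw [z.vE, List.forall_mem_map]
      exact fun j hj => (sq _).trans (tt_sq z.h.tm.tt (z.h.mem ((by decide : ∀ j ∈ vL, j < 3510) j hj))))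
    fun a ha b hb => mem_CA.1 (z.vle (mem_cl ha)) b (by
      rw [z.vE] at hb
      rw [List.map_append, List.map_append]
      exact List.mem_append_right _ (List.mem_append_left _ hb))).1
theorem eE_m : ∀ e ∈ eE, e.ev xs ∈ CA (L6.map ε) := z.h.fixL_mem (by decide) eE_f
theorem kk : CA (L6.map ε) = CA [ε 106, ε 88, ε 6, ε 43] ∧ VV xs = CA (L6.map ε) ⊓ C1[ε 95] := by
  obtain ⟨r, e, r1, r2, r3, -⟩ := z.ra
  have c3 : Nat.card (CA [ε 88, ε 6, ε 43]) = 147456 := z.m.card3 z.clq3 rfl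
  have o1 := z.h.orb_le (H := CA [ε 88, ε 6, ε 43]) (Es := [rE]) (i := 106) (by
    simpa [← e, mem_CA, ← conj_eq_iff_commute] using ⟨r3, r1, r2⟩) (by decide) 2
  have p1 : 3 ≤ pop 12 t22.n (orbE t22.Ns [rE] 2 (orL [106])) := Nat.le_of_ble_eq_true rE_o
  have o2 := z.h.orb_le z.eE_m (i := 95) (by decide) 2
  rw [(beq_iff _ _).1 eE_o, show pop 12 t22.n m48 = 48 from (beq_iff _ _).1 m48_p] at o2
  have lo := z.h.low' (H := VV xs) (fun a ha => mem_cl (List.mem_map_of_mem ha)) _ v_l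
  have l1 : VV xs ≤ CA (L6.map ε) ⊓ C1[ε 95] := fun g hg => by
    have := mem_CA.1 (z.vle hg)
    exact ⟨mem_CA.2 fun y hy => this y (by
      rw [List.map_append]; exact List.mem_append_left _ (List.mem_append_left [ε 95] hy)),
      H28.mem_cent1.2 (this _ (by simp)).symm⟩
  have l2 : CA (L6.map ε) ≤ CA [ε 106, ε 88, ε 6, ε 43] := fun g hg => mem_CA.2 fun y hy => mem_CA.1 hg y (by
    simp only [L6, List.map_cons, List.mem_cons, List.not_mem_nil, or_false] at hy ⊢; tauto)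
  rw [← CA_cons, c3] at o1
  have c1 := card_le l1
  have c2 := card_le l2
  have c4 := (Nat.mul_le_mul_right _ p1).trans o1
  exact ⟨eq_of_le_of_card_ge l2 (by omega), eq_of_le_of_card_ge l1 (by omega)⟩
theorem r48 : Rep t22 ε m48 (Nb D (L6.map ε)) := (z.h.rep_nb n6_c).2
theorem tr48 {x : G} (hx : x ∈ Nb D (L6.map ε)) : ∃ g ∈ CA (L6.map ε), g * ε 95 * g⁻¹ = x := by
  obtain ⟨j, hj, rfl⟩ := z.r48.1 x hx
  simpa using (z.h.orb_sub z.eE_m 2 (l := [95]) (by decide) ((beq_iff _ _).1 eE_o ▸ (z.r48.2 j).2 ⟨hj, hx⟩)).2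
theorem fb6 (y : G) : y ∈ Fb (Nb D (L6.map ε)) (ε 95) ↔ y ∈ bL.map ε := (z.h.px q7_c).2 ▸ z.h.fb_eq z.r48 f6_c y
theorem fb2 (y : G) : y ∈ Fb (Nb D [ε 6, ε 43]) (ε 88) ↔ y ∈ [88, 106, 1469, 2141].map ε :=
  (z.h.px q3_c).2 ▸ z.h.fb_eq (z.h.rep_nb n2_c).2 f2_c y
theorem cjs (k v : G) : IsConj (s * MulAut.conj v) (s * MulAut.conj (s k * v * k⁻¹)) :=
  isConj_iff.2 ⟨MulAut.conj k, by ext x; simp [z.s2, mul_assoc]⟩
theorem sqs {v : G} (h : s * MulAut.conj v * (s * MulAut.conj v) = 1) : s v * v = 1 := by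
  refine z.h.cen.le (mem_center_iff.2 fun x => (conj_eq_iff_commute.1 ?_).symm)
  simpa [z.s2, mul_assoc] using DFunLike.congr_fun h x
theorem cV {v : G} (hv : v ∈ VV xs) (h : s * MulAut.conj v * (s * MulAut.conj v) = 1) : Gl s ε (s * MulAut.conj v) := by
  have ea := z.vea
  have cm : ∀ x ∈ VV xs, ∀ y ∈ VV xs, Commute x y := fun x hx y hy =>
    congrArg Subtype.val (ea.1.1.1 (⟨x, hx⟩ : VV xs) ⟨y, hy⟩)
  have sb : ∀ P : List Px, P ⊆ vP → cl ((mapL Px.ex P).map (Ex.ev xs)) ≤ VV xs := fun P hP =>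
    closure_mono fun y hy => by
      simp only [mapL_eq] at hy ⊢; exact List.map_subset _ (List.map_subset _ hP) hy
  have ex : ∀ P : List Px, P ⊆ vP → ∀ g ∈ cl ((mapL Px.ex P).map (Ex.ev xs)),
      ∃ u ∈ (List.range (mapL Px.ex P).length).sublists, g = (Ex.sub (mapL Px.ex P) u).ev xs := fun P hP g hg =>
    sub_of_cl (fun a ha => (sq _).symm.trans (ea.2 _ (sb P hP (mem_cl (List.mem_map_of_mem ha)))))
      (fun a ha b hb => cm _ (sb P hP (mem_cl (List.mem_map_of_mem ha))) _ (sb P hP (mem_cl (List.mem_map_of_mem hb)))) hg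
  have sm : ∀ (P : List Px) u, (Ex.sub (mapL Px.ex P) u).ev xs ∈ cl ((mapL Px.ex P).map (Ex.ev xs)) := fun P u =>
    Ex.sub_mem (fun a ha => mem_cl (List.mem_map_of_mem ha)) u
  have sa : aP ⊆ vP := List.subset_append_left _ _
  have sc : cP ⊆ vP := List.Subset.trans (List.subset_append_left _ _) (List.subset_append_right _ _)
  have sd : dP ⊆ vP := List.Subset.trans (List.subset_append_right _ _) (List.subset_append_right _ _)
  have nm : ∀ {H K : Subgroup G}, H ≤ VV xs → K ≤ VV xs → H ≤ N[K] := fun a b =>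
    norm_of_cent fun x hx y hy => cm _ (b hy) _ (a hx)
  have le : VV xs ≤ cl ((mapL Px.ex aP).map (Ex.ev xs)) ⊔ (cl ((mapL Px.ex cP).map (Ex.ev xs)) ⊔
      cl ((mapL Px.ex dP).map (Ex.ev xs))) := cl_le fun y hy => by
    simp only [vP, mapL_eq, List.map_append, List.mem_append] at hy ⊢
    exact hy.elim (fun a => mem_sup_left (mem_cl a)) fun a => mem_sup_right
      (a.elim (fun a => mem_sup_left (mem_cl a)) fun a => mem_sup_right (mem_cl a))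
  obtain ⟨α, hα, _, hw, rfl⟩ := (mem_sup_r (nm (sb _ sa) (sup_le (sb _ sc) (sb _ sd)))).1 (le hv)
  obtain ⟨u, hu, u', hu', rfl⟩ := (mem_sup_r (nm (sb _ sc) (sb _ sd))).1 hw
  have su : s u ∈ cl ((mapL Px.ex dP).map (Ex.ev xs)) := by
    obtain ⟨l, -, rfl⟩ := ex _ sc u hu
    rw [z.h.s_sub z.a im_c]; exact sm _ _
  have c := z.cjs u (α * (u * u'))
  rw [mul_assoc, mul_assoc α, conj_eq_iff_commute.2 (cm _ (sb _ sc hu) _ (sb _ sd hu')), ← mul_assoc (s u),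
    (cm _ (sb _ sd su) _ (sb _ sa hα)).eq, mul_assoc α] at c
  refine Gl.of ?_ c
  have q : s (α * (s u * u')) * (α * (s u * u')) = 1 := z.sqs (by
    obtain ⟨φ, e⟩ := isConj_iff.1 c
    rw [← e, show ∀ a b : MulAut G, a * b * a⁻¹ * (a * b * a⁻¹) = a * (b * b) * a⁻¹ from fun a b => by group, h]; simp)
  obtain ⟨l, hl, e⟩ := ex _ sd _ (mul_mem su hu')
  obtain ⟨l', hl', rfl⟩ := ex _ sa α hα
  rw [e] at q ⊢
  rw [map_mul, z.h.s_sub z.a im_a, z.h.s_sub z.a im_d, (cm _ (sb _ sa hα) _ (sb _ sc (sm _ _))).eq, mul_assoc,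
    ← mul_assoc (Ex.ev xs (Ex.sub (mapL Px.ex aP) l')), ← sq, ea.2 _ (sb _ sa hα), one_mul] at q
  rcases w_c l hl with rfl | ⟨i, -, n⟩
  swap; · exact absurd q (z.h.ne_of n)
  obtain ⟨⟨l0, w, r⟩, -, rfl, hr, k⟩ := fD_c l' hl'
  have k := z.h.eq_of z.h.base0 k
  rw [Ex.ev_mul, Ex.ev_mul, Ex.ev_inv, ← z.h.s_sub z.a im_k] at k
  have c := z.cjs ((Ex.sub (mapL Px.ex kA) w).ev xs) ((Ex.sub (mapL Px.ex aP) l0).ev xs)
  rw [k] at c
  rw [show Ex.ev xs (Ex.sub (mapL Px.ex dP) []) = 1 from rfl, mul_one]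
  dsimp only at hr c
  interval_cases r
  · exact .inl (by simpa [rp, nth, Ex.ev_one] using c)
  · exact .inr (.inl (z.e1 ▸ c))
  · exact .inr (.inr (z.e1 ▸ z.e2 ▸ c))

variable (ix : (In G).index = 2)
include ix
theorem l1 {u : MulAut G} (hu : u ∉ In G) (a : u (ε 6) = ε 6) (b : u (ε 43) = ε 43) (c : u (ε 88) = ε 88)
    (d : u (ε 106) = ε 106) : ∃ g ∈ CA (L6.map ε), u = s * MulAut.conj g := by
  obtain ⟨g, e⟩ := (mul_mem_iff_of_index_two ix).2 (iff_of_false z.out hu)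
  obtain ⟨a', b', c', d', -⟩ := z.sv
  refine ⟨g, z.kk.1 ▸ mem_CA.2 ?_, by rw [e, ← mul_assoc, z.ss, one_mul]⟩
  simp only [List.forall_mem_cons, ← conj_eq_iff_commute, ← MulAut.conj_apply, e, MulAut.mul_apply]
  simp [*]
theorem l2 {u : MulAut G} (hu : u ∉ In G) (a : u (ε 6) = ε 6) (b : u (ε 43) = ε 43) (c : u (ε 88) = ε 88)
    (d : u (ε 106) = ε 106) : u (ε 1469) = ε 2141 ∧ u (ε 2141) = ε 1469 := by
  obtain ⟨g, hg, rfl⟩ := z.l1 ix hu a b c d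
  simp only [MulAut.mul_apply, MulAut.conj_apply]
  rw [conj_eq_iff_commute.2 (mem_CA.1 hg (ε 1469) (by simp [L6])), conj_eq_iff_commute.2 (mem_CA.1 hg (ε 2141) (by simp [L6]))]
  exact ⟨z.sv.2.2.2.2.1, z.sv.2.2.2.2.2.1⟩
theorem c7 (h : Ot t) (a : t (ε 6) = ε 6) (b : t (ε 43) = ε 43) (c : t (ε 88) = ε 88) (d : t (ε 106) = ε 106)
    (e : t (ε 95) = ε 95) : Gl s ε t := by
  obtain ⟨g, hg, rfl⟩ := z.l1 ix h.2 a b c d
  refine z.cV (z.kk.2 ▸ ⟨hg, H28.mem_cent1.2 (conj_eq_iff_commute.1 (s.injective ?_)).symm⟩) h.1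
  exact e.trans z.sv.2.2.2.2.2.2.1.symm
omit z ix in
theorem k6 {g : G} (hg : g ∈ CA (L6.map ε)) : g * ε 6 * g⁻¹ = ε 6 ∧ g * ε 43 * g⁻¹ = ε 43 ∧ g * ε 88 * g⁻¹ = ε 88 ∧
    g * ε 106 * g⁻¹ = ε 106 ∧ g * ε 1469 * g⁻¹ = ε 1469 ∧ g * ε 2141 * g⁻¹ = ε 2141 := by
  simpa [L6, conj_eq_iff_commute] using mem_CA.1 hg
theorem c5 (h : Ot t) (a : t (ε 6) = ε 6) (b : t (ε 43) = ε 43) (c : t (ε 88) = ε 88) (d : t (ε 106) = ε 106)
    (e : t (ε 95) ∈ bL.map ε) : Gl s ε t := by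
  obtain ⟨q, hq, e⟩ := List.mem_map.1 e
  obtain ⟨⟨_, w, y⟩, -, rfl, h1, h2, h3⟩ := bD_c q hq
  dsimp only at h1 h2 h3 hq e
  have lt : ∀ j ∈ bL, j < 3510 := by decide
  have ua : ∀ j < 3510, s ((Ex.sub eE w).ev xs * ε j * ((Ex.sub eE w).ev xs)⁻¹) =
      ε (nf sN ((Ex.sub eE w).fn t22.Ns false j)) := fun j hj => by
    rw [z.h.act _ hj, (z.a _ (z.h.fn_lt _ _ hj)).2]
  have m := Ex.sub_mem z.eE_m w
  obtain ⟨g, hg, rfl⟩ := z.l1 ix h.2 a b c d
  have v : ((Ex.sub eE w).ev xs)⁻¹ * g ∈ VV xs := z.kk.2 ▸ mem_inf.2 ⟨mul_mem (inv_mem m) hg, H28.mem_cent1.2 (by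
    have : _ = g * ε 95 * g⁻¹ := s.injective ((ua 95 (by decide)).trans ((congrArg ε h1).trans e))
    refine (conj_eq_iff_commute.1 ?_).symm
    rw [mul_inv_rev, inv_inv, mul_assoc _ g, mul_assoc, ← mul_assoc (g * _), ← this]; group)⟩
  have key : ∀ j ∈ bL, (s * MulAut.conj g) (ε j) = ε (nf sN ((Ex.sub eE w).fn t22.Ns false j)) := fun j hj => by
    have := conj_eq_iff_commute.2 (mem_CA.1 (z.vle v) (ε j) (List.mem_map_of_mem
      (List.mem_append_right _ (List.mem_append_right _ hj))))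
    rw [← ua j (lt j hj), ← this, MulAut.mul_apply, MulAut.conj_apply, this]
    congr 1
    conv_rhs => rw [← this]
    group
  rcases h3 with n | f
  · have := h.tt (ε 95)
    rw [← e, key _ hq] at this
    exact absurd (z.h.inj (z.a _ (z.h.fn_lt _ _ (lt _ hq))).1 (by decide) this) n
  · obtain ⟨k, hk, q⟩ := z.tr48 ((z.fb6 _).2 (List.mem_map_of_mem h2)).1
    obtain ⟨k1, k2, k3, k4, -⟩ := k6 hk
    exact h.step k fun u hu f' => z.c7 ix hu (f' k1 k1 a) (f' k2 k2 b) (f' k3 k3 c) (f' k4 k4 d)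
      (f' q q ((key _ h2).trans (congrArg ε f)))
theorem c4 (h : Ot t) (a : t (ε 6) = ε 6) (b : t (ε 43) = ε 43) (c : t (ε 88) = ε 88) (d : t (ε 106) = ε 106) :
    Gl s ε t := by
  obtain ⟨e, f⟩ := z.l2 ix h.2 a b c d
  have iv : ∀ g ∈ CA (L6.map ε), ∀ y, MulAut.conj g y ∈ Nb D (L6.map ε) ↔ y ∈ Nb D (L6.map ε) := fun g hg =>
    nb_aut _ (z.autD _) (mem_of_maps _ fun x hx => by
      rwa [MulAut.conj_apply, conj_eq_iff_commute.2 (mem_CA.1 hg x hx)])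
  obtain ⟨x, hx, q⟩ := blk_fix t (nb_aut t (z.autD t) (mem_of_maps (l := L6.map ε) t (by simp [L6, *]))) h.tt
    (k := 3) (m := 16) (by decide) (by norm_num) ((z.h.rep_ncard z.r48).trans ((beq_iff _ _).1 m48_p)) fun x hx => by
      obtain ⟨g, hg, rfl⟩ := z.tr48 hx
      exact (fb_card _ (iv g hg) _).trans (ncard_list z.h.tm.bij.injOn (by decide) z.fb6)
  obtain ⟨k, hk, rfl⟩ := z.tr48 hx
  obtain ⟨k1, k2, k3, k4, -⟩ := k6 hk
  refine h.step k fun u hu f' => z.c5 ix hu (f' k1 k1 a) (f' k2 k2 b) (f' k3 k3 c) (f' k4 k4 d) ?_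
  rw [f' (q := k⁻¹ * t (k * ε 95 * k⁻¹) * k) rfl (by group) rfl, ← z.fb6, ← fb_aut _ (iv k hk)]
  simpa [mul_assoc] using q
theorem c3 (h : Ot t) (a : t (ε 6) = ε 6) (b : t (ε 43) = ε 43) (c : t (ε 88) = ε 88) : Gl s ε t := by
  obtain ⟨r, -, r1, r2, r3, r4, r5, -⟩ := z.ra
  have c4a : ∀ {t}, Ot t → t (ε 6) = ε 6 → t (ε 43) = ε 43 → t (ε 88) = ε 88 → t (ε 1469) = ε 1469 → Gl s ε t :=
    fun h a b c d => h.step r fun u hu f => z.c4 ix hu (f r1 r1 a) (f r2 r2 b) (f r3 r3 c) (f r4 r4 d)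
  have m : ∀ y ∈ [88, 106, 1469, 2141].map ε, t y ∈ [88, 106, 1469, 2141].map ε := fun y hy => by
    rw [← z.fb2] at hy ⊢
    rw [← c]; exact (fb_aut t (nb_aut t (z.autD t) (mem_of_maps t (by simp [*]))) _ _).2 hy
  simp only [List.map_cons, List.map_nil, List.forall_mem_cons, List.mem_cons, List.not_mem_nil, or_false,
    forall_eq_or_imp, forall_eq] at m
  obtain ⟨-, m1, m2, m3⟩ := m
  have x : ∀ {i j : Nat} {y : G}, t (ε i) = y → t (ε j) = y → i < 3510 ∧ j < 3510 ∧ i ≠ j → Gl s ε t := fun p q n =>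
    absurd (t.injective (p.trans q.symm)) (z.ne n)
  rcases m1 with e | e | e | e
  · exact x e c (by decide)
  · exact z.c4 ix h a b c e
  · rcases m3 with f | f | f | f
    · exact x f c (by decide)
    · exact x f (e ▸ h.tt _ : t (ε 1469) = ε 106) (by decide)
    · exact x f e (by decide)
    · exact h.step r fun u hu g => c4a hu (g r1 r1 a) (g r2 r2 b) (g r3 r3 c) (g r5 r5 f)
  · rcases m2 with f | f | f | f
    · exact x f c (by decide)
    · exact x f (e ▸ h.tt _ : t (ε 2141) = ε 106) (by decide)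
    · exact c4a h a b c f
    · exact x f e (by decide)
omit ix in
theorem g3 {x : G} (hx : x ∈ Nb D [ε 6, ε 43]) : ∃ g : G, g * ε 88 * g⁻¹ = x ∧ g * ε 6 * g⁻¹ = ε 6 ∧ g * ε 43 * g⁻¹ = ε 43 := by
  simpa using z.m.gts 3 le_rfl _ _ z.clq3 (clq_cons'.2 ⟨hx, (clq_cons'.1 z.clq3).2⟩) rfl rfl
theorem c2a (h : Ot t) (a : t (ε 6) = ε 6) (b : t (ε 43) = ε 43) (c : t (ε 88) = ε 106) : Gl s ε t := by
  have d : t (ε 106) = ε 88 := c ▸ h.tt _
  have m := fb_trans ((z.fb2 (ε 106)).2 (by simp)) (c ▸ (fb_aut t (nb_aut t (z.autD t) (mem_of_maps t (by simp [*]))) _ _).2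
    ((z.fb2 (ε 1469)).2 (by simp)))
  rw [z.fb2] at m
  simp only [List.map_cons, List.map_nil, List.mem_cons, List.not_mem_nil, or_false] at m
  rcases m with f | f | f | f
  · exact absurd (t.injective (f.trans d.symm)) (z.ne (by decide))
  · exact absurd (t.injective (f.trans c.symm)) (z.ne (by decide))
  · obtain ⟨g, g1, g2, g3⟩ := z.g3 ((z.fb2 (ε 1469)).2 (by simp)).1
    exact h.step g fun u hu k => z.c3 ix hu (k g2 g2 a) (k g3 g3 b) (k g1 g1 f)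
  · obtain ⟨r, r1, r2, r3, r4, -, r6⟩ := z.ka
    have := (z.l2 ix (u := MulAut.conj r * t) (by rw [mul_mem_cancel_left (show MulAut.conj r ∈ In G from ⟨r, rfl⟩)]; exact h.2)
      (by simp [*]) (by simp [*]) (by simp [*]) (by simp [*])).1
    rw [MulAut.mul_apply, f, MulAut.conj_apply, r6] at this
    exact absurd this (z.ne (by decide))
theorem c2 (h : Ot t) (a : t (ε 6) = ε 6) (b : t (ε 43) = ε 43) : Gl s ε t := by
  have iv : ∀ g : G, g * ε 6 * g⁻¹ = ε 6 → g * ε 43 * g⁻¹ = ε 43 →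
      ∀ y, MulAut.conj g y ∈ Nb D [ε 6, ε 43] ↔ y ∈ Nb D [ε 6, ε 43] := fun g g2 g3 =>
    nb_aut _ (z.autD _) (mem_of_maps _ (by simp [*]))
  obtain ⟨x, hx, q⟩ := blk_fix t (nb_aut t (z.autD t) (mem_of_maps (l := [ε 6, ε 43]) t (by simp [*]))) h.tt
    (k := 45) (m := 4) (by decide) (by norm_num) (z.m.c2 (clq_cons'.1 z.clq3).2 rfl) fun x hx => by
      obtain ⟨g, rfl, g2, g3⟩ := z.g3 hx
      exact (fb_card _ (iv g g2 g3) _).trans (ncard_list z.h.tm.bij.injOn (by decide) z.fb2)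
  obtain ⟨g, rfl, g2, g3⟩ := z.g3 hx
  obtain ⟨r, -, r1, r2, r3, r4, r5, -⟩ := z.ra
  have cb : ∀ {t}, Ot t → t (ε 6) = ε 6 → t (ε 43) = ε 43 → t (ε 88) = ε 1469 → Gl s ε t :=
    fun h a b c => h.step r fun u hu f => z.c2a ix hu (f r1 r1 a) (f r2 r2 b) (f r3 r4 c)
  refine h.step g fun u hu f => ?_
  have m : u (ε 88) ∈ [88, 106, 1469, 2141].map ε := by
    rw [f (q := g⁻¹ * t (g * ε 88 * g⁻¹) * g) rfl (by group) rfl, ← z.fb2, ← fb_aut _ (iv g g2 g3)]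
    simpa [mul_assoc] using q
  simp only [List.map_cons, List.map_nil, List.mem_cons, List.not_mem_nil, or_false] at m
  have a' := f g2 g2 a
  have b' := f g3 g3 b
  rcases m with e | e | e | e
  exacts [z.c3 ix hu a' b' e, z.c2a ix hu a' b' e, cb hu a' b' e,
    hu.step r fun w hw k => cb hw (k r1 r1 a') (k r2 r2 b') (k r3 r5 e)]
theorem c1 (h : Ot t) (a : t (ε 6) = ε 6) : Gl s ε t := by
  have q2 := (clq_cons'.1 z.clq3).2
  have q1 : Clq D [ε 6] := ⟨by simpa using q2.1 _ (.head _), by simp⟩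
  obtain ⟨x, hx, e⟩ := odd_fix (N := Nb D [ε 6]) (by rw [z.m.c1 q1 rfl]; decide) (t := t)
    (fun x hx => (nb_aut t (z.autD t) (mem_of_maps t (by simp [*])) x).2 hx) fun x _ => h.tt x
  obtain ⟨g, g1, g2⟩ : ∃ g : G, g * ε 43 * g⁻¹ = x ∧ g * ε 6 * g⁻¹ = ε 6 := by
    simpa using z.m.gts 2 (by norm_num) [ε 43, ε 6] _ (clq_cons'.2 ⟨mem_nb1.2 ⟨q2.1 _ (by simp), z.ne12.symm, z.c12⟩, q1⟩)
      (clq_cons'.2 ⟨hx, q1⟩) rfl rfl
  exact h.step g fun u hu f => z.c2 ix hu (f g2 g2 a) (f g1 g1 e)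
theorem c0 (h : Ot t) : Gl s ε t := by
  obtain ⟨d, hd⟩ := z.m.ne
  have f := fiso_equiv z.m.lv.clo t
  rw [z.m.uniq (class_map (z.m.lv.isClass hd) t)] at f
  obtain ⟨x, hx, e⟩ := z.m.fx t f fun x _ => h.tt x
  obtain ⟨g, g1⟩ := isConj_iff.1 (z.h.cls _ (z.h.mem (j := 6) (by decide)) x hx)
  exact h.step g fun u hu f => z.c1 ix hu (f g1 g1 e)
end St
end
end H9.Ao
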