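import Cfsg.Agent.H29.U0
import Cfsg.Prelude.Def_JankoFourType

/-! Centralizers of elements of prime order other than eleven in a group of Janko-four type. -/

set_option autoImplicit false

namespace H9.Cent
open Cfsg Subgroup

variable {G : Type*} [Group G] [Finite G]

theorem csup (K V : Subgroup G) (h : K ≤ normalizer (V : Set G)) :
    Nat.card ↥(K ⊔ V) ∣ Nat.card K * Nat.card V := by
  letI := Subgroup.normal_subgroupOf_of_le_normalizer h
  letI := Subgroup.normal_subgroupOf_sup_of_le_normalizer h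
  have e := Nat.card_congr (QuotientGroup.quotientInfEquivProdNormalizerQuotient K V h).toEquiv
  rw [card_eq_card_quotient_mul_card_subgroup (V.subgroupOf (K ⊔ V)), ← e,
    Nat.card_congr (subgroupOfEquivOfLe (le_sup_right : V ≤ K ⊔ V)).toEquiv]
  exact mul_dvd_mul_right (card_quotient_dvd_card _) _

theorem cle (x : G) : centralizer ({x} : Set G) ≤ normalizer (zpowers x : Set G) := by
  refine le_trans ?_ (centralizer_le_normalizer _)
  intro g hg y hy
  obtain ⟨n, rfl⟩ := mem_zpowers_iff.1 hy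
  exact ((show Commute x g from hg x rfl).zpow_left n).eq

theorem cconj {x y : G} (h : IsConj x y) :
    Nat.card (centralizer ({x} : Set G)) = Nat.card (centralizer ({y} : Set G)) := by
  obtain ⟨g, rfl⟩ := isConj_iff.1 h
  refine Nat.card_congr ⟨fun a => ⟨g * a.1 * g⁻¹, ?_⟩, fun a => ⟨g⁻¹ * a.1 * g, ?_⟩, fun a => ?_, fun a => ?_⟩
  · have := mem_centralizer_singleton_iff.1 a.2
    rw [mem_centralizer_singleton_iff]
    calc g * a.1 * g⁻¹ * (g * x * g⁻¹) = g * (a.1 * x) * g⁻¹ := by group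
      _ = _ := by rw [this]; group
  · have := mem_centralizer_singleton_iff.1 a.2
    rw [mem_centralizer_singleton_iff]
    calc g⁻¹ * a.1 * g * x = g⁻¹ * (a.1 * (g * x * g⁻¹)) * g := by group
      _ = _ := by rw [this]; group
  · ext; simp [mul_assoc]
  · ext; simp [mul_assoc]

theorem syl {p : ℕ} (hp : p.Prime) (h2 : ¬ p ^ 2 ∣ Nat.card G) {x y : G} (hx : orderOf x = p) (hy : orderOf y = p) :
    Nat.card (normalizer (zpowers x : Set G)) = Nat.card (normalizer (zpowers y : Set G)) := by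
  haveI := Fact.mk hp
  have k : ∀ u : G, orderOf u = p → ∃ S : Sylow p G, (S : Subgroup G) = zpowers u := fun u hu => by
    have c : Nat.card (zpowers u) = p := by rw [Nat.card_zpowers, hu]
    have ip : IsPGroup p (zpowers u) := IsPGroup.of_card (n := 1) (by rw [c, pow_one])
    refine ⟨ip.toSylow fun d => h2 ?_, rfl⟩
    rw [← (zpowers u).card_mul_index, c, pow_two]
    exact mul_dvd_mul_left _ d
  obtain ⟨S, hS⟩ := k x hx
  obtain ⟨T, hT⟩ := k y hy
  have a := (normalizer (S : Set G)).card_mul_index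
  have b := (normalizer (T : Set G)).card_mul_index
  rw [← S.card_eq_index_normalizer] at a
  rw [← T.card_eq_index_normalizer, ← a] at b
  have := Nat.eq_of_mul_eq_mul_right Nat.card_pos b
  rw [← hS, ← hT]
  exact this.symm

theorem cent0 (hJ : Cfsg.IsOfJankoFourType G)
    (tri : (∀ r : G, orderOf r = 3 → ∃ t R N, H29.U.XS t R N ∧ r ∈ N ∧
      normalizer (zpowers r : Set G) ≤ centralizer {t}) ∧
      ∀ z : G, IsOfJankoFourTypeAt z → ∃ R N, H29.U.XS z R N ∧ R = twoCoreOfCentralizer z)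
    (s69 : ∀ z : G, IsOfJankoFourTypeAt z → ∀ t : G, orderOf t = 2 → ¬ IsConj z t →
      ∃ V K : Subgroup G, V ≤ Subgroup.centralizer ({t} : Set G) ∧ K ≤ Subgroup.centralizer ({t} : Set G) ∧
      Subgroup.centralizer ({t} : Set G) ≤ Subgroup.normalizer (V : Set G) ∧ Cfsg.IsElementaryAbelian 2 V ∧
      Nat.card ↥V = 2 ^ 11 ∧ K ⊓ V = ⊥ ∧ K ⊔ V = Subgroup.centralizer ({t} : Set G) ∧
      Nonempty (↥K ≃* MulAut ↥Cfsg.Spor.M22))
    (s72 : ∀ z : G, IsOfJankoFourTypeAt z → ∀ Q : Subgroup G, Nat.card Q = 5 → Q ≤ centralizer ({z} : Set G) →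
      Nat.card (normalizer (Q : Set G)) = 2 ^ 8 * 3 * 5 * 7)
    (s73 : ∀ z : G, IsOfJankoFourTypeAt z → ∀ Q : Subgroup G, Nat.card Q = 7 → Q ≤ centralizer ({z} : Set G) →
      Nat.card (normalizer (Q : Set G)) = 2 ^ 3 * 3 ^ 2 * 5 * 7)
    (hc : Nat.card G = 86775571046077562880)
    (h77 : ∀ p ∈ [23,29,31,37,43], ∀ x : G, orderOf x = p → Subgroup.centralizer ({x} : Set G) ≤ Subgroup.zpowers x)
    (x : G) (hp : (orderOf x).Prime) (h11 : orderOf x ≠ 11) :
    ¬ 121 ∣ Nat.card (Subgroup.centralizer ({x} : Set G)) := by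
  intro hd
  obtain ⟨t3, tz⟩ := tri
  obtain ⟨z, hz⟩ := hJ
  obtain ⟨R, N, k, -⟩ := tz z hz
  have cz := k.cC
  have ca : ∀ p : ℕ, p.Prime → p ∣ 21799895040 → ∃ y : G, orderOf y = p ∧ zpowers y ≤ centralizer ({z} : Set G) := by
    intro p pp dd
    haveI := Fact.mk pp
    obtain ⟨y, hy⟩ := exists_prime_orderOf_dvd_card' (G := centralizer ({z} : Set G)) p (cz ▸ dd)
    exact ⟨y.1, by rw [orderOf_coe, hy], (zpowers_le).2 y.2⟩
  have hs : ∀ p ∈ [23,29,31,37,43], orderOf x = p → False := fun p pm e => by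
    have := hd.trans (card_dvd_of_le (h77 p pm x e))
    rw [Nat.card_zpowers, e] at this
    simp only [List.mem_cons, List.not_mem_nil, or_false] at pm
    omega
  have ho : orderOf x ∣ 2 ^ 21 * 3 ^ 3 * 5 * 7 * 11 ^ 3 * 23 * 29 * 31 * 37 * 43 := by
    have := orderOf_dvd_natCard x
    rwa [hc] at this
  have pe : ∀ q : ℕ, q.Prime → orderOf x ∣ q → orderOf x = q := fun q qq d => (Nat.prime_dvd_prime_iff_eq hp qq).1 d
  simp only [hp.dvd_mul] at ho
  rcases ho with ((((((((h | h) | h) | h) | h) | h) | h) | h) | h) | h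
  · have o := pe 2 (by norm_num) (hp.dvd_of_dvd_pow h)
    by_cases c : IsConj z x
    · rw [← cconj c, cz] at hd
      omega
    · obtain ⟨V, K, -, KC, CN, -, cV, -, e, ⟨f⟩⟩ := s69 z hz x o c
      obtain ⟨P, -, -, -, -, ⟨M, -, -, -, -, ⟨_, ⟨g⟩⟩, -⟩, -⟩ := hz
      have d1 : Nat.card K ∣ 21799895040 := by
        rw [Nat.card_congr f.toEquiv, ← Nat.card_congr g.toEquiv, ← cz]
        exact card_quotient_dvd_card _
      have d2 := csup K V (KC.trans CN)
      rw [e, cV] at d2
      have := (hd.trans d2).trans (mul_dvd_mul_right d1 _)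
      omega
  · obtain ⟨t, R', N', k', -, l⟩ := t3 x (pe 3 (by norm_num) (hp.dvd_of_dvd_pow h))
    have := hd.trans (card_dvd_of_le ((cle x).trans l))
    rw [k'.cC] at this
    omega
  · have o := pe 5 (by norm_num) h
    obtain ⟨y, oy, ly⟩ := ca 5 (by norm_num) (by norm_num)
    have r := s72 z hz _ (by rw [Nat.card_zpowers, oy]) ly
    have := hd.trans (card_dvd_of_le (cle x))
    rw [syl (p := _) (by norm_num) (by rw [hc]; norm_num) o oy, r] at this
    omega
  · have o := pe 7 (by norm_num) h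
    obtain ⟨y, oy, ly⟩ := ca 7 (by norm_num) (by norm_num)
    have r := s73 z hz _ (by rw [Nat.card_zpowers, oy]) ly
    have := hd.trans (card_dvd_of_le (cle x))
    rw [syl (p := _) (by norm_num) (by rw [hc]; norm_num) o oy, r] at this
    omega
  · exact h11 (pe 11 (by norm_num) (hp.dvd_of_dvd_pow h))
  · exact hs 23 (by simp) (pe 23 (by norm_num) h)
  · exact hs 29 (by simp) (pe 29 (by norm_num) h)
  · exact hs 31 (by simp) (pe 31 (by norm_num) h)
  · exact hs 37 (by simp) (pe 37 (by norm_num) h)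
  · exact hs 43 (by simp) (pe 43 (by norm_num) h)

end H9.Cent
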