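import Cfsg.Agent.H13.CF3
import Cfsg.Agent.H13.XS2
import Cfsg.Agent.H12.ES3
import Cfsg.Agent.H22.OrthMat
import Cfsg.Agent.H22.IsoD
import Cfsg.Agent.H18.Small

set_option autoImplicit false

/-! Extraspecial groups from generators, and the orthogonal quotient of an involution centraliser. -/

namespace H9.Cw
open Subgroup Cfsg H13 H27
variable {G : Type*} [Group G]

/-- adjoining a normalising involution -/
def ad2 (T : Subgroup G) (t : G) (tt : t * t = 1) (n : ∀ s ∈ T, t * s * t ∈ T) : Subgroup G where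
  carrier := {x | x ∈ T ∨ x * t ∈ T}
  one_mem' := .inl T.one_mem
  mul_mem' := by
    rintro x y (a | a) (b | b)
    · exact .inl (mul_mem a b)
    · exact .inr (mul_assoc x y t ▸ mul_mem a b)
    · have := mul_mem a (n y b)
      exact .inr (by rwa [show x * t * (t * y * t) = x * (t * t) * y * t by group, tt, mul_one] at this)
    · have := mul_mem a (n _ b)
      exact .inl (by rwa [show x * t * (t * (y * t) * t) = x * (t * t) * y * (t * t) by group, tt, mul_one, mul_one] at this)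
  inv_mem' := by
    rintro x (a | a)
    · exact .inl (inv_mem a)
    · have := n _ (inv_mem a)
      exact .inr (by rwa [show t * (x * t)⁻¹ * t = x⁻¹ * t by group] at this)
theorem card_ad2 [Finite G] {T : Subgroup G} {t : G} (tt : t * t = 1) (n : ∀ s ∈ T, t * s * t ∈ T) (h : t ∉ T) :
    Nat.card (ad2 T t tt n) = Nat.card T * 2 := by
  have le : T ≤ ad2 T t tt n := fun _ => .inl
  rw [← (T.subgroupOf (ad2 T t tt n)).card_mul_index, Nat.card_congr (subgroupOfEquivOfLe le).toEquiv,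
    index_eq_two_iff.2 ⟨⟨t, .inr (tt ▸ T.one_mem)⟩, fun b => ?_⟩]
  rcases b.2 with c | c
  · exact .inr ⟨c, fun d => h ((mul_mem_cancel_left c).1 d)⟩
  · exact .inl ⟨c, fun d => h ((mul_mem_cancel_left (show b.1 ∈ T from d)).1 c)⟩

structure ES (z : G) (S : Subgroup G) (n : ℕ) : Prop where
  z1 : z ≠ 1
  zz : z * z = 1
  zm : z ∈ S
  card : Nat.card S = 2 ^ (2 * n + 1)
  cz : ∀ x ∈ S, Commute x z
  sq : ∀ x ∈ S, x * x = 1 ∨ x * x = z
  cen : ∀ x ∈ S, (∀ y ∈ S, Commute x y) → x = 1 ∨ x = z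
theorem es_zero {z : G} (z1 : z ≠ 1) (zz : z * z = 1) : ES z (cl [z]) 0 := by
  have o : orderOf z = 2 := orderOf_eq_prime ((pow_two z).trans zz) z1
  have e : cl [z] = zpowers z := le_antisymm (cl_le (by simp)) (zpowers_le.2 (mem_cl (by simp)))
  rw [e]
  refine ⟨z1, zz, mem_zpowers z, by rw [Nat.card_zpowers, o]; rfl, fun x hx => ?_, fun x hx => .inl ?_,
    fun x hx _ => (mem_zpowers_two o).1 hx⟩ <;> rcases (mem_zpowers_two o).1 hx with rfl | rfl <;> simp [*]
theorem ES.step [Finite G] {z a b : G} {l : List G} {n : ℕ} (h : ES z (cl (z :: l)) n) (aa : a * a = 1) (bb : b * b = 1)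
    (ab : a * b = b * a * z) (hc : ∀ s ∈ z :: l, Commute s a ∧ Commute s b) : ES z (cl (z :: a :: b :: l)) (n + 1) := by
  generalize e : cl (z :: l) = S at h
  have ha : ∀ s ∈ S, Commute s a := fun s hs => mem_Cz.1 (e ▸ cl_le (H := Cz a) (fun s hs => mem_Cz.2 (hc s hs).1) <| hs)
  have hb : ∀ s ∈ S, Commute s b := fun s hs => mem_Cz.1 (e ▸ cl_le (H := Cz b) (fun s hs => mem_Cz.2 (hc s hs).2) <| hs)
  have nc : ¬ Commute a b := fun c => h.z1 (mul_eq_left.1 (ab.symm.trans c.eq))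
  have za := ha z h.zm
  have zb := hb z h.zm
  have n1 : ∀ s ∈ S, a * s * a ∈ S := fun s hs => by rwa [← (ha s hs).eq, mul_assoc, aa, mul_one]
  have n2 : ∀ s ∈ ad2 S a aa n1, b * s * b ∈ ad2 S a aa n1 := by
    rintro s (hs | hs)
    · exact .inl (by rwa [← (hb s hs).eq, mul_assoc, bb, mul_one])
    · have := mul_mem hs h.zm
      refine .inr ?_
      rwa [show b * s * b * a = b * s * (b * a * z) * z by simp only [mul_assoc, h.zz, mul_one], ← ab, ← mul_assoc,
        mul_assoc b s, ← (hb _ hs).eq, mul_assoc _ b b, bb, mul_one]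
  have dec : ∀ x ∈ ad2 _ b bb n2, ∃ s ∈ S, x = s ∨ x = s * a ∨ x = s * b ∨ x = s * (a * b) := by
    rintro x ((c | c) | c | c)
    · exact ⟨_, c, .inl rfl⟩
    · exact ⟨_, c, .inr (.inl (by rw [mul_assoc, aa, mul_one]))⟩
    · exact ⟨_, c, .inr (.inr (.inl (by rw [mul_assoc, bb, mul_one])))⟩
    · exact ⟨_, c, .inr (.inr (.inr (by rw [← mul_assoc, mul_assoc _ a a, aa, mul_one, mul_assoc, bb, mul_one])))⟩
  have ma : a ∈ ad2 _ b bb n2 := .inl (.inr (aa ▸ S.one_mem))
  have mb : b ∈ ad2 _ b bb n2 := .inr (bb ▸ one_mem _)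
  have e2 : ad2 _ b bb n2 = cl (z :: a :: b :: l) := by
    refine le_antisymm (fun x hx => ?_) (cl_le ?_)
    · have m : S ≤ cl (z :: a :: b :: l) := e ▸ cl_le fun s hs => mem_cl (by simp at hs ⊢; tauto)
      have m1 : a ∈ cl (z :: a :: b :: l) := mem_cl (by simp)
      have m2 : b ∈ cl (z :: a :: b :: l) := mem_cl (by simp)
      obtain ⟨s, hs, rfl | rfl | rfl | rfl⟩ := dec x hx
      exacts [m hs, mul_mem (m hs) m1, mul_mem (m hs) m2, mul_mem (m hs) (mul_mem m1 m2)]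
    · have m : ∀ s ∈ z :: l, s ∈ ad2 _ b bb n2 := fun s hs => .inl (.inl (e ▸ mem_cl hs))
      simp only [List.forall_mem_cons] at m ⊢
      exact ⟨m.1, ma, mb, m.2⟩
  have q : a * b * (a * b) = z := by
    calc _ = a * (b * a * z) * b * z := by simp only [mul_assoc, ← zb.eq, ← mul_assoc z z, h.zz, one_mul]
      _ = z := by rw [← ab, ← mul_assoc, aa, one_mul, bb, one_mul]
  rw [← e2]
  refine ⟨h.z1, h.zz, .inl (.inl h.zm), ?_, fun x hx => ?_, fun x hx => ?_, fun x hx c => ?_⟩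
  · rw [card_ad2 bb n2, card_ad2 aa n1 fun c => nc (hb a c), h.card]
    · ring
    · rintro (c | c)
      exacts [nc (ha b c).symm, nc (by simpa using (Commute.refl b).inv_left.mul_left (hb _ c))]
  · obtain ⟨s, hs, rfl | rfl | rfl | rfl⟩ := dec x hx
    exacts [h.cz _ hs, (h.cz _ hs).mul_left za.symm, (h.cz _ hs).mul_left zb.symm, (h.cz _ hs).mul_left (za.symm.mul_left zb.symm)]
  · obtain ⟨s, hs, rfl | rfl | rfl | rfl⟩ := dec x hx
    · exact h.sq _ hs
    · rw [(ha s hs).symm.mul_mul_mul_comm, aa, mul_one]; exact h.sq _ hs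
    · rw [(hb s hs).symm.mul_mul_mul_comm, bb, mul_one]; exact h.sq _ hs
    · rw [((ha s hs).mul_right (hb s hs)).symm.mul_mul_mul_comm, q]
      rcases h.sq _ hs with c | c <;> simp [c, h.zz]
  · obtain ⟨s, hs, rfl | rfl | rfl | rfl⟩ := dec x hx
    · exact h.cen _ hs fun y hy => c y (.inl (.inl hy))
    · exact absurd (by simpa using (hb s hs).inv_left.mul_left (c b mb)) nc
    · exact absurd (by simpa using (ha s hs).inv_left.mul_left (c a ma)) (mt Commute.symm nc)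
    · exact absurd (by simpa using (Commute.refl a).inv_left.mul_left ((ha s hs).inv_left.mul_left (c a ma))) (mt Commute.symm nc)
theorem ES.xs [Finite G] {z : G} {S : Subgroup G} {n : ℕ} (h : ES z S n) (hn : 1 ≤ n)
    (nrm : ∀ h ∈ Cz z, ∀ x ∈ S, h * x * h⁻¹ ∈ S) (self : centralizer (S : Set G) ≤ S) : XS z S n := by
  refine xs_mk hn h.z1 h.zz h.zm h.cz (fun x hx y hy => ?_) h.sq h.cen h.card nrm self
  have o : orderOf z = 2 := orderOf_eq_prime ((pow_two z).trans h.zz) h.z1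
  have m : ∀ x ∈ S, x * x ∈ zpowers z := fun x hx => (mem_zpowers_two o).2 (h.sq x hx)
  have e : (y * x)⁻¹ * (x * y) = (y * x * (y * x))⁻¹ * (y * (x * x) * y) := by group
  have f : y * (x * x) * y = x * x * (y * y) := by
    rcases h.sq x hx with c | c <;> rw [c]
    exacts [by simp, by rw [(h.cz y hy).eq, mul_assoc]]
  have := mul_mem (inv_mem (m _ (mul_mem hy hx))) (mul_mem (m x hx) (m y hy))
  rw [← f, ← e, mem_zpowers_two o] at this
  exact this.imp (fun c => (inv_mul_eq_one.1 c).symm) fun c => inv_mul_eq_iff_eq_mul.1 c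

section
variable [Finite G] {z : G} {R : Subgroup G} {w : ℕ} (X : XS z R w)
include X
theorem out_ker : ∃ φ : Cz z →* Out R, φ.ker = R.subgroupOf (Cz z) := by
  refine ⟨(QuotientGroup.mk' _).comp (R.normalizerMonoidHom.comp (inclusion X.le_norm)), Subgroup.ext fun g => ?_⟩
  rw [MonoidHom.mem_ker, MonoidHom.comp_apply, QuotientGroup.mk'_apply, QuotientGroup.eq_one_iff, mem_subgroupOf]
  refine ⟨fun ⟨r, e⟩ => (mul_mem_cancel_left (inv_mem r.2)).1 (X.self fun y hy => ?_), fun h => ⟨⟨g, h⟩, MulEquiv.ext fun _ => rfl⟩⟩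
  have t := congrArg Subtype.val (DFunLike.congr_fun e (⟨y, hy⟩ : R))
  have : r.1 * y * r.1⁻¹ = g * y * g.1⁻¹ := t
  calc _ = r.1⁻¹ * (r.1 * y * r.1⁻¹) * g := by group
    _ = _ := by rw [this]; group
theorem out_rng {O : Type*} [Group O] (e : Out R ≃* O) {n : ℕ} (h : Nat.card (Cz z) = 2 ^ (2 * w + 1) * n) :
    ∃ φ : Cz z →* O, φ.ker = R.subgroupOf (Cz z) ∧ Nat.card φ.range = n := by
  obtain ⟨φ, k⟩ := out_ker X
  have k' : (e.toMonoidHom.comp φ).ker = R.subgroupOf (Cz z) := by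
    rw [← k]; ext x; simp
  refine ⟨_, k', Nat.eq_of_mul_eq_mul_left (by positivity : 0 < 2 ^ (2 * w + 1)) ?_⟩
  rw [← h, ← index_ker, ← X.card, k', ← Nat.card_congr (subgroupOfEquivOfLe X.le).toEquiv, card_mul_index]
theorem omega {O : Type*} [Group O] [Finite O] (e : Out R ≃* O) {n : ℕ} (h : Nat.card (Cz z) = 2 ^ (2 * w + 1) * n)
    (h2 : Nat.card O = n * 2) (h3 : Nat.card (commutator O) = n) [(R.subgroupOf (Cz z)).Normal] :
    Nonempty (Cz z ⧸ R.subgroupOf (Cz z) ≃* commutator O) := by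
  obtain ⟨φ, k, c⟩ := out_rng X e h
  have i : φ.range.index = 2 := Nat.eq_of_mul_eq_mul_left (c ▸ Nat.card_pos : 0 < n) (by rw [← h2, ← c, card_mul_index])
  have : commutator O = φ.range := eq_of_le_of_card_ge (commutator_le.2 fun a _ b _ => by
    simp only [commutatorElement_def, mul_mem_iff_of_index_two i, inv_mem_iff]; tauto) (c.trans h3.symm).le
  exact ⟨((QuotientGroup.quotientMulEquivOfEq k.symm).trans (QuotientGroup.quotientKerEquivRange φ)).trans
    (MulEquiv.subgroupCongr this.symm)⟩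
end

theorem om_simple {ι : Type} [Fintype ι] [DecidableEq ι] (Q : QuadraticForm (ZMod 2) (ι → ZMod 2))
    (hΦ : (H23.Form.ofQuad Q).Nondeg) (h : 5 ≤ Fintype.card ι) : IsSimpleGroup (Omega (ZMod 2) Q) ∧
      Nat.card (isometryGroup (ZMod 2) Q) = Nat.card (Omega (ZMod 2) Q) * 2 := by
  have hV : Module.finrank (ZMod 2) (ι → ZMod 2) = Fintype.card ι := by simp
  have : Nontrivial (ι → ZMod 2) := Module.nontrivial_of_finrank_pos (R := ZMod 2) (by omega)
  have g := H22.genHyp_of hΦ rfl (.inr (by omega))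
  have := H22.POmega_isSimpleGroup Q hΦ h
  have c : Nat.card (center (Omega (ZMod 2) Q)) = 1 := by
    rw [H22.card_center_congr (H22.commutatorCongr (H22.isomEquiv Q))]
    exact H22.card_center_quad_eq_one hΦ rfl (H22.exists_sing_of_three_le hΦ rfl (by omega)) (by omega) _
      (H22.eichSet_le_commutator hΦ rfl g) (.inl rfl)
  refine ⟨((QuotientGroup.quotientMulEquivOfEq (card_eq_one.1 c)).trans QuotientGroup.quotientBot).symm.isSimpleGroup, ?_⟩
  rw [Nat.card_congr (H22.commutatorCongr (H22.isomEquiv Q)).toEquiv, Nat.card_congr (H22.isomEquiv Q).toEquiv]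
  exact (card_mul_index _).symm.trans (congrArg _ (H22.index_commutator_of_sq hΦ rfl g (by decide)))
theorem aniso : ∀ a b : ZMod 2, a ^ 2 + 1 * a * b + 1 * b ^ 2 = 0 → a = 0 ∧ b = 0 := by decide
theorem card_p (m : ℕ) (hm : 1 ≤ m) : Nat.card (isometryGroup (ZMod 2) (quadFormPlus m (ZMod 2))) =
    2 * 2 ^ (m * (m - 1)) * (2 ^ m - 1) * ∏ i ∈ Finset.range (m - 1), (2 ^ (2 * (i + 1)) - 1) := by
  rw [← H22.coe_qPlus, Nat.card_congr (H22.isomEquiv _).toEquiv, H22.card_O_qPlus m hm, ZMod.card]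
theorem card_m (m : ℕ) : Nat.card (isometryGroup (ZMod 2) (quadFormMinus m (ZMod 2) 1 1)) =
    2 * 2 ^ ((m + 1) * m) * (2 ^ (m + 1) + 1) * ∏ i ∈ Finset.range m, (2 ^ (2 * (i + 1)) - 1) := by
  rw [← H22.coe_qMinus, Nat.card_congr (H22.isomEquiv _).toEquiv, H22.card_O_qMinus m aniso, ZMod.card]
theorem om4_simple : IsSimpleGroup (Omega (ZMod 2) (quadFormMinus 1 (ZMod 2) 1 1)) ∧
    Nat.card (Omega (ZMod 2) (quadFormMinus 1 (ZMod 2) 1 1)) = 60 := by
  obtain ⟨f⟩ := H22.o_minus_four_two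
  have e := (MulEquiv.subgroupCongr (alternatingGroup.commutator_perm_eq (α := Fin 5) (by simp))).symm.trans
    (H22.commutatorCongr f)
  exact ⟨e.symm.isSimpleGroup, (Nat.card_congr e.toEquiv).symm.trans H18.card_a5⟩
/-- the hypothesis of the statements -/
def LE (z : G) (w : ℕ) (L : Type) [Group L] : Prop := ∃ (Q : Subgroup (Cz z)) (_ : Q.Normal),
  IsExtraspecialCentralizerSetting z Q w ∧ Nonempty (Cz z ⧸ Q ≃* L)
section
variable [Finite G] {z g : G} {R : Subgroup G}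
theorem le_of {w n : ℕ} (X : XS z R w) {O : Type} [Group O] [Finite O] (e : Out R ≃* O)
    (h : Nat.card (Cz z) = 2 ^ (2 * w + 1) * n) (h2 : Nat.card O = n * 2) (h3 : Nat.card (commutator O) = n)
    (hs : IsSimpleGroup (commutator O)) (h4 : 3 ∣ n) (hg : g * z * g⁻¹ ∈ R) (hne : g * z * g⁻¹ ≠ z) : LE z w (commutator O) := by
  have := X.normal
  obtain ⟨f⟩ := omega X e h h2 h3
  exact ⟨_, this, X.setting' f (pCore_eq_bot_of_simple (h3 ▸ h4)) hg hne, ⟨f⟩⟩
theorem ndvd {w n : ℕ} (X : XS z R w) {O : Type} [Group O] (e : Out R ≃* O)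
    (h : Nat.card (Cz z) = 2 ^ (2 * w + 1) * n) : n ∣ Nat.card O := by
  obtain ⟨φ, -, c⟩ := out_rng X e h
  exact c ▸ card_subgroup_dvd_card _
theorem le4 (X : XS z R 4) (h : Nat.card (Cz z) = 89181388800) (hg : g * z * g⁻¹ ∈ R) (hne : g * z * g⁻¹ ≠ z) :
    LE z 4 (Omega (ZMod 2) (quadFormPlus 4 (ZMod 2))) := by
  by_cases hp : ∃ A : Subgroup R, IsElementaryAbelian 2 A ∧ Nat.card A = 2 ^ (4 + 1)
  · obtain ⟨e⟩ := H12.es_out_plus X.es (by norm_num) X.card hp
    obtain ⟨s, c⟩ := om_simple (H22.qPlus 4 (ZMod 2)) (H22.qPlus_nondeg 4) (by simp)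
    have d : _ = 174182400 * 2 := (card_p 4 (by norm_num)).trans (by decide +kernel)
    exact le_of X e (n := 174182400) h d (Nat.eq_of_mul_eq_mul_right two_pos (c.symm.trans d)) s (by norm_num) hg hne
  · obtain ⟨e⟩ := H12.es_out_minus (m := 3) X.es X.card hp
    exact absurd (card_m 3 ▸ ndvd X e (n := 174182400) h) (by decide +kernel)
theorem le3 (X : XS z R 3) (h : Nat.card (Cz z) = 3317760) (hg : g * z * g⁻¹ ∈ R) (hne : g * z * g⁻¹ ≠ z) :
    LE z 3 (Omega (ZMod 2) (quadFormMinus 2 (ZMod 2) 1 1)) := by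
  by_cases hp : ∃ A : Subgroup R, IsElementaryAbelian 2 A ∧ Nat.card A = 2 ^ (3 + 1)
  · obtain ⟨e⟩ := H12.es_out_plus X.es (by norm_num) X.card hp
    exact absurd (card_p 3 (by norm_num) ▸ ndvd X e (n := 25920) h) (by decide +kernel)
  · obtain ⟨e⟩ := H12.es_out_minus (m := 2) X.es X.card hp
    obtain ⟨s, c⟩ := om_simple (H22.qMinus 2 (ZMod 2) 1 1) (H22.qMinus_nondeg 2 aniso) (by simp)
    have d : _ = 25920 * 2 := (card_m 2).trans (by decide +kernel)
    exact le_of X e (n := 25920) h d (Nat.eq_of_mul_eq_mul_right two_pos (c.symm.trans d)) s (by norm_num) hg hne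
theorem le2 (X : XS z R 2) (h : Nat.card (Cz z) = 1920) (hg : g * z * g⁻¹ ∈ R) (hne : g * z * g⁻¹ ≠ z) :
    LE z 2 (Omega (ZMod 2) (quadFormMinus 1 (ZMod 2) 1 1)) := by
  by_cases hp : ∃ A : Subgroup R, IsElementaryAbelian 2 A ∧ Nat.card A = 2 ^ (2 + 1)
  · obtain ⟨e⟩ := H12.es_out_plus X.es (by norm_num) X.card hp
    exact absurd (card_p 2 (by norm_num) ▸ ndvd X e (n := 60) h) (by decide +kernel)
  · obtain ⟨e⟩ := H12.es_out_minus (m := 1) X.es X.card hp
    exact le_of X e (n := 60) h ((card_m 1).trans (by decide +kernel)) om4_simple.2 om4_simple.1 (by norm_num) hg hne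
end
end H9.Cw
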