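import Cfsg.Agent.H9.HH5
import Cfsg.Agent.H9.Collect

/-! `p`-groups generated by elements acting irreducibly on their commutator subgroup. -/

set_option autoImplicit false

namespace H9
open Subgroup H15 Cfsg
open scoped commutatorElement

variable {G : Type*} [Group G] {p : ℕ} [hp : Fact p.Prime]

theorem aut_norm {A : Type*} [CommGroup A] {α ε : MulAut A} (hc : Commute α ε)
    (hα : α ^ p = 1) (hε : ε ^ p = 1) (hfe : ∀ i, 0 < i → i < p → ∀ v, (ε ^ i) v = v → v = 1)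
    (hf : ∀ j v, (α * ε ^ j) v = v → v = 1) (v : A) : v ^ p = 1 := by
  have hN : ∀ β : MulAut A, β ^ p = 1 → (∀ v, β v = v → v = 1) →
      ∀ v, ∏ i ∈ Finset.range p, (β ^ i) v = 1 := fun β h1 h2 v => by
    refine h2 _ ?_
    have h3 := Finset.prod_range_succ_comm (fun i => (β ^ i) v) p
    rw [Finset.prod_range_succ', h1, pow_zero, mul_comm] at h3
    rw [map_prod, ← mul_left_cancel h3]
    exact Finset.prod_congr rfl fun i _ => by rw [pow_succ', MulAut.mul_apply]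
  have h1 : ∏ j ∈ Finset.range p, ∏ i ∈ Finset.range p, ((α * ε ^ j) ^ i) v = 1 :=
    Finset.prod_eq_one fun j _ => hN _ (by
      rw [(hc.pow_right j).mul_pow, hα, ← pow_mul, mul_comm j, pow_mul, hε, one_pow, one_mul])
      (hf j) v
  obtain ⟨m, hm⟩ : ∃ m, p = m + 1 := ⟨p - 1, (Nat.sub_add_cancel hp.out.pos).symm⟩
  rw [Finset.prod_comm] at h1
  have h2 : ∀ i, 0 < i → i < p → ∏ j ∈ Finset.range p, ((α * ε ^ j) ^ i) v = 1 := fun i h0 hi => by
    have := congrArg (α ^ i) (hN (ε ^ i) (by rw [← pow_mul, mul_comm, pow_mul, hε, one_pow])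
      (hfe i h0 hi) v)
    rw [map_prod, map_one] at this
    rw [← this]
    refine Finset.prod_congr rfl fun j _ => ?_
    rw [(hc.pow_right j).mul_pow, MulAut.mul_apply, ← pow_mul, ← pow_mul, mul_comm]
  conv_lhs at h1 => rw [hm, Finset.prod_range_succ', ← hm]
  rw [Finset.prod_eq_one fun i hi => h2 (i + 1) (by omega) (by
    have := Finset.mem_range.1 hi; omega)] at h1
  simpa using h1

theorem aut_central {A : Type*} [Group A] [Finite A] [hA : IsMulCommutative A]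
    (hcop : (Nat.card A).Coprime p) {T : Subgroup (MulAut A)} (hT : IsPGroup p T) {γ α δ : MulAut A}
    (hγ : γ ∈ T) (hα : α ∈ T) (hδ : δ ∈ T) (hc : Commute α γ) (hαp : α ^ p = 1)
    (hirr : ∀ X : Subgroup A, (∀ v ∈ X, γ v ∈ X) → X = ⊥ ∨ X = ⊤) : Commute α δ := by
  by_cases h1 : α = 1
  · rw [h1]; exact Commute.one_left δ
  have hfix : ∀ β : MulAut A, Commute β γ → β ≠ 1 → ∀ v, β v = v → v = 1 := fun β hβ h v hv => by
    rcases hirr ((β : A →* A).eqLocus (MonoidHom.id A)) (fun w hw => by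
      change β (γ w) = γ w
      rw [← MulAut.mul_apply, hβ.eq, MulAut.mul_apply, show β w = w from hw]) with h2 | h2
    · exact (Subgroup.eq_bot_iff_forall _).1 h2 v hv
    · exact absurd (MulEquiv.ext fun w => show β w = w from h2.ge (mem_top w)) h
  haveI : Nontrivial T := ⟨⟨⟨α, hα⟩, 1, fun h => h1 (congrArg Subtype.val h)⟩⟩
  obtain ⟨ε, -, hε, hεo⟩ := exists_mem_center_orderOf_eq hT (M := ⊤) top_ne_bot
  have hεc : ∀ β ∈ T, Commute β ε := fun β hβ =>
    congrArg Subtype.val (commute_of_mem_center hε ⟨β, hβ⟩).eq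
  rw [← orderOf_coe] at hεo
  by_contra hn
  letI : CommGroup A := { (inferInstance : Group A) with mul_comm := hA.is_comm.comm }
  have h2 := aut_norm (hεc α hα) hαp (hεo ▸ pow_orderOf_eq_one _)
    (fun i h0 hi => hfix _ ((hεc γ hγ).symm.pow_left i)
      (pow_ne_one_of_lt_orderOf h0.ne' (hεo ▸ hi)))
    (fun j => hfix _ (hc.mul_left ((hεc γ hγ).symm.pow_left j)) fun h => hn (by
      rw [eq_inv_of_mul_eq_one_left h]
      exact ((hεc δ hδ).symm.pow_left j).inv_left))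
  refine h1 (MulEquiv.ext fun v => ?_)
  have h3 : ∀ w : A, w = 1 := fun w => by
    have := (powCoprime hcop).injective (a₁ := w) (a₂ := 1) (by simp [h2 w])
    exact this
  rw [h3 (α v), h3 ((1 : MulAut A) v)]

/-- `c` acts on `V` like an exceptional element of order `p ^ (k + 1)`. -/
structure Gd (p : ℕ) (V : Subgroup G) (c : G) (k : ℕ) : Prop where
  norm : c ∈ 𝒩(V)
  pow : c ^ p ^ (k + 1) = 1
  ne : ⁅V, zpowers (c ^ p ^ k)⁆ ≠ ⊥
  le : ⁅V, zpowers c⁆ ≤ ⁅V, zpowers (c ^ p ^ k)⁆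
  card : Nat.card (⁅V, zpowers (c ^ p ^ k)⁆ : Subgroup G) = (p ^ (k + 1) - 1) ^ 2

theorem cj_comm_zpowers {V : Subgroup G} {g : G} (hg : g ∈ 𝒩(V)) (c : G) :
    ⁅V, zpowers (g * c * g⁻¹)⁆ = cj(g, ⁅V, zpowers c⁆) := by
  rw [cj_comm, cj_of_mem_norm hg, cj_zpowers]

namespace Gd

variable {V : Subgroup G} {c d : G} {k k' : ℕ}

omit hp in
theorem eq (h : Gd p V c k) : ⁅V, zpowers c⁆ = ⁅V, zpowers (c ^ p ^ k)⁆ :=
  le_antisymm h.le (commutator_mono le_rfl (zpowers_le.2 (pow_mem (mem_zpowers c) _)))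

omit hp in
theorem conj (h : Gd p V c k) {g : G} (hg : g ∈ 𝒩(V)) : Gd p V (g * c * g⁻¹) k where
  norm := mul_mem (mul_mem hg h.norm) (inv_mem hg)
  pow := by rw [conj_pow, h.pow]; simp
  ne := by rw [conj_pow, cj_comm_zpowers hg, Ne, cj_eq_bot]; exact h.ne
  le := by rw [conj_pow, cj_comm_zpowers hg, cj_comm_zpowers hg]; exact cj_mono h.le
  card := by rw [conj_pow, cj_comm_zpowers hg, card_cj, h.card]

omit hp in
theorem le_V (h : Gd p V c k) : ⁅V, zpowers c⁆ ≤ V := comm_le_left (zpowers_le.2 h.norm)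

theorem orderOf_eq (h : Gd p V c k) : orderOf c = p ^ (k + 1) :=
  orderOf_eq_prime_pow (fun e => h.ne (by rw [e, zpowers_one_eq_bot, commutator_bot_right])) h.pow

variable [Finite G]

theorem three_le (h : Gd p V c k) : 3 ≤ p ^ (k + 1) := by
  have h1 := one_lt_card_iff_ne_bot _ |>.2 h.ne
  rw [h.card] at h1
  by_contra h2
  have h3 : p ^ (k + 1) - 1 ≤ 1 := by omega
  have := Nat.pow_le_pow_left h3 2
  omega

variable [IsMulCommutative V] (hV : (Nat.card V).Coprime p)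
include hV

theorem fpf (h : Gd p V c k) {g : G} (hg : g ∈ zpowers c) (h1 : g ≠ 1) :
    ⁅V, zpowers c⁆ ⊓ 𝒞₁(g) = ⊥ := by
  have h2 := pow_mem_zpowers_of_ne_one hp.out h.orderOf_eq hg h1
  have h3 := H1.inf_centralizer_inf_commutator_eq_bot (zpowers_le.2 (pow_mem h.norm (p ^ k)))
    (H1.IsPGroup.coprime_card ((isPGroup_zpowers_of_pow h.pow).to_le
      (zpowers_le.2 (pow_mem (mem_zpowers c) _))) hV)
  rw [eq_bot_iff, ← h3]
  refine le_inf (le_inf (inf_le_left.trans h.le_V) (inf_le_right.trans ?_)) (inf_le_left.trans h.le)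
  rw [← cent_zpowers]
  exact cent_anti (zpowers_le.2 h2)

theorem irr (h : Gd p V c k) {X : Subgroup G} (hX : X ≤ ⁅V, zpowers c⁆) (hc : c ∈ 𝒩(X)) :
    X = ⊥ ∨ X = ⁅V, zpowers c⁆ := by
  have h1 := semireg_dvd (Z := ⊥) (zpowers_le.2 hc) (by rw [norm_bot]; exact le_top) bot_le
    (by rw [norm_bot]; exact le_top) (by simp)
    (fun g hg h1 => (inf_le_inf_right _ hX).trans (h.fpf hV hg h1).le)
  rw [Nat.card_zpowers, h.orderOf_eq, relIndex_bot_left] at h1
  have h2 := H1.card_mul_relIndex hX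
  rw [h.eq, h.card, ← h.eq] at h2
  have h3 := h.three_le
  by_cases h0 : X = ⊥
  · exact Or.inl h0
  right
  refine le_antisymm hX (relIndex_eq_one.1 ?_)
  have h4 := (one_lt_card_iff_ne_bot _).2 h0
  generalize X.relIndex ⁅V, zpowers c⁆ = y at h2
  generalize Nat.card X = x at h1 h2 h4
  generalize p ^ (k + 1) = m at h1 h2 h3
  obtain ⟨s, hs⟩ := h1
  obtain ⟨m, rfl⟩ : ∃ m', m = m' + 2 := ⟨m - 2, by omega⟩
  obtain rfl : x = 1 + (m + 2) * s := by omega
  have hs0 : 1 ≤ s := by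
    rcases s with _ | s
    · omega
    · omega
  rw [show m + 2 - 1 = m + 1 by omega] at h2
  rcases y with _ | y
  · exact absurd h2.symm (by positivity)
  have h5 : (m + 2) ∣ y := by
    refine (Nat.dvd_add_right (Dvd.intro (s * (y + 1)) rfl : m + 2 ∣ (m + 2) * (s * (y + 1)))).1
      ⟨m, ?_⟩
    nlinarith
  obtain ⟨t, rfl⟩ := h5
  rcases t with _ | t
  · rfl
  · nlinarith [Nat.zero_le (s * t), Nat.zero_le (m * s * t), Nat.zero_le (m * m * s * t),
      Nat.mul_le_mul_left (m * m) hs0, Nat.mul_le_mul_left m hs0]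

theorem le_cent (h : Gd p V c k) (h' : Gd p V d k) (hn : d ∈ 𝒩(⁅V, zpowers c⁆))
    (hne : ⁅V, zpowers c⁆ ≠ ⁅V, zpowers d⁆) : ⁅V, zpowers c⁆ ≤ 𝒞₁(d) := by
  have h1 : zpowers d ≤ 𝒩(⁅V, zpowers d⁆) := normalizer_commutator_ge_right _ _
  rcases h'.irr hV (X := ⁅V, zpowers c⁆ ⊓ ⁅V, zpowers d⁆) inf_le_right
    (le_norm_inf (zpowers_le.2 hn) h1 (mem_zpowers d)) with h2 | h2
  · rw [← cent_zpowers]
    exact le_cent_of_comm_le_bot ((le_inf (comm_le_left (zpowers_le.2 hn))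
      (commutator_mono h.le_V le_rfl)).trans h2.le)
  · refine absurd (eq_of_le_of_card_ge (h2.ge.trans inf_le_left) ?_).symm hne
    rw [h.eq, h'.eq, h.card, h'.card]

theorem mem_norm {T : Subgroup G} (hT : IsPGroup p T) (hTV : T ≤ 𝒩(V)) (hc : c ∈ T) (hd : d ∈ T)
    (h : Gd p V c k) (h' : Gd p V d k') (hk : k' ≤ k) : d ∈ 𝒩(⁅V, zpowers c⁆) := by
  induction hn : Nat.card (closure ({c, d} : Set G)) using Nat.strong_induction_on
    generalizing c d k k' with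
  | _ n ih =>
  by_contra hd0
  set K := closure ({c, d} : Set G) with hK
  have hcK : c ∈ K := subset_closure (by simp)
  have hdK : d ∈ K := subset_closure (by simp)
  have hKT : K ≤ T := (closure_le _).2 (by rintro _ (rfl | rfl) <;> assumption)
  haveI := (hT.to_le hKT).isNilpotent
  have hlt : zpowers c ⊔ ⁅K, K⁆ < K := by
    refine lt_of_le_of_ne (sup_le (zpowers_le.2 hcK) (commutator_le_of_le le_rfl le_rfl)) fun e =>
      hd0 (normalizer_commutator_ge_right _ _ ?_)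
    exact le_of_le_sup_commutator (zpowers_le.2 hcK) e.ge hdK
  have hcj : ∀ g ∈ K, g * c * g⁻¹ ∈ zpowers c ⊔ ⁅K, K⁆ := fun g hg => by
    have : g * c * g⁻¹ = ⁅g, c⁆ * c := by simp only [commutatorElement_def]; group
    rw [this]
    exact mul_mem (mem_sup_right (commutator_mem_commutator hg hcK)) (mem_sup_left (mem_zpowers c))
  have hG : ∀ g ∈ K, Gd p V (g * c * g⁻¹) k := fun g hg => h.conj (hTV (hKT hg))
  set A := ⁅V, zpowers c⁆ with hA
  have hC : ∀ g ∈ K, ∀ g' ∈ K, cj(g, A) ≠ cj(g', A) → cj(g, A) ≤ 𝒞₁(g' * c * g'⁻¹) :=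
    fun g hg g' hg' hne => by
      rw [hA, ← cj_comm_zpowers (hTV (hKT hg)), ← cj_comm_zpowers (hTV (hKT hg'))] at hne
      rw [hA, ← cj_comm_zpowers (hTV (hKT hg))]
      refine (hG g hg).le_cent hV (hG g' hg') (ih _ ?_ (hKT (hlt.le (hcj g hg)))
        (hKT (hlt.le (hcj g' hg'))) (hG g hg) (hG g' hg') le_rfl rfl) hne
      refine hn ▸ H1.card_lt_of_lt (lt_of_le_of_lt ((closure_le _).2 ?_) hlt)
      rintro _ (rfl | rfl)
      exacts [hcj g hg, hcj g' hg']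
  have hB : ∀ g ∈ K, ∀ v ∈ cj(g, A), v ∈ 𝒞₁(g * c * g⁻¹) → v = 1 := fun g hg v hv hv' => by
    have := (hG g hg).fpf hV (mem_zpowers _) fun e => (hG g hg).ne (by
      rw [e, one_pow, zpowers_one_eq_bot, commutator_bot_right])
    rw [cj_comm_zpowers (hTV (hKT hg))] at this
    exact (Subgroup.eq_bot_iff_forall _).1 this v ⟨hv, hv'⟩
  have h01 : cj((1 : G), A) ≠ cj(d, A) := fun e =>
    hd0 (mem_norm_iff_cj.2 (by rw [← e, cj_one]))
  have h12 : cj(d, A) ≠ cj(d * d, A) := fun e => h01 (by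
    rw [cj_mul] at e; rw [cj_one]; exact cj_injective e)
  have hdisj : ∀ v ∈ A, v ∈ cj(d, A) → v = 1 := fun v hv hv' =>
    hB d hdK v hv' (hC 1 (one_mem _) d hdK h01 (by rwa [cj_one]))
  have hVc : ∀ a ∈ V, ∀ b ∈ V, a * b = b * a := H1.isMulCommutative_iff'.1 inferInstance
  have hdV : ∀ v ∈ V, d * v * d⁻¹ ∈ V := fun v hv => H1.conj_mem_of_mem_normalizer h'.norm hv
  let θ : A → (⁅V, zpowers d⁆ : Subgroup G) := fun v => ⟨⁅(v : G)⁻¹, d⁆⁻¹⁻¹,
    inv_mem (inv_mem (commutator_mem_commutator (inv_mem (h.le_V v.2)) (mem_zpowers d)))⟩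
  have hθ : ∀ v : A, (θ v : G) = (v : G)⁻¹ * (d * v * d⁻¹) := fun v => by
    simp only [θ, commutatorElement_def]; group
  have hinj : Function.Injective θ := fun v w e => by
    have e1 : (v : G)⁻¹ * (d * v * d⁻¹) = (w : G)⁻¹ * (d * w * d⁻¹) := by rw [← hθ, ← hθ, e]
    have e2 : (w : G) * (v : G)⁻¹ = d * (w * (v : G)⁻¹) * d⁻¹ := by
      calc (w : G) * (v : G)⁻¹ = w * ((v : G)⁻¹ * (d * v * d⁻¹)) * (d * v * d⁻¹)⁻¹ := by group
        _ = _ := by rw [e1]; group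
    have := hdisj _ (mul_mem w.2 (inv_mem v.2)) (e2 ▸ conj_mem_cj (mul_mem w.2 (inv_mem v.2)))
    exact Subtype.ext (mul_inv_eq_one.1 this).symm
  have hsurj : Function.Surjective θ := (hinj.bijective_of_nat_card_le (by
    rw [hA, h.eq, h'.eq, h.card, h'.card]
    exact Nat.pow_le_pow_left (Nat.sub_le_sub_right
      (Nat.pow_le_pow_right hp.out.pos (by omega)) 1) 2)).2
  have key : ∀ v ∈ A, ∃ w ∈ A, d * d * v * (d * d)⁻¹ * w = d * (v * w) * d⁻¹ := fun v hv => by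
    have h1 : d ∈ 𝒩(⁅V, zpowers d⁆) := normalizer_commutator_ge_right _ _ (mem_zpowers d)
    obtain ⟨w, hw⟩ := hsurj ⟨_, H1.conj_mem_of_mem_normalizer h1 (θ ⟨v, hv⟩).2⟩
    have e := congrArg Subtype.val hw
    simp only [hθ] at e
    refine ⟨w, w.2, ?_⟩
    have h2 := hdV _ (h.le_V hv)
    have h3 := hdV _ (h.le_V w.2)
    calc d * d * v * (d * d)⁻¹ * w
        = (d * v * d⁻¹) * (d * (v⁻¹ * (d * v * d⁻¹)) * d⁻¹) * w := by group
      _ = (d * v * d⁻¹) * ((w : G)⁻¹ * ((d * w * d⁻¹) * w)) := by rw [← e]; group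
      _ = _ := by rw [hVc _ h3 _ (h.le_V w.2)]; group
  by_cases h02 : cj((1 : G), A) = cj(d * d, A)
  · have h1 : ∀ v ∈ A, d * d * v = v * (d * d) := fun v hv => by
      obtain ⟨w, hw, e⟩ := key v hv
      have h2 : d * d * v * (d * d)⁻¹ ∈ A := by
        have := conj_mem_cj (g := d * d) hv
        rwa [← h02, cj_one] at this
      have h3 := hdisj _ (mul_mem h2 hw) (e ▸ conj_mem_cj (mul_mem hv hw))
      have h4 : v * w = 1 := by rw [h3] at e; simpa using e.symm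
      rw [← mul_inv_eq_iff_eq_mul, eq_inv_of_mul_eq_one_left h3, eq_inv_of_mul_eq_one_left h4]
    refine h'.ne ?_
    rw [← h'.eq, ← h'.fpf hV (g := d * d) (mul_mem (mem_zpowers d) (mem_zpowers d)) fun e => by
      have := orderOf_le_of_pow_eq_one (x := d) two_pos (by rw [pow_two, e])
      have := h'.three_le
      rw [← h'.orderOf_eq] at this
      omega, eq_comm, inf_eq_left]
    intro b hb
    obtain ⟨v, hv⟩ := hsurj ⟨b, hb⟩
    have e : (v : G)⁻¹ * (d * v * d⁻¹) = b := by rw [← hθ, hv]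
    have h2 : Commute (v : G) (d * d) := (h1 v v.2).symm
    have h3 : Commute d (d * d) := (Commute.refl d).mul_right (Commute.refl d)
    exact mem_cent1.2 (e ▸ (h2.inv_left.mul_left ((h3.mul_left h2).mul_left h3.inv_left)).eq)
  · refine h.ne ?_
    rw [← h.eq, Subgroup.eq_bot_iff_forall]
    intro v hv
    obtain ⟨w, hw, e⟩ := key v hv
    have hdd := mul_mem hdK hdK
    have h1 := hB _ hdd _ (conj_mem_cj hv) (by
      rw [eq_mul_inv_of_mul_eq e]
      exact mul_mem (hC d hdK _ hdd h12 (conj_mem_cj (mul_mem hv hw)))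
        (inv_mem (hC 1 (one_mem _) _ hdd h02 (by rwa [cj_one]))))
    rwa [mul_inv_eq_one, mul_eq_left] at h1

theorem comm_mem_cent {T : Subgroup G} (hT : IsPGroup p T) (hTV : T ≤ 𝒩(V)) (hc : c ∈ T)
    (hd : d ∈ T) (h : Gd p V c k) (hn : d ∈ 𝒩(⁅V, zpowers c⁆)) : ⁅c ^ p ^ k, d⁆ ∈ 𝒞(V) := by
  set A := ⁅V, zpowers c⁆ with hA
  set a := c ^ p ^ k with ha
  have hcA : c ∈ 𝒩(A) := normalizer_commutator_ge_right _ _ (mem_zpowers c)
  have haA : a ∈ 𝒩(A) := pow_mem hcA _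
  have haT : a ∈ T := pow_mem hc _
  haveI : IsMulCommutative A := comm_of_le inferInstance h.le_V
  let ψ := A.normalizerMonoidHom
  have hψ : ∀ (g : 𝒩(A)) (v : A), (ψ g v : G) = g * v * (g : G)⁻¹ := fun _ _ => rfl
  have h1 := aut_central (p := p) (hV.coprime_dvd_left (card_dvd_of_le h.le_V))
    (T := (T.subgroupOf 𝒩(A)).map ψ) ((hT.comap_subtype).map ψ) (γ := ψ ⟨c, hcA⟩)
    (α := ψ ⟨a, haA⟩) (δ := ψ ⟨d, hn⟩) ⟨_, hc, rfl⟩ ⟨_, haT, rfl⟩ ⟨_, hd, rfl⟩
    (Commute.map (Subtype.ext ((Commute.refl c).pow_left _).eq) ψ)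
    (by
      rw [← map_pow, ← map_one ψ]
      congr 1
      exact Subtype.ext (show (c ^ p ^ k) ^ p = 1 by rw [← pow_mul, ← pow_succ, h.pow]))
    (fun X hX => by
      rcases h.irr hV (X := X.map A.subtype) (map_subtype_le _) (mem_norm_of_cj_le (by
        rintro _ ⟨_, ⟨v, hv, rfl⟩, rfl⟩
        exact ⟨_, hX v hv, rfl⟩)) with h2 | h2
      · exact Or.inl ((Subgroup.map_eq_bot_iff_of_injective _ A.subtype_injective).1 h2)
      · exact Or.inr (map_injective A.subtype_injective (h2.trans (map_top_subtype A).symm)))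
  have h2 : ⁅a, d⁆ ∈ 𝒞(A) := fun v hv => by
    have h3 : ψ ⁅(⟨a, haA⟩ : 𝒩(A)), ⟨d, hn⟩⁆ = 1 := by
      rw [map_commutatorElement, commutatorElement_eq_one_iff_commute]; exact h1
    have h4 := hψ ⁅(⟨a, haA⟩ : 𝒩(A)), ⟨d, hn⟩⁆ ⟨v, hv⟩
    rw [h3] at h4
    exact (mul_inv_eq_iff_eq_mul.1 h4.symm).symm
  have h3 : a ∈ cm V A := (mem_cm_iff (hTV haT) haA).2 h.eq.ge
  have h4 : ⁅a, d⁆ ∈ cm V A := by
    have := H1.conj_mem_of_mem_normalizer
      (le_norm_cm (zpowers_le.2 (hTV hd)) (zpowers_le.2 hn) (mem_zpowers d)) (inv_mem h3)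
    have e : ⁅a, d⁆ = a * (d * a⁻¹ * d⁻¹) := by simp only [commutatorElement_def]; group
    exact e ▸ mul_mem h3 this
  have h5 : zpowers ⁅a, d⁆ ≤ T := zpowers_le.2 (commutator_le_of_le le_rfl le_rfl
    (commutator_mem_commutator haT hd))
  refine H1.le_centralizer_of_commutator_commutator_eq_bot (h5.trans hTV)
    (H1.IsPGroup.coprime_card (hT.to_le h5) hV) ?_ (mem_zpowers _)
  exact le_bot_iff.1 ((commutator_mono ((mem_cm_iff h4.1 h4.2.1).1 h4) le_rfl).trans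
    (le_cent_iff_comm.1 (cent_comm (zpowers_le.2 h2))).le)

end Gd

/-- the modular version of `Gd` -/
structure GdM (p : ℕ) (L R : Subgroup G) (c : G) (k : ℕ) : Prop where
  pow : c ^ p ^ (k + 1) = 1
  ne : ¬ ⁅L, zpowers (c ^ p ^ k)⁆ ≤ R
  le : ⁅L, zpowers c⁆ ≤ ⁅L, zpowers (c ^ p ^ k)⁆ ⊔ R
  card : R.relIndex (⁅L, zpowers (c ^ p ^ k)⁆ ⊔ R) = (p ^ (k + 1) - 1) ^ 2

theorem GdM.comm_nrm [Finite G] {L R T : Subgroup G} [R.Normal] (hL : (Nat.card L).Coprime p)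
    (hLL : ⁅L, L⁆ ≤ R) (hT : IsPGroup p T) (hTL : T ≤ 𝒩(L)) {c d : G} {k k' : ℕ} (hc : c ∈ T)
    (hd : d ∈ T) (h : GdM p L R c k) (h' : GdM p L R d k') (hk : k' ≤ k) :
    ⁅L, zpowers ⁅c ^ p ^ k, d⁆⁆ ≤ R := by
  let f := QuotientGroup.mk' R
  have hTV := H1.le_normalizer_map hTL f
  have e : ∀ x : G, (⁅L, zpowers x⁆ : Subgroup G).map f = ⁅L.map f, zpowers (f x)⁆ := fun x => by
    rw [Subgroup.map_commutator, MonoidHom.map_zpowers]
  have hR : R.map f = ⊥ := le_iff_map_mk_eq_bot.1 le_rfl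
  have key : ∀ {c : G} {k : ℕ}, c ∈ T → GdM p L R c k → Gd p (L.map f) (f c) k := fun hc h =>
    { norm := hTV ⟨_, hc, rfl⟩
      pow := by rw [← map_pow, h.pow, map_one]
      ne := by rw [← map_pow, ← e]; exact fun h0 => h.ne (le_iff_map_mk_eq_bot.2 h0)
      le := by
        rw [← map_pow, ← e, ← e]
        refine (map_mono h.le).trans ?_
        rw [Subgroup.map_sup, hR, sup_bot_eq]
      card := by
        rw [← map_pow, ← e, ← h.card, ← H1.card_map_mk'_eq_relIndex, Subgroup.map_sup, hR,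
          sup_bot_eq] }
  haveI : IsMulCommutative (L.map f) := comm_of_le_cent (le_cent_iff_comm.2 (by
    rw [← Subgroup.map_commutator]; exact le_iff_map_mk_eq_bot.1 hLL))
  have hV := hL.coprime_dvd_left (card_map_dvd L f)
  have h1 := (key hc h).comm_mem_cent hV (hT.map f) hTV ⟨_, hc, rfl⟩ ⟨_, hd, rfl⟩
    (Gd.mem_norm hV (hT.map f) hTV ⟨_, hc, rfl⟩ ⟨_, hd, rfl⟩ (key hc h) (key hd h') hk)
  rw [le_iff_map_mk_eq_bot, e, map_commutatorElement, map_pow]
  exact le_cent_iff_comm.1 (cent_comm (zpowers_le.2 h1))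

theorem GdM.comm_mem [Finite G] {L R T : Subgroup G} (hL : (Nat.card L).Coprime p) (hRL : R ≤ L)
    (hLL : ⁅L, L⁆ ≤ R) (hT : IsPGroup p T) (hTL : T ≤ 𝒩(L)) (hTR : T ≤ 𝒩(R)) {c d : G}
    {k k' : ℕ} (hc : c ∈ T) (hd : d ∈ T) (h : GdM p L R c k) (h' : GdM p L R d k')
    (hk : k' ≤ k) : ⁅c ^ p ^ k, d⁆ ∈ cm L R := by
  obtain ⟨N, hN⟩ : ∃ N, N = 𝒩(R) := ⟨_, rfl⟩
  have hR : R ≤ N := hN ▸ le_norm_self R
  haveI : (R.subgroupOf N).Normal := normal_subgroupOf hN.le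
  have hLN : L ≤ N := hN ▸ le_norm_of_comm_le hRL hLL
  have hTN : T ≤ N := hN ▸ hTR
  have e : ∀ x : N, ⁅L.subgroupOf N, zpowers x⁆ = (⁅L, zpowers (x : G)⁆ : Subgroup G).subgroupOf N :=
    fun x => by
      rw [subgroupOf_comm hLN (zpowers_le.2 x.2)]
      congr 1
      rw [← subgroupOf_map (zpowers x), MonoidHom.map_zpowers]; rfl
  have e' : ∀ x : N, ⁅L, zpowers (x : G)⁆ ≤ N := fun x =>
    commutator_le_of_le hLN (zpowers_le.2 x.2)
  have key : ∀ {c : N} {k : ℕ}, GdM p L R (c : G) k →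
      GdM p (L.subgroupOf N) (R.subgroupOf N) c k := fun {c k} h =>
    { pow := Subtype.ext h.pow
      ne := by rw [e, subgroupOf_le_iff (e' _)]; exact h.ne
      le := by rw [e, e, ← subgroupOf_sup (e' _) hR]; exact comap_mono h.le
      card := by
        rw [e, ← subgroupOf_sup (e' _) hR, relIndex_subgroupOf (sup_le (e' _) hR)]; exact h.card }
  have h1 := GdM.comm_nrm (T := T.subgroupOf N) (by rwa [H1.card_subgroupOf_of_le hLN])
    (by rw [← subgroupOf_comm hLN hLN]; exact comap_mono hLL) hT.comap_subtype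
    (H1.le_normalizer_subgroupOf hTL N) (c := ⟨c, hTN hc⟩) (d := ⟨d, hTN hd⟩) hc hd (key h) (key h') hk
  rw [e, subgroupOf_le_iff (e' _)] at h1
  have h2 : ⁅c ^ p ^ k, d⁆ ∈ T :=
    commutator_le_of_le le_rfl le_rfl (commutator_mem_commutator (pow_mem hc _) hd)
  exact (mem_cm_iff (hTL h2) (hTR h2)).2 h1

end H9
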