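import Cfsg.Agent.H9.HH6

/-! Two steps of the upper `p`-series lower the exponent of the Sylow `p`-subgroups: the second
level and the case of odd `p`. -/

set_option autoImplicit false

namespace H9
open Module H2 Subgroup H15 Cfsg
open scoped commutatorElement

universe u

variable {G : Type*} [Group G] [Finite G] {p : ℕ} [hp : Fact p.Prime]

theorem rel_cent_pCore (hG : IsPSolvable p G) {N : Subgroup G} [N.Normal]
    (h0 : pPrimeCore p G ⊓ N = ⊥) : N ⊓ 𝒞(pCore p G ⊓ N) ≤ pCore p G := by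
  have h1 : pPrimeCore p N = ⊥ := by
    rw [← Subgroup.map_eq_bot_iff_of_injective _ N.subtype_injective,
      H1.map_pPrimeCore_subtype_eq, h0]
  have h2 := map_mono (f := N.subtype)
    (H1.IsPSolvable.centralizer_pCore_le (H1.IsPSolvable.subgroup hG N) h1)
  rw [map_subtype_cent, H1.map_pCore_subtype_eq] at h2
  exact h2.trans inf_le_left

theorem rel_cent_pPrimeCore (hG : IsPSolvable p G) {N : Subgroup G} [N.Normal]
    (h0 : pCore p G ⊓ N = ⊥) : N ⊓ 𝒞(pPrimeCore p G ⊓ N) ≤ pPrimeCore p G := by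
  have h1 : pCore p N = ⊥ := by
    rw [← Subgroup.map_eq_bot_iff_of_injective _ N.subtype_injective,
      H1.map_pCore_subtype_eq, h0]
  have h2 := map_mono (f := N.subtype)
    (H1.IsPSolvable.centralizer_pPrimeCore_le (H1.IsPSolvable.subgroup hG N) h1)
  rw [map_subtype_cent, H1.map_pPrimeCore_subtype_eq] at h2
  exact h2.trans inf_le_left

theorem eq_one_of_mem_coprime {K : Subgroup G} (hK : (Nat.card K).Coprime p) {x : G} (hx : x ∈ K)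
    {k : ℕ} (h : x ^ p ^ k = 1) : x = 1 := by
  rw [← orderOf_eq_one_iff]
  exact Nat.eq_one_of_dvd_coprimes (hK.pow_right k) (orderOf_dvd_natCard _ hx)
    (orderOf_dvd_of_pow_eq_one h)

theorem arith_level2 {n i n₀ q m : ℕ} (hi : (p ≠ 2 ∧ i = n) ∨ (p = 2 ∧ i + 1 = n)) (h1 : 1 ≤ n₀)
    (h2 : n₀ ≤ n + 1) (hq : q.Prime) (hm : 1 ≤ m) (h : p ^ n₀ - 1 = q ^ m) :
    p ^ n + (p ^ i - 1) < p ^ (n + 1 - n₀) * (p ^ n₀ - 1) := by
  have h3 : 0 < p ^ i := pow_pos hp.out.pos i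
  rw [Nat.mul_sub, ← pow_add, Nat.sub_add_cancel h2, mul_one, pow_succ]
  rcases hi with ⟨h4, rfl⟩ | ⟨rfl, rfl⟩
  · have h5 : p ^ (i + 1 - n₀) ≤ p ^ i := Nat.pow_le_pow_right hp.out.pos (by omega)
    have h6 : 3 ≤ p := by have := hp.out.two_le; omega
    have := Nat.mul_le_mul_left (p ^ i) h6
    omega
  · have h5 : n₀ ≠ 1 := by
      rintro rfl
      have := Nat.one_lt_pow (by omega : m ≠ 0) hq.one_lt
      omega
    have h6 : 2 ^ (i + 1 + 1 - n₀) ≤ 2 ^ i := Nat.pow_le_pow_right two_pos (by omega)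
    rw [pow_succ]
    omega

theorem level2_core (hG : IsPSolvable p G) (h0 : pPrimeCore p G = ⊥) {N : Subgroup G} [N.Normal]
    {x : G} {n i : ℕ} (hx : x ^ p ^ (n + 1) = 1) (hxN : x ^ p ^ n ∈ N)
    (hi : (p ≠ 2 ∧ i = n) ∨ (p = 2 ∧ i + 1 = n))
    (h : ∀ t ∈ pCore p G ⊓ N, Commute (x ^ p ^ n) ((x * t) ^ p ^ i)) : x ^ p ^ n ∈ pCore p G := by
  let F := AlgebraicClosure (ZMod p)
  set T := pCore p G ⊓ N with hT
  have hTp : IsPGroup p T := (H1.isPGroup_pCore p).to_inf_left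
  let ρ := nrmRep F T
  have hker : ρ.ker ⊓ N ≤ pCore p G := by
    refine H1.le_pCore ?_
    rw [← H1.isPiNat_card_singleton_iff]
    intro q hq hd
    by_contra hne
    haveI := Fact.mk hq
    obtain ⟨c, hc⟩ := exists_prime_orderOf_dvd_card' q hd
    have hco : Nat.card (zpowers (c : G)) = q := by rw [Nat.card_zpowers, orderOf_coe, hc]
    have hq2 : q.Coprime p := (Nat.coprime_primes hq hp.out).2 hne
    have h3 := le_cent_of_le_ker (F := F) hTp (hco ▸ hq2) (zpowers_le.2 c.2.1)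
    have h4 := (le_inf (zpowers_le.2 c.2.2) h3).trans
      (rel_cent_pCore hG (by rw [h0, bot_inf_eq]))
    have h5 := H1.IsPGroup.coprime_card ((H1.isPGroup_pCore p).to_le h4) hq2
    rw [hco, Nat.coprime_self] at h5
    exact hq.one_lt.ne' h5
  let f := QuotientGroup.mk' ρ.ker
  have hf := QuotientGroup.mk'_surjective ρ.ker
  let ρ' : G ⧸ ρ.ker →* End F (homSp F T ⊥) := QuotientGroup.lift ρ.ker ρ fun _ hx => hx
  have hρ' : ρ'.ker = ⊥ := by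
    rw [eq_bot_iff]
    intro x hx
    obtain ⟨y, rfl⟩ := QuotientGroup.mk_surjective x
    exact (QuotientGroup.eq_one_iff y).2 hx
  haveI := (inferInstance : N.Normal).map f hf
  have h1 : pCore p (G ⧸ ρ.ker) ⊓ N.map f = ⊥ := by
    have h2 : (pCore p (G ⧸ ρ.ker)).comap f ⊓ N ≤ pCore p G := H1.le_pCore fun ⟨g, hg⟩ => by
      obtain ⟨k, hk⟩ := H1.isPGroup_pCore p ⟨_, hg.1⟩
      have h3 : g ^ p ^ k ∈ ρ.ker := (QuotientGroup.eq_one_iff _).1 (congrArg Subtype.val hk)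
      obtain ⟨j, hj⟩ := H1.isPGroup_pCore p ⟨_, hker ⟨h3, pow_mem hg.2 _⟩⟩
      exact ⟨k + j, Subtype.ext (by rw [coe_pow, pow_add, pow_mul]; exact congrArg Subtype.val hj)⟩
    rw [eq_bot_iff]
    rintro _ ⟨h3, g, hg, rfl⟩
    exact (QuotientGroup.eq_one_iff g).2 (le_ker_nrmRep (⟨h2 ⟨h3, hg⟩, hg⟩ : g ∈ T))
  have hx' : f x ^ p ^ (n + 1) = 1 := by rw [← map_pow, hx, map_one]
  by_cases hc : f x ^ p ^ n ∈ 𝒞(pPrimeCore p (G ⧸ ρ.ker) ⊓ N.map f)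
  · have h2 := rel_cent_pPrimeCore (H1.IsPSolvable.quotient hG _) h1 ⟨⟨_, hxN, map_pow f _ _⟩, hc⟩
    have h3 := eq_one_of_mem_coprime (H1.coprime_card_pPrimeCore p) h2 (k := 1)
      (by rw [← pow_mul, ← pow_add, hx'])
    exact hker ⟨(QuotientGroup.eq_one_iff _).1 ((map_pow f _ _).trans h3), hxN⟩
  have hr : (ρ' (f x) - 1) ^ (p ^ n + (p ^ i - 1)) = 0 := by
    change (ρ x - 1) ^ _ = 0
    rw [add_comm, pow_add, sub_one_pow_char, sub_one_pow_char_pred, ← map_pow]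
    refine LinearMap.ext fun g => homSp_ext fun t ht => ?_
    obtain ⟨h2, h3⟩ := sum_pow_apply (F := F) x ((ρ (x ^ p ^ n) - 1) g) ht (p ^ i)
    rw [End.mul_apply, h3, nrmRep_sub_one_apply _ _ h2]
    have h4 : Commute (x ^ p ^ n) ((x ^ p ^ i)⁻¹ * (x * t) ^ p ^ i) :=
      ((Commute.refl x).pow_pow _ _).inv_right.mul_right (h t ht)
    rw [mul_assoc, ← h4.eq, inv_mul_cancel_left, inv_mul_cancel, homSp_one g.2]
  have hlt : p ^ n + (p ^ i - 1) < p ^ (n + 1) := by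
    have h2 : p ^ i ≤ p ^ n := Nat.pow_le_pow_right hp.out.pos (by omega)
    have h3 := Nat.mul_le_mul_left (p ^ n) hp.out.two_le
    have h4 : 0 < p ^ i := pow_pos hp.out.pos i
    rw [pow_succ]; omega
  obtain ⟨n₀, q, m, a1, a2, a3, a4, a5, -, a7⟩ := hh_qgroup hρ' hx'
    ((H1.coprime_card_pPrimeCore p).coprime_dvd_left (card_dvd_of_le inf_le_left))
    (le_normalizer_of_normal (mem_top _)) hc hr hlt
  exact absurd (arith_level2 hi a1 a2 a3 a4 a5) (not_lt.2 a7)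

theorem level2 (hG : IsPSolvable p G) {N S : Subgroup G} [N.Normal] (hS : Syl(p, S, ⊤))
    {x : G} {n i : ℕ} (hx : x ^ p ^ (n + 1) = 1) (hxN : x ^ p ^ n ∈ N)
    (hi : (p ≠ 2 ∧ i = n) ∨ (p = 2 ∧ i + 1 = n))
    (h : ∀ t ∈ S, t ∈ pPrimePCore p G ⊓ N → Commute (x ^ p ^ n) ((x * t) ^ p ^ i)) :
    x ^ p ^ n ∈ pPrimePCore p G := by
  let f := QuotientGroup.mk' (pPrimeCore p G)
  have hf := QuotientGroup.mk'_surjective (pPrimeCore p G)
  haveI := (inferInstance : N.Normal).map f hf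
  have h1 := level2_core (H1.IsPSolvable.quotient hG _) (H1.pPrimeCore_quotient_pPrimeCore p)
    (N := N.map f) (x := f x) (by rw [← map_pow, hx, map_one]) ⟨_, hxN, map_pow f _ _⟩ hi (by
      rintro _ ⟨h1, g, hg, rfl⟩
      have h2 := (hS.inf_normal (N := pPrimePCore p G ⊓ N) le_top le_normalizer_of_normal).map f
      have h3 := h2.eq_self (H15.IsPGroup.isPi ((H1.isPGroup_pCore p).to_le
        ((map_mono inf_le_left).trans (H1.map_pPrimePCore_mk' p).le)))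
      obtain ⟨t, ht, e⟩ : f g ∈ (S ⊓ (pPrimePCore p G ⊓ N)).map f := h3.ge ⟨g, ⟨h1, hg⟩, rfl⟩
      rw [← e, ← map_mul, ← map_pow, ← map_pow]
      exact (h t ht.1 ht.2).map f)
  rwa [← map_pow] at h1

omit [Finite G] in
theorem comm_closure_le' {S T : Set G} {D : Subgroup G} (hS : ∀ s ∈ S, s ∈ 𝒩(D))
    (hT : ∀ t ∈ T, t ∈ 𝒩(D)) (h : ∀ s ∈ S, ∀ t ∈ T, ⁅s, t⁆ ∈ D) :
    ⁅closure S, closure T⁆ ≤ D := by
  have key : ∀ {U : Set G} {g : G}, (∀ s ∈ U, s ∈ 𝒩(D)) → (∀ s ∈ U, ⁅g, s⁆ ∈ D) →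
      ∀ s ∈ closure U, ⁅g, s⁆ ∈ D := fun {U g} h1 h2 s hs => by
    refine (closure_induction (p := fun s _ => s ∈ 𝒩(D) ∧ ⁅g, s⁆ ∈ D) (fun s hs => ⟨h1 s hs, h2 s hs⟩)
      ⟨one_mem _, by simp⟩ (fun a b _ _ ha hb => ⟨mul_mem ha.1 hb.1, ?_⟩)
      (fun a _ ha => ⟨inv_mem ha.1, ?_⟩) hs).2
    · have e : ⁅g, a * b⁆ = ⁅g, a⁆ * (a * ⁅g, b⁆ * a⁻¹) := by
        simp only [commutatorElement_def]; group
      exact e ▸ mul_mem ha.2 (H1.conj_mem_of_mem_normalizer ha.1 hb.2)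
    · have e : ⁅g, a⁻¹⁆ = a⁻¹ * ⁅g, a⁆⁻¹ * a := by simp only [commutatorElement_def]; group
      exact e ▸ H1.conj_mem_of_mem_normalizer' ha.1 (inv_mem ha.2)
  refine commutator_le.2 fun a ha b hb => key hT (fun t ht => ?_) b hb
  rw [← commutatorElement_inv]
  exact inv_mem (key hS (fun s hs => commutatorElement_inv s t ▸ inv_mem (h s hs t ht)) a ha)

omit [Finite G] in
theorem comm_pow_mem {D : Subgroup G} {a d : G} (hd : d ∈ 𝒩(D)) (h : ⁅a, d⁆ ∈ D) (j : ℕ) :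
    ⁅a, d ^ j⁆ ∈ D := by
  induction j with
  | zero => simp
  | succ j ih =>
    have e : ⁅a, d ^ (j + 1)⁆ = ⁅a, d⁆ * (d * ⁅a, d ^ j⁆ * d⁻¹) := by
      simp only [commutatorElement_def, pow_succ']; group
    exact e ▸ mul_mem h (H1.conj_mem_of_mem_normalizer hd ih)

variable {F W : Type*} [Field F] [AddCommGroup W] [Module F W] {ρ : G →* End F W}
  [IsAlgClosed F] [FiniteDimensional F W] [CharP F p]

/-- all `p`-elements of order `p ^ (n + 1)` are exceptional -/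
def Exc (ρ : G →* End F W) (p n : ℕ) : Prop :=
  ∀ y : G, (∃ k, y ^ p ^ k = 1) → y ^ p ^ (n + 1) = 1 ∧ (ρ y - 1) ^ (p ^ (n + 1) - 1) = 0

theorem Exc.gdm {n : ℕ} (h : Exc ρ p n) {x : G} (hx : ∃ k, x ^ p ^ k = 1) {L : Subgroup G}
    (hL : (Nat.card L).Coprime p) (hxL : x ∈ 𝒩(L)) (hc : L ≤ 𝒞(⁅L, L⁆))
    (hy : x ^ p ^ n ∈ 𝒞(⁅L, L⁆)) {l : G → F} (hl : wt ρ ⁅L, L⁆ l ≠ ⊥)
    (hn : ¬ ⁅L, zpowers (x ^ p ^ n)⁆ ≤ rad ρ L ⁅L, L⁆ l) :
    ∃ t k, t + k = n ∧ x ^ p ^ t ∈ 𝒩(rad ρ L ⁅L, L⁆ l) ∧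
      GdM p L (rad ρ L ⁅L, L⁆ l) (x ^ p ^ t) k := by
  obtain ⟨h1, h2⟩ := h x hx
  rcases exc_wt h1 h2 hL hxL hc hy hl with h3 | ⟨-, t, ht, h3, h4, h5⟩
  · refine absurd (fun k hk => (mem_rad hc).2 ⟨comm_le_left (zpowers_le.2 (pow_mem hxL _)) hk,
      fun a ha => ?_⟩) hn
    exact comm_le_left ((hc.trans (cent_le_stabOn _ l)).trans (stabOn_le_norm_kerOn _))
      (commutator_mem_commutator (h3 hk) ha)
  obtain ⟨k, rfl⟩ := Nat.exists_eq_add_of_le ht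
  have e : (x ^ p ^ t) ^ p ^ k = x ^ p ^ (t + k) := by rw [← pow_mul, ← pow_add]
  exact ⟨t, k, rfl, h3, by rw [← pow_mul, ← pow_add, ← add_assoc, h1], e ▸ hn, e ▸ h5,
    by rw [e, h4]; congr 3; omega⟩

theorem Exc.le_kerOn {n : ℕ} (h : Exc ρ p n) {L : Subgroup G} (hL : (Nat.card L).Coprime p)
    (hc : L ≤ 𝒞(⁅L, L⁆)) {l : G → F} (hl : wt ρ ⁅L, L⁆ l ≠ ⊥) (hR : L ≤ rad ρ L ⁅L, L⁆ l)
    {Y : Set G} (hY : ∀ a ∈ Y, ∃ x, (∃ k, x ^ p ^ k = 1) ∧ x ∈ 𝒩(L) ∧ a = x ^ p ^ n)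
    (hC : closure Y ≤ 𝒞(⁅L, L⁆)) : ⁅L, closure Y⁆ ≤ kerOn ρ (wt ρ ⁅L, L⁆ l) := by
  refine (le_cm_iff.1 ((closure_le _).2 fun a ha => ?_)).2.2
  obtain ⟨x, hx, hxL, rfl⟩ := hY a ha
  have h0 := hC (subset_closure ha)
  refine (mem_cm_iff (pow_mem hxL _) (stabOn_le_norm_kerOn _ (cent_le_stabOn _ l h0))).2 ?_
  exact (exc_wt (h x hx).1 (h x hx).2 hL hxL hc h0 hl).resolve_right fun e =>
    e.1 ((comm_le_left (zpowers_le.2 (pow_mem hxL _))).trans hR)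

omit [Finite G] [IsAlgClosed F] [FiniteDimensional F W] in
theorem der_le_rad' {L : Subgroup G} (hc : L ≤ 𝒞(⁅L, L⁆)) (l : G → F) :
    ⁅L, L⁆ ≤ rad ρ L ⁅L, L⁆ l :=
  der_le_rad (hc.trans (cent_le_stabOn _ l)) (wt_scalar le_rfl l)

theorem exists_wt_not_le (hρ : ρ.ker = ⊥) {L : Subgroup G} (hL : (Nat.card L).Coprime p)
    (hc : L ≤ 𝒞(⁅L, L⁆)) (h0 : L ≠ ⊥) :
    ∃ l : G → F, wt ρ ⁅L, L⁆ l ≠ ⊥ ∧ ¬ L ≤ kerOn ρ (wt ρ ⁅L, L⁆ l) := by
  have hLL : ⁅L, L⁆ ≤ L := commutator_le_of_le le_rfl le_rfl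
  obtain ⟨l, hl⟩ := exists_wt (ρ := ρ) (S := ⁅L, L⁆) (U := ⊤) (X := fix ρ L)
    (natCast_ne_zero_of_dvd (natCast_ne_zero_of_coprime' F hL) (card_dvd_of_le hLL))
    (by rw [stabOn_top]; exact le_top)
    (by rw [le_cent_iff_comm.1 (hLL.trans hc)]; exact bot_le)
    (fun h => h0 (by rw [← le_bot_iff, ← hρ, ← kerOn_top]; exact le_kerOn_iff.2 h))
  rw [top_inf_eq] at hl
  exact ⟨l, fun h => hl (by rw [h]; exact bot_le), fun h => hl (le_kerOn_iff.1 h)⟩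

theorem Exc.commute (hρ : ρ.ker = ⊥) (hG : IsPSolvable p G) (h0 : pCore p G = ⊥) {n : ℕ}
    (h : Exc ρ p n) {S : Subgroup G} (hS : IsPGroup p S) {x y : G} (hx : x ∈ S) (hy : y ∈ S) :
    Commute (x ^ p ^ n) (y ^ p ^ n) := by
  set Y : Set G := {a | ∃ y ∈ S, a = y ^ p ^ n} with hY
  set N := closure Y with hN
  have hpS : ∀ y ∈ S, ∃ k, y ^ p ^ k = 1 := fun y hy =>
    (hS ⟨y, hy⟩).imp fun k hk => congrArg Subtype.val hk
  have hNS : N ≤ S := (closure_le _).2 (by rintro _ ⟨y, hy, rfl⟩; exact pow_mem hy _)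
  have hSN : S ≤ 𝒩(N) := le_norm_of_cj_le fun g hg => by
    rw [hN, MonoidHom.map_closure]
    refine closure_mono ?_
    rintro _ ⟨_, ⟨y, hy, rfl⟩, rfl⟩
    exact ⟨g * y * g⁻¹, mul_mem (mul_mem hg hy) (inv_mem hg), by rw [conj_pow]; rfl⟩
  have hBN : ⁅N, N⁆ ≤ N := commutator_le_of_le le_rfl le_rfl
  suffices hB : ⁅N, N⁆ ≤ 𝒞(pPrimeCore p G) by
    have h1 : ⁅x ^ p ^ n, y ^ p ^ n⁆ ∈ ⁅N, N⁆ :=
      commutator_mem_commutator (subset_closure ⟨x, hx, rfl⟩) (subset_closure ⟨y, hy, rfl⟩)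
    obtain ⟨k, hk⟩ := hpS _ (hNS (hBN h1))
    exact commutatorElement_eq_one_iff_commute.1 (eq_one_of_mem_coprime
      (H1.coprime_card_pPrimeCore p) (H1.IsPSolvable.centralizer_pPrimeCore_le hG h0 (hB h1)) hk)
  by_contra hB
  obtain ⟨L, ⟨hSL, hL⟩, hLK, hmin⟩ :=
    H1.exists_minimal_le (fun L : Subgroup G => S ≤ 𝒩(L) ∧ ¬ ⁅N, N⁆ ≤ 𝒞(L))
      ⟨le_normalizer_of_normal, hB⟩
  have hLc : (Nat.card L).Coprime p :=
    (H1.coprime_card_pPrimeCore p).coprime_dvd_left (card_dvd_of_le hLK)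
  haveI := hS.isNilpotent
  obtain ⟨q, -, -, h1, -, h3, h4, -⟩ := min_action hSL (hBN.trans hNS) (le_norm_comm hSN hSN)
    (H1.IsPGroup.coprime_card hS hLc) (Or.inl inferInstance) hL
    fun M hM h => by_contra fun h' => hM.ne (hmin M ⟨h, h'⟩ hM.le)
  have hNC : N ≤ 𝒞(⁅L, L⁆) := (closure_le _).2 (by
    rintro _ ⟨y, hy, rfl⟩
    exact exc_mem_cent hρ (h y (hpS y hy)).1 (h y (hpS y hy)).2
      (hLc.coprime_dvd_left (card_dvd_of_le h3.le)) (le_norm_comm hSL hSL hy) (h3.le.trans h4))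
  obtain ⟨l, hl, hl'⟩ := exists_wt_not_le hρ hLc h4 h3.ne_bot
  set R := rad ρ L ⁅L, L⁆ l with hR
  have hNR : N ≤ 𝒩(R) := le_norm_rad h4 (hNS.trans hSL) (hNC.trans (cent_le_wstab _ l))
  have hND : N ≤ 𝒩(cm L R) := le_norm_cm (hNS.trans hSL) hNR
  have hT : IsPGroup p (S ⊓ 𝒩(R) : Subgroup G) := hS.to_inf_left
  have key : ∀ x ∈ S, ∀ y ∈ S, ∀ t k t' k' : ℕ, t + k = n → t' + k' = n → x ^ p ^ t ∈ 𝒩(R) →
      y ^ p ^ t' ∈ 𝒩(R) → GdM p L R (x ^ p ^ t) k → GdM p L R (y ^ p ^ t') k' → k' ≤ k →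
      ⁅x ^ p ^ n, y ^ p ^ n⁆ ∈ cm L R := fun x hx y hy t k t' k' e e' a a' b b' hk => by
    have := b.comm_mem hLc (relC_le _ _) (der_le_rad' h4 l) hT (inf_le_left.trans hSL) inf_le_right
      ⟨pow_mem hx _, a⟩ ⟨pow_mem hy _, a'⟩ b' hk
    have h5 := comm_pow_mem (le_norm_cm (zpowers_le.2 (hSL (pow_mem hy _))) (zpowers_le.2 a')
      (mem_zpowers _)) this (p ^ k')
    rwa [← pow_mul, ← pow_mul, ← pow_add, ← pow_add, e, e'] at h5
  have h5 : ⁅N, N⁆ ≤ cm L R := by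
    refine comm_closure_le' (fun s hs => hND (subset_closure hs))
      (fun s hs => hND (subset_closure hs)) ?_
    rintro _ ⟨x, hx, rfl⟩ _ ⟨y, hy, rfl⟩
    have hx' : x ^ p ^ n ∈ N := subset_closure ⟨x, hx, rfl⟩
    have hy' : y ^ p ^ n ∈ N := subset_closure ⟨y, hy, rfl⟩
    by_cases h6 : x ^ p ^ n ∈ cm L R
    · exact comm_le_left hND (commutator_mem_commutator h6 hy')
    by_cases h7 : y ^ p ^ n ∈ cm L R
    · exact comm_le_right hND (commutator_mem_commutator hx' h7)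
    rw [mem_cm_iff (hSL (hNS hx')) (hNR hx')] at h6
    rw [mem_cm_iff (hSL (hNS hy')) (hNR hy')] at h7
    obtain ⟨t, k, e, a, b⟩ := h.gdm (hpS x hx) hLc (hSL hx) h4 (hNC hx') hl h6
    obtain ⟨t', k', e', a', b'⟩ := h.gdm (hpS y hy) hLc (hSL hy) h4 (hNC hy') hl h7
    rcases le_total k' k with hk | hk
    · exact key x hx y hy t k t' k' e e' a a' b b' hk
    · rw [← commutatorElement_inv]
      exact inv_mem (key y hy x hx t' k' t k e' e a' a b' b hk)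
  refine hl' (h1.ge.trans ((commutator_mono le_rfl hBN).trans (h.le_kerOn hLc h4 hl
    (h1.ge.trans (le_cm_iff.1 h5).2.2) ?_ hNC)))
  rintro _ ⟨y, hy, rfl⟩
  exact ⟨y, hpS y hy, hSL hy, rfl⟩

theorem Exc.mem_odd (hp2 : p ≠ 2) (hρ : ρ.ker = ⊥) (hG : IsPSolvable p G) (h0 : pCore p G = ⊥)
    {n : ℕ} (h : Exc ρ p n) {x : G} (hx : ∃ k, x ^ p ^ k = 1) : x ^ p ^ n ∈ pPrimePCore p G := by
  obtain ⟨k, hk⟩ := hx
  obtain ⟨S, hS⟩ := (isPGroup_zpowers_of_pow hk).exists_le_sylow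
  have hxS := hS (mem_zpowers x)
  exact level2 hG (N := ⊤) (syl_top_sylow S) (h x ⟨k, hk⟩).1 trivial (Or.inl ⟨hp2, rfl⟩)
    fun t ht _ => h.commute hρ hG h0 S.isPGroup' hxS (mul_mem hxS ht)

omit [IsAlgClosed F] in
theorem PExp.exc {n : ℕ} (h : PExp p (n + 1) G) (F : Type*) [Field F] [CharP F p] :
    Exc (phiRep F (pCore p G)) p n := fun y hy => by
  obtain ⟨x, hx, rfl⟩ := exists_p_lift (QuotientGroup.mk'_surjective _) hy
  exact ⟨by rw [← map_pow, h x hx, map_one], h.sub_one_pow (H1.isPGroup_pCore p) hx⟩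

theorem pExp_quotient_of_mem {n : ℕ} {N : Subgroup G} [N.Normal]
    (h : ∀ x : G, (∃ k, x ^ p ^ k = 1) → x ^ p ^ n ∈ N) : PExp p n (G ⧸ N) := fun y hy => by
  obtain ⟨x, hx, rfl⟩ := exists_p_lift (QuotientGroup.mk'_surjective _) hy
  rw [← map_pow]
  exact (QuotientGroup.eq_one_iff _).2 (h x hx)

theorem pLengthLE_two_mul (hp2 : p ≠ 2) (e : ℕ) : ∀ (G : Type u) [Group G] [Finite G],
    IsPSolvable p G → PExp p e G → PLengthLE p (2 * e) G := by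
  induction e with
  | zero => intro G _ _ _ h; exact H1.pLengthLE_zero_iff.2 h.coprime
  | succ e ih =>
    intro G _ _ hG h
    rw [← H1.pLengthLE_quotient_pPrimeCore_iff]
    have hG' := H1.IsPSolvable.quotient hG (pPrimeCore p G)
    have hG'' := H1.IsPSolvable.quotient hG' (pCore p _)
    refine H1.pLengthLE_succ_of_quotient_isPGroup _ (H1.isPGroup_pCore p)
      (H1.pLengthLE_succ_iff.2 (ih _ (H1.IsPSolvable.quotient hG'' _) (pExp_quotient_of_mem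
        fun x hx => ?_)))
    exact ((h.of_surjective (QuotientGroup.mk'_surjective _)).exc
      (AlgebraicClosure (ZMod p))).mem_odd hp2
      (ker_phiRep_pCore hG' (H1.pPrimeCore_quotient_pPrimeCore p)) hG''
      (H1.pCore_quotient_pCore p) hx

end H9
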