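import Cfsg.Agent.H9.HH7

/-! Gross's bound on the `2`-length of a solvable group. -/

set_option autoImplicit false

namespace H9
open Module H2 Subgroup H15 Cfsg
open scoped commutatorElement

universe u

variable {G : Type*} [Group G] [Finite G] {p : ℕ} [hp : Fact p.Prime]

omit [Finite G] hp in
theorem le_norm_closure {A : Subgroup G} {Y : Set G} (h : ∀ g ∈ A, ∀ y ∈ Y, g * y * g⁻¹ ∈ Y) :
    A ≤ 𝒩(closure Y) := le_norm_of_cj_le fun g hg => by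
  rw [MonoidHom.map_closure]
  refine closure_mono ?_
  rintro _ ⟨y, hy, rfl⟩
  exact h g hg y hy

omit [Finite G] hp in
theorem exists_pow_congr {A D : Subgroup G} (h : A ≤ 𝒩(D)) {g : G} (hg : g ∈ A ⊔ D) :
    ∃ a ∈ A, ∀ j : ℕ, (a ^ j)⁻¹ * g ^ j ∈ D := by
  obtain ⟨a, ha, d, hd, rfl⟩ := (H1.mem_sup_of_le_normalizer_right h).1 hg
  refine ⟨a, ha, fun j => ?_⟩
  induction j with
  | zero => simp
  | succ j ih =>
    have e : (a ^ (j + 1))⁻¹ * (a * d) ^ (j + 1) = a⁻¹ * ((a ^ j)⁻¹ * (a * d) ^ j) * a * d := by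
      rw [pow_succ, pow_succ]; group
    rw [e]
    exact mul_mem (H1.conj_mem_of_mem_normalizer' (h ha) ih) hd

/-- the subgroup generated by the `p'`-elements -/
def resP (p : ℕ) (N : Subgroup G) : Subgroup G := closure {g | g ∈ N ∧ (orderOf g).Coprime p}

/-- the subgroup generated by the `p`-elements -/
def resQ (p : ℕ) (N : Subgroup G) : Subgroup G := closure {g | g ∈ N ∧ ∃ k, g ^ p ^ k = 1}

omit [Finite G] hp in
theorem resP_le (N : Subgroup G) : resP p N ≤ N := (closure_le _).2 fun _ h => h.1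

omit [Finite G] hp in
theorem resQ_le (N : Subgroup G) : resQ p N ≤ N := (closure_le _).2 fun _ h => h.1

omit [Finite G] hp in
theorem le_norm_resP {A N : Subgroup G} (h : A ≤ 𝒩(N)) : A ≤ 𝒩(resP p N) :=
  le_norm_closure fun g hg y hy => ⟨H1.conj_mem_of_mem_normalizer (h hg) hy.1, by
    have : orderOf (g * y * g⁻¹) = orderOf y := (MulAut.conj g).orderOf_eq y
    rw [this]; exact hy.2⟩

omit [Finite G] hp in
theorem le_norm_resQ {A N : Subgroup G} (h : A ≤ 𝒩(N)) : A ≤ 𝒩(resQ p N) :=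
  le_norm_closure fun g hg y hy => ⟨H1.conj_mem_of_mem_normalizer (h hg) hy.1,
    hy.2.imp fun k hk => by rw [conj_pow, hk]; simp⟩

theorem le_pPrimePCore_of_res {N : Subgroup G} (hN : N.IsSubnormal)
    (h : resQ p (resP p N) = ⊥) : N ≤ pPrimePCore p G := by
  have h1 : (Nat.card (resP p N)).Coprime p := by
    refine ((Nat.Prime.coprime_iff_not_dvd hp.out).2 fun hd => ?_).symm
    obtain ⟨c, hc⟩ := exists_prime_orderOf_dvd_card' p hd
    have : (c : G) ∈ resQ p (resP p N) := subset_closure ⟨c.2, 1, by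
      rw [pow_one, ← orderOf_dvd_iff_pow_eq_one, orderOf_coe, hc]⟩
    rw [h, mem_bot] at this
    rw [← orderOf_coe, this, orderOf_one] at hc
    exact hp.out.one_lt.ne hc
  have h2 := H1.subnormal_le_pPrimeCore (IsSubnormal.trans (resP_le N)
    (normal_subgroupOf (le_norm_resP (le_norm_self N))).isSubnormal hN) h1
  refine map_le_iff_le_comap.1 (H1.subnormal_le_pCore hN.quotient ?_)
  rintro ⟨_, g, hg, rfl⟩
  obtain ⟨k, m, hm, e⟩ := Nat.exists_eq_pow_mul_and_not_dvd (orderOf_pos g).ne' p hp.out.ne_one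
  refine ⟨k, Subtype.ext ((map_pow _ _ _).symm.trans ((QuotientGroup.eq_one_iff _).2
    (h2 (subset_closure ⟨pow_mem hg _, ?_⟩))))⟩
  refine ((Nat.Prime.coprime_iff_not_dvd hp.out).2 hm).symm.coprime_dvd_left
    (orderOf_dvd_of_pow_eq_one ?_)
  rw [← pow_mul, ← e, pow_orderOf_eq_one]

theorem res_le_of {N O₁ O₂ D : Subgroup G} (h1 : O₁ ≤ O₂) (h2 : O₂ ≤ 𝒩(D)) (hN : N ≤ O₂ ⊔ D)
    (h3 : ∀ g ∈ O₂, ∃ k, g ^ p ^ k ∈ O₁) (h4 : ∀ g ∈ O₁, ∃ m : ℕ, m.Coprime p ∧ g ^ m ∈ D) :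
    resQ p (resP p N) ≤ D := by
  have h5 : resP p N ≤ O₁ ⊔ D := (closure_le _).2 fun g hg => by
    obtain ⟨a, ha, h⟩ := exists_pow_congr h2 (hN hg.1)
    obtain ⟨k, hk⟩ := h3 a ha
    refine mem_of_pow_mem_of_coprime (m := orderOf g) (n := p ^ k)
      (by rw [pow_orderOf_eq_one]; exact one_mem _) ?_ (hg.2.pow_right k)
    simpa using mul_mem (mem_sup_left hk) (mem_sup_right (S := O₁) (h (p ^ k)))
  refine (closure_le _).2 fun g ⟨hg, k, hk⟩ => ?_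
  obtain ⟨a, ha, h⟩ := exists_pow_congr (h1.trans h2) (h5 hg)
  obtain ⟨m, hm, hm'⟩ := h4 a ha
  refine mem_of_pow_mem_of_coprime (m := m) (n := p ^ k) ?_ (hk ▸ one_mem _) (hm.pow_right k)
  simpa using mul_mem hm' (h m)

theorem exists_min_res {K X M : Subgroup G} (hs : Group.IsSolvable K)
    (hK : (Nat.card K).Coprime p) (hXK : X ≤ 𝒩(K)) (hMX : M ≤ X) (hXM : X ≤ 𝒩(M))
    (hn : ¬ resQ p M ≤ 𝒞(K)) : ∃ L ≤ K, X ≤ 𝒩(L) ∧ ⁅L, resQ p M⁆ = L ∧ L ≠ ⊥ ∧ L ≤ 𝒞(⁅L, L⁆) ∧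
      ∃ q : ℕ, q.Prime ∧ IsPGroup q L := by
  obtain ⟨L, ⟨hXL, hL⟩, hLK, hmin⟩ := H1.exists_minimal_le
    (fun L : Subgroup G => X ≤ 𝒩(L) ∧ ¬ resQ p M ≤ 𝒞(L)) ⟨hXK, hn⟩
  have hm : ∀ Y < L, X ≤ 𝒩(Y) → resQ p M ≤ 𝒞(Y) := fun Y hY h =>
    by_contra fun hc => hY.ne (hmin Y ⟨h, hc⟩ hY.le)
  have hBL : resQ p M ≤ 𝒩(L) := ((resQ_le M).trans hMX).trans hXL
  have hLc := hK.coprime_dvd_left (card_dvd_of_le hLK)
  have h1 : ⁅L, resQ p M⁆ = L := by
    by_contra hne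
    have h2 := hm _ (lt_of_le_of_ne (comm_le_left hBL) hne) (le_norm_comm hXL (le_norm_resQ hXM))
    refine hL ((closure_le _).2 fun g ⟨hg, k, hk⟩ => ?_)
    have h3 : zpowers g ≤ resQ p M := zpowers_le.2 (subset_closure ⟨hg, k, hk⟩)
    exact H1.le_centralizer_of_commutator_commutator_eq_bot (h3.trans hBL)
      (H1.IsPGroup.coprime_card (isPGroup_zpowers_of_pow hk) hLc) (le_bot_iff.1
        ((commutator_mono (commutator_mono le_rfl h3) h3).trans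
          (le_cent_iff_comm.1 (cent_comm h2)).le)) (mem_zpowers g)
  have h0 : L ≠ ⊥ := by rintro rfl; exact hL (by rw [cent_bot]; exact le_top)
  haveI := H1.isSolvable_of_le hs hLK
  have h2 : ⁅L, L⁆ < L := by
    haveI := (nontrivial_iff_ne_bot L).2 h0
    conv_lhs => rw [← L.range_subtype, MonoidHom.range_eq_map, ← map_commutator]
    conv_rhs => rw [← L.range_subtype, MonoidHom.range_eq_map]
    exact map_subtype_lt_map_subtype.2 (Group.IsSolvable.commutator_lt_top_of_nontrivial L)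
  have h3 := hm _ h2 (le_norm_comm hXL hXL)
  have h4 : L ≤ 𝒞(⁅L, L⁆) := by
    rw [le_cent_iff_comm]
    conv_lhs => enter [1]; rw [← h1]
    refine commutator_commutator_eq_bot_of_rotate ?_ ?_
    · rw [le_cent_iff_comm.1 h3, commutator_bot_left]
    · exact le_bot_iff.1 ((commutator_mono (comm_le_left (le_norm_comm (le_norm_self L)
        (le_norm_self L))) le_rfl).trans (le_cent_iff_comm.1 (cent_comm h3)).le)
  refine ⟨L, hLK, hXL, h1, h0, h4, ?_⟩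
  have h5 : Group.IsNilpotent L := nres_eq_bot_iff.1 (le_bot_iff.1 ((nres_le_lcs L 2).trans
    (le_cent_iff_comm.1 (cent_comm h4)).le))
  by_contra h6
  push Not at h6
  refine hL (cent_comm (le_of_piCoreOf_le h5 fun q hq _ => cent_comm (hm _ (lt_of_le_of_ne
    (piCoreOf_le _ _) fun e => ?_) (le_norm_piCoreOf _ hXL))))
  haveI := Fact.mk hq
  exact h6 q hq (e ▸ (isPi_piCoreOf {q} L).isPGroup)

theorem mersenne_eq {a b q e e' : ℕ} (hq : q.Prime) (h : (2 ^ (a + 1) - 1) ^ 2 = q ^ e)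
    (h' : (2 ^ (b + 1) - 1) ^ 2 = q ^ e') (h1 : (2 ^ (a + 1) - 1) ^ 2 ≠ 1)
    (h1' : (2 ^ (b + 1) - 1) ^ 2 ≠ 1) : a = b ∧ 1 ≤ a := by
  have key : ∀ {a e : ℕ}, (2 ^ (a + 1) - 1) ^ 2 = q ^ e → (2 ^ (a + 1) - 1) ^ 2 ≠ 1 →
      q + 1 = 2 ^ (a + 1) := fun {a e} h h1 => by
    obtain ⟨d, hd, h2⟩ := exists_pow_of_sq hq h h1
    have h3 : 2 ^ (a + 1) = q ^ d + 1 := by
      rw [← h2, Nat.sub_add_cancel (Nat.one_le_two_pow)]
    rcases Cfsg.Agent.S3784.result 2 q _ d Nat.prime_two hq (by omega) hd h3 with h4 | h4 | h4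
    · exact h4.2.2.2
    · have := Nat.one_lt_two_pow (by omega : d ≠ 0)
      omega
    · have : Even (2 ^ (a + 1)) := (Nat.even_pow' (by omega)).2 even_two
      rw [h4.1] at this
      exact absurd this (by decide)
  have h2 := Nat.pow_right_injective le_rfl ((key h h1).symm.trans (key h' h1'))
  refine ⟨by omega, by_contra fun h3 => h1 ?_⟩
  obtain rfl : a = 0 := by omega
  rfl

variable {F W : Type*} [Field F] [AddCommGroup W] [Module F W] {ρ : G →* End F W}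
  [IsAlgClosed F] [FiniteDimensional F W] [CharP F 2]

omit hp in
theorem Exc.two_comm {n : ℕ} (h : Exc ρ 2 (n + 1)) {L S : Subgroup G}
    (hL : (Nat.card L).Coprime 2) {q : ℕ} (hq : q.Prime) (hLq : IsPGroup q L)
    (hc : L ≤ 𝒞(⁅L, L⁆)) {l : G → F} (hl : wt ρ ⁅L, L⁆ l ≠ ⊥) (hS : IsPGroup 2 S)
    (hSL : S ≤ 𝒩(L)) {x y : G} (hx : x ∈ S) (hy : y ∈ S) (hx1 : x ^ 2 ^ (n + 1) ∈ 𝒞(⁅L, L⁆))
    (hy1 : y ^ 2 ^ (n + 1) ∈ 𝒞(⁅L, L⁆)) (hx2 : x ^ 2 ^ (n + 1) ∉ cm L (rad ρ L ⁅L, L⁆ l))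
    (hy2 : y ^ 2 ^ (n + 1) ∉ cm L (rad ρ L ⁅L, L⁆ l)) :
    ⁅x ^ 2 ^ (n + 1), y ^ 2 ^ n⁆ ∈ cm L (rad ρ L ⁅L, L⁆ l) := by
  have hpS : ∀ y ∈ S, ∃ k, y ^ 2 ^ k = 1 := fun y hy =>
    (hS ⟨y, hy⟩).imp fun k hk => congrArg Subtype.val hk
  set R := rad ρ L ⁅L, L⁆ l with hR
  have hN : ∀ y ∈ S, y ∈ 𝒞(⁅L, L⁆) → y ∈ 𝒩(R) := fun y hy h =>
    le_norm_rad hc (zpowers_le.2 (hSL hy)) (zpowers_le.2 (cent_le_wstab _ l h)) (mem_zpowers y)
  rw [mem_cm_iff (hSL (pow_mem hx _)) (hN _ (pow_mem hx _) hx1)] at hx2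
  rw [mem_cm_iff (hSL (pow_mem hy _)) (hN _ (pow_mem hy _) hy1)] at hy2
  obtain ⟨t, k, e, a, b⟩ := h.gdm (hpS x hx) hL (hSL hx) hc hx1 hl hx2
  obtain ⟨t', k', e', a', b'⟩ := h.gdm (hpS y hy) hL (hSL hy) hc hy1 hl hy2
  haveI := Fact.mk hq
  have key : ∀ {c : G} {k : ℕ}, c ∈ S → GdM 2 L R c k →
      (∃ e, (2 ^ (k + 1) - 1) ^ 2 = q ^ e) ∧ (2 ^ (k + 1) - 1) ^ 2 ≠ 1 := fun hc b => by
    rw [← b.card]
    refine ⟨relIndex_eq_pow (hLq.to_le (sup_le (comm_le_left (zpowers_le.2 (hSL (pow_mem hc _))))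
      (relC_le _ _))) R, fun e => b.ne (le_sup_left.trans (relIndex_eq_one.1 e))⟩
  obtain ⟨⟨_, c1⟩, c2⟩ := key (pow_mem hx _) b
  obtain ⟨⟨_, c3⟩, c4⟩ := key (pow_mem hy _) b'
  obtain ⟨rfl, hk⟩ := mersenne_eq hq c1 c3 c2 c4
  have h1 := b.comm_mem hL (relC_le _ _) (der_le_rad' hc l) (T := S ⊓ 𝒩(R)) hS.to_inf_left
    (inf_le_left.trans hSL) inf_le_right ⟨pow_mem hx _, a⟩ ⟨pow_mem hy _, a'⟩ b' le_rfl
  have h2 := comm_pow_mem (le_norm_cm (zpowers_le.2 (hSL (pow_mem hy _))) (zpowers_le.2 a')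
    (mem_zpowers _)) h1 (2 ^ (k - 1))
  rwa [← pow_mul, ← pow_mul, ← pow_add, ← pow_add, e, show t' + (k - 1) = n by omega] at h2

omit hp in
theorem Exc.mem_two (hρ : ρ.ker = ⊥) (hG : Group.IsSolvable G) (h0 : pCore 2 G = ⊥) {n : ℕ}
    (h : Exc ρ 2 (n + 1)) {x : G} (hx : ∃ k, x ^ 2 ^ k = 1) :
    x ^ 2 ^ (n + 1) ∈ pPrimePCore 2 G := by
  by_contra hxO
  set a := x ^ 2 ^ (n + 1) with ha
  obtain ⟨N, ⟨hNs, haN, hxN⟩, -, hmin⟩ := H1.exists_minimal_le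
    (fun N : Subgroup G => N.IsSubnormal ∧ a ∈ N ∧ x ∈ 𝒩(N)) (N := ⊤)
    ⟨IsSubnormal.top, trivial, by rw [norm_top]; trivial⟩
  set X := N ⊔ zpowers x with hX
  have hXN : X ≤ 𝒩(N) := sup_le (le_norm_self N) (zpowers_le.2 hxN)
  have hxX : x ∈ X := mem_sup_right (mem_zpowers x)
  have hxa : ∀ g ∈ zpowers x, g * a * g⁻¹ = a := fun g hg => by
    obtain ⟨j, rfl⟩ := mem_zpowers_iff.1 hg
    rw [((Commute.refl x).zpow_left j).pow_right _, mul_inv_cancel_right]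
  have hconj : ∀ g ∈ X, ∃ m ∈ N, g * a * g⁻¹ = m * a * m⁻¹ := fun g hg => by
    obtain ⟨m, hm, c, hc, rfl⟩ := (H1.mem_sup_of_le_normalizer_left (zpowers_le.2 hxN)).1 hg
    exact ⟨m, hm, by
      rw [show m * c * a * (m * c)⁻¹ = m * (c * a * c⁻¹) * m⁻¹ by group, hxa c hc]⟩
  set Y : Set G := {b | ∃ g ∈ N, b = g * a * g⁻¹} with hY
  have hYN : closure Y = N := by
    have h1 : closure Y ≤ N := (closure_le _).2 (by
      rintro _ ⟨g, hg, rfl⟩; exact mul_mem (mul_mem hg haN) (inv_mem hg))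
    have h2 : X ≤ 𝒩(closure Y) := le_norm_closure (by
      rintro g hg _ ⟨m, hm, rfl⟩
      obtain ⟨m', hm', e⟩ := hconj (g * m) (mul_mem hg (mem_sup_left hm))
      exact ⟨m', hm', by rw [← e]; group⟩)
    exact hmin _ ⟨IsSubnormal.trans h1 (normal_subgroupOf (le_sup_left.trans h2)).isSubnormal hNs,
      subset_closure ⟨1, one_mem _, by simp⟩, h2 hxX⟩ h1
  have hG2 := H1.isPSolvable_of_isSolvable 2 hG
  have hBN : resQ 2 (resP 2 N) ≤ N := (resQ_le _).trans (resP_le _)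
  obtain ⟨L, hLK, hXL, hLB, hL0, hc, q, hq, hLq⟩ := exists_min_res (p := 2) (K := pPrimeCore 2 G)
    (X := X) (M := resP 2 N) inferInstance (H1.coprime_card_pPrimeCore 2) le_normalizer_of_normal
    ((resP_le N).trans le_sup_left) (le_norm_resP hXN) fun e =>
      hxO (le_pPrimePCore_of_res hNs (eq_bot_iff.2 ((closure_le _).2 fun g ⟨hg, k, hk⟩ =>
        eq_one_of_mem_coprime (H1.coprime_card_pPrimeCore 2)
          (H1.IsPSolvable.centralizer_pPrimeCore_le hG2 h0 (e (subset_closure ⟨hg, k, hk⟩))) hk))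
        haN)
  have hLc := (H1.coprime_card_pPrimeCore 2).coprime_dvd_left (card_dvd_of_le hLK)
  have hLL : ⁅L, L⁆ ≤ L := commutator_le_of_le le_rfl le_rfl
  have hY' : ∀ b ∈ Y, ∃ y, (∃ k, y ^ 2 ^ k = 1) ∧ y ∈ 𝒩(L) ∧ b = y ^ 2 ^ (n + 1) := by
    rintro _ ⟨g, hg, rfl⟩
    exact ⟨g * x * g⁻¹, hx.imp fun k hk => by rw [conj_pow, hk]; simp,
      hXL (mul_mem (mul_mem (mem_sup_left hg) hxX) (inv_mem (mem_sup_left hg))), by rw [conj_pow]⟩
  have hNC : N ≤ 𝒞(⁅L, L⁆) := hYN ▸ (closure_le _).2 fun b hb => by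
    obtain ⟨y, h1, h2, rfl⟩ := hY' b hb
    exact exc_mem_cent hρ (h y h1).1 (h y h1).2 (hLc.coprime_dvd_left (card_dvd_of_le hLL))
      (le_norm_comm (zpowers_le.2 h2) (zpowers_le.2 h2) (mem_zpowers y)) (hLL.trans hc)
  obtain ⟨l, hl, hl'⟩ := exists_wt_not_le hρ hLc hc hL0
  set R := rad ρ L ⁅L, L⁆ l with hR
  have hNR : N ≤ 𝒩(R) := le_norm_rad hc (le_sup_left.trans hXL) (hNC.trans (cent_le_wstab _ l))
  have hND : N ≤ 𝒩(cm L R) := le_norm_cm (le_sup_left.trans hXL) hNR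
  have hBD : ¬ resQ 2 (resP 2 N) ≤ cm L R := fun e => hl' (hLB.ge.trans ((commutator_mono le_rfl
    (hBN.trans hYN.ge)).trans (h.le_kerOn hLc hc hl (hLB.ge.trans (le_cm_iff.1 e).2.2) hY'
      (hYN ▸ hNC))))
  -- the core of `cm L R` in `X`
  set D := ((N ⊓ cm L R).subgroupOf X).normalCore with hD
  let f := QuotientGroup.mk' D
  have hf := QuotientGroup.mk'_surjective D
  haveI hNX : (N.subgroupOf X).Normal := normal_subgroupOf hXN
  haveI := hNX.map f hf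
  set O₂ := ((pPrimePCore 2 (X ⧸ D)).comap f).map X.subtype ⊓ N with hO₂
  set O₁ := ((pPrimeCore 2 (X ⧸ D)).comap f).map X.subtype ⊓ N with hO₁
  have hXO : X ≤ 𝒩(O₂) := by
    refine le_norm_inf ?_ hXN
    have := H1.le_normalizer_map (le_normalizer_of_normal :
      ⊤ ≤ 𝒩((pPrimePCore 2 (X ⧸ D)).comap f)) X.subtype
    rwa [map_top_subtype] at this
  have hE : ∀ g ∈ X, g * a * g⁻¹ ∉ O₂ ⊔ cm L R := fun g hg e => by
    have h1 : N ≤ 𝒩(O₂ ⊔ cm L R) := le_norm_sup (le_sup_left.trans hXO) hND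
    obtain ⟨m, hm, e'⟩ := hconj g hg
    have h2 : a ∈ O₂ ⊔ cm L R := by
      have := H1.conj_mem_of_mem_normalizer' (h1 hm) (e' ▸ e)
      simpa [mul_assoc] using this
    refine hBD (res_le_of (O₁ := O₁) (O₂ := O₂) (inf_le_inf_right _ (map_mono (comap_mono
      (H1.pPrimeCore_le_pPrimePCore 2)))) (inf_le_right.trans hND) (hYN ▸ (closure_le _).2 ?_) ?_ ?_)
    · rintro _ ⟨m, hm, rfl⟩
      exact H1.conj_mem_of_mem_normalizer (h1 hm) h2
    · rintro _ ⟨⟨g, hg, rfl⟩, hgN⟩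
      obtain ⟨k, hk⟩ := H1.isPGroup_pCore 2 ⟨_, hg⟩
      refine ⟨k, ⟨g ^ 2 ^ k, ?_, rfl⟩, pow_mem hgN _⟩
      rw [SetLike.mem_coe, mem_comap, map_pow]
      exact (QuotientGroup.eq_one_iff _).1 (congrArg Subtype.val hk)
    · rintro _ ⟨⟨g, hg, rfl⟩, -⟩
      refine ⟨_, H1.coprime_card_pPrimeCore (G := X ⧸ D) 2, ?_⟩
      have h3 : f g ^ Nat.card (pPrimeCore 2 (X ⧸ D)) = 1 :=
        congrArg Subtype.val (pow_card_eq_one' (x := (⟨f g, hg⟩ : pPrimeCore 2 (X ⧸ D))))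
      exact (normalCore_le _ ((QuotientGroup.eq_one_iff (g ^ _)).1 ((map_pow f _ _).trans h3))).2
  obtain ⟨k, hk⟩ := hx
  obtain ⟨S, hS⟩ := (isPGroup_zpowers_of_pow (x := (⟨x, hxX⟩ : X)) (Subtype.ext hk)).exists_le_sylow
  have hxS := hS (mem_zpowers _)
  have hS' := (syl_top_sylow S).map f
  rw [map_top_of_surjective f hf] at hS'
  have key := level2 (H1.IsPSolvable.quotient (H1.IsPSolvable.subgroup hG2 X) D)
    (N := (N.subgroupOf X).map f) hS' (x := f ⟨x, hxX⟩) (n := n + 1) (i := n)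
    (by rw [← map_pow, ← map_one f]; congr 1; exact Subtype.ext (h x ⟨k, hk⟩).1)
    ⟨⟨x, hxX⟩ ^ 2 ^ (n + 1), haN, map_pow f _ _⟩ (Or.inr ⟨rfl, rfl⟩) (by
      rintro _ ⟨u, huS, rfl⟩ ⟨hu1, u', hu2, hu3⟩
      have hd : u'⁻¹ * u ∈ D := QuotientGroup.eq.1 hu3
      rw [← map_mul, ← map_pow, ← map_pow, ← commutatorElement_eq_one_iff_commute,
        ← map_commutatorElement]
      refine (QuotientGroup.eq_one_iff _).2 fun g => ?_
      have hy : ⟨x, hxX⟩ * u ∈ (S : Subgroup X) := mul_mem hxS huS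
      have hS2 : IsPGroup 2 (cj(g, (S : Subgroup X)).map X.subtype) := (S.isPGroup'.map _).map _
      have huO : (u : G) ∈ O₂ := ⟨⟨u, hu1, rfl⟩, by
        simpa using mul_mem (mem_subgroupOf.1 hu2) (normalCore_le _ hd).1⟩
      have hyO : a⁻¹ * (x * u) ^ 2 ^ (n + 1) ∈ O₂ := by
        generalize 2 ^ (n + 1) = j at ha
        rw [ha]
        clear ha
        induction j with
        | zero => simp
        | succ j ih =>
          have e : (x ^ (j + 1))⁻¹ * (x * u) ^ (j + 1) =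
              x⁻¹ * ((x ^ j)⁻¹ * (x * u) ^ j) * x * u := by rw [pow_succ, pow_succ]; group
          exact e ▸ mul_mem (H1.conj_mem_of_mem_normalizer' (hXO hxX) ih) huO
      have hC : ∀ y ∈ cj(g, (S : Subgroup X)).map X.subtype, y ^ 2 ^ (n + 1) ∈ 𝒞(⁅L, L⁆) :=
        fun y hy => by
          have h1 : ∃ k, y ^ 2 ^ k = 1 := (hS2 ⟨y, hy⟩).imp fun k hk => congrArg Subtype.val hk
          exact exc_mem_cent hρ (h y h1).1 (h y h1).2
            (hLc.coprime_dvd_left (card_dvd_of_le hLL))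
            (le_norm_comm hXL hXL (map_subtype_le _ hy)) (hLL.trans hc)
      have m1 : g * x * (g : G)⁻¹ ∈ cj(g, (S : Subgroup X)).map X.subtype :=
        ⟨_, ⟨_, hxS, rfl⟩, rfl⟩
      have m2 : g * (x * u) * (g : G)⁻¹ ∈ cj(g, (S : Subgroup X)).map X.subtype :=
        ⟨_, ⟨_, hy, rfl⟩, rfl⟩
      have := h.two_comm hLc hq hLq hc hl hS2 ((map_subtype_le _).trans hXL) m1 m2 (hC _ m1)
        (hC _ m2) (fun e => hE g g.2 (mem_sup_right (by rwa [conj_pow] at e))) (fun e => hE g g.2 (by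
          rw [conj_pow] at e
          have h1 := H1.conj_mem_of_mem_normalizer (hXO g.2) hyO
          have h2 := mul_mem (mem_sup_right (S := O₂) e) (inv_mem (mem_sup_left h1))
          convert h2 using 1
          group))
      rw [conj_pow, conj_pow, ← conjugate_commutatorElement] at this
      exact ⟨H1.conj_mem_of_mem_normalizer (hXN g.2) (comm_le_left hXN
        (commutator_mem_commutator haN (pow_mem (mul_mem hxX u.2) _))), this⟩)
  refine hE 1 (one_mem _) (mem_sup_left ?_)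
  rw [one_mul, inv_one, mul_one]
  exact ⟨⟨⟨x, hxX⟩ ^ 2 ^ (n + 1), (map_pow f _ _).symm ▸ key, rfl⟩, haN⟩

omit hp in
theorem pLengthLE_gross (e : ℕ) : ∀ (G : Type u) [Group G] [Finite G],
    Group.IsSolvable G → PExp 2 (e + 1) G → PLengthLE 2 (2 * e + 1) G := by
  induction e with
  | zero =>
    intro G _ _ hG h
    rw [← H1.pLengthLE_quotient_pPrimeCore_iff]
    refine H1.pLengthLE_succ_of_quotient_isPGroup _ (H1.isPGroup_pCore 2)
      (H1.pLengthLE_zero_iff.2 (PExp.coprime fun y hy => ?_))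
    have h1 := (((h.of_surjective (QuotientGroup.mk'_surjective _)).exc (ZMod 2)) y hy).2
    have h2 := ker_phiRep_pCore (F := ZMod 2) (H1.IsPSolvable.quotient
      (H1.isPSolvable_of_isSolvable 2 hG) _) (H1.pPrimeCore_quotient_pPrimeCore 2)
    rw [pow_zero, pow_one, ← mem_bot, ← h2]
    exact sub_eq_zero.1 (by simpa using h1)
  | succ e ih =>
    intro G _ _ hG h
    rw [← H1.pLengthLE_quotient_pPrimeCore_iff]
    refine H1.pLengthLE_succ_of_quotient_isPGroup _ (H1.isPGroup_pCore 2)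
      (H1.pLengthLE_succ_iff.2 (ih _ inferInstance (pExp_quotient_of_mem fun x hx => ?_)))
    exact ((h.of_surjective (QuotientGroup.mk'_surjective _)).exc
      (AlgebraicClosure (ZMod 2))).mem_two
      (ker_phiRep_pCore (H1.IsPSolvable.quotient (H1.isPSolvable_of_isSolvable 2 hG) _)
        (H1.pPrimeCore_quotient_pPrimeCore 2)) inferInstance (H1.pCore_quotient_pCore 2) hx

end H9
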