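import Cfsg.Agent.H9.Inv4b

set_option autoImplicit false
set_option maxRecDepth 100000
set_option maxHeartbeats 400000

namespace H9.Inv4
open Cfsg Cfsg.Spor H7.J4 H29 H29.J4m H29.U Subgroup

section
variable {G : Type} [Group G] {M : Model G}

theorem R_cm (s : Std M) {L : List ℕ} {l : List G} (h : List.Forall₂ M.R L l) (m : ℕ) :
    M.R (cm L m) (em l m) := by
  induction h generalizing m with
  | nil => have := M.R_one; rw [s.2.1] at this; exact this
  | @cons a b L l e _ ih =>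
    have e1 : cm (a :: L) m = if m % 2 = 1 then kmul a (cm L (m / 2)) else cm L (m / 2) := force_eq _ _
    rw [e1, em]
    split_ifs
    · have := M.R_mul e (ih (m / 2)); rw [s.1] at this; exact this
    · rw [one_mul]; exact ih _

theorem chk_spec (s : Std M) {gs : List G} (hE : List.Forall₂ M.R eL gs) {c c' : ℕ} {g : G} (r : M.R c g)
    (r' : M.R c' g⁻¹) {L : List ℕ} {l : List G} (h : List.Forall₂ M.R L l) {A : List ℕ}
    (k : chk c c' L A = true) : List.Forall₂ (fun a n => g * a * g⁻¹ = em gs n) l A := by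
  induction h generalizing A with
  | nil =>
    cases A with
    | nil => exact .nil
    | cons => simp [chk] at k
  | cons e _ ih =>
    cases A with
    | nil => simp [chk] at k
    | cons n A =>
      simp only [chk, List.length_cons, List.zip_cons_cons, List.all_cons, Bool.and_eq_true, beq_iff_eq,
        force_eq, Nat.add_right_cancel_iff] at k
      refine .cons ?_ (ih ?_)
      · have := M.R_mul (M.R_mul r e) r'
        rw [s.1, Nat.eq_of_beq_eq_true k.2.1] at this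
        exact M.unique this (R_cm s hE n)
      · simp only [chk, Bool.and_eq_true, beq_iff_eq, force_eq]
        exact ⟨k.1, k.2.2⟩

theorem cert_spec (s : Std M) {x y t e : G} (h : List.Forall₂ M.R L1 [x, y, y⁻¹, t, e]) {gs : List G}
    (hE : List.Forall₂ M.R eL gs) {c : ℕ} {k : G} (rk : M.R c k) {r b n : ℕ} {g g' : Ex}
    (q : cert c r b n g g' = true)
    (hb : ([x, y, y⁻¹, t, e, em gs r * k].getD b 1) * [x, y, y⁻¹, t, e, em gs r * k].getD b 1 = 1) : IsConj (em gs r * k) ([x, y, y⁻¹, t, e, em gs r * k].getD b 1) := by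
  simp only [cert, force_eq, Bool.and_eq_true] at q
  have ra := M.R_mul (R_cm s hE r) rk
  rw [s.1] at ra
  have h6 : List.Forall₂ M.R [cx, cy, cY, ct, ce, kmul (cm eL r) c] [x, y, y⁻¹, t, e, em gs r * k] :=
    .cons (R_getD h 0) (.cons (R_getD h 1) (.cons (R_getD h 2) (.cons (R_getD h 3) (.cons (R_getD h 4)
      (.cons ra .nil)))))
  exact odd n (s.eq h6 (.m (.v 5) (.v 5)) (.v 9) q.1) hb (s.eq h6 (.m g g') (.v 9) q.2.1)
    (s.eq h6 (.p (.m (.v 5) (.m (.m g (.v b)) g')) (2 * n + 1)) (.v 9) q.2.2)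

theorem invG (s : Std M) {x y t e : G} (h : List.Forall₂ M.R L1 [x, y, y⁻¹, t, e]) :
    ∃ E : Subgroup G, e ∈ E ∧ (∀ v ∈ E, v * v = 1) ∧ (∀ v ∈ E, x * v * x⁻¹ ∈ E) ∧ (∀ v ∈ E, y * v * y⁻¹ ∈ E) ∧
      (∀ v ∈ E, v ≠ 1 → IsConj v e ∨ IsConj v x) ∧
      (∀ v ∈ E, v * x * (v * x) = 1 → IsConj (v * x) e ∨ IsConj (v * x) x) ∧
      ∀ v ∈ E, v * xk.g [x, y, y⁻¹, t, e] ^ 7 * (v * xk.g [x, y, y⁻¹, t, e] ^ 7) = 1 →
        IsConj (v * xk.g [x, y, y⁻¹, t, e] ^ 7) e ∨ IsConj (v * xk.g [x, y, y⁻¹, t, e] ^ 7) x := by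
  have rx : M.R cx x := R_getD h 0
  have ry : M.R cy y := R_getD h 1
  have rY : M.R cY y⁻¹ := R_getD h 2
  have rt : M.R ct t := R_getD h 3
  have re : M.R ce e := R_getD h 4
  have h4 : List.Forall₂ M.R [cx, cy, cY, ce] [x, y, y⁻¹, e] := .cons rx (.cons ry (.cons rY (.cons re .nil)))
  have hE : List.Forall₂ M.R eL (eK.map (Ex.g [x, y, y⁻¹, e])) := by
    rw [cL, List.forall₂_map_left_iff, List.forall₂_map_right_iff, List.forall₂_same, ← s.1, ← s.2.1]
    exact fun a _ => Ex.R h4 a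
  generalize eK.map (Ex.g [x, y, y⁻¹, e]) = gs at hE
  have hl : gs.length = 11 := hE.length_eq.symm
  have mem : ∀ a ∈ gs, ∃ c ∈ eL, M.R c a := fun a ha => by
    obtain ⟨i, hi, rfl⟩ := List.getElem_of_mem ha
    exact ⟨_, List.getElem_mem (hE.length_eq ▸ hi), hE.get (hE.length_eq ▸ hi) hi⟩
  have ea : EA M eL := EA.of (K := ⊤) (fun c hc => by
      obtain ⟨i, hi, rfl⟩ := List.getElem_of_mem hc
      exact ⟨_, trivial, hE.get hi (hE.length_eq ▸ hi)⟩)
    (by rw [s.1, s.2.1, s.2.2]; decide +kernel) (by rw [s.1, s.2.2]; decide +kernel)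
  have ok : Ok gs := fun a ha => by
    obtain ⟨c, hc, r⟩ := mem a ha
    obtain ⟨α, h1, h2, h3⟩ := ea c hc
    rw [M.unique r h1]
    exact ⟨h2, fun b hb => let ⟨d, hd, r'⟩ := mem b hb; h3 d hd b r'⟩
  have x2 : x * x = 1 := s.eq h (.m (.v 0) (.v 0)) (.v 9) (by decide +kernel)
  have e2 : e * e = 1 := s.eq h (.m (.v 4) (.v 4)) (.v 9) (by decide +kernel)
  have x1 : x ≠ 1 := s.ne h (.v 0) (.v 9) (by decide +kernel)
  have e1 : e ≠ 1 := s.ne h (.v 4) (.v 9) (by decide +kernel)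
  have rX : M.R cx x⁻¹ := (inv_eq_of_mul_eq_one_right x2).symm ▸ rx
  have fx := chk_spec s hE rx rX hE chx
  have fy := chk_spec s hE ry rY hE chy
  have rk : M.R ck (xk.g [x, y, y⁻¹, t, e] ^ 7) := by
    have := Ex.R h (.p xk 7); rw [s.1, s.2.1] at this; exact this
  have kk : xk.g [x, y, y⁻¹, t, e] ^ 7 * xk.g [x, y, y⁻¹, t, e] ^ 7 = 1 :=
    s.eq h (.m (.p xk 7) (.p xk 7)) (.v 9) (by decide +kernel)
  generalize xk.g [x, y, y⁻¹, t, e] ^ 7 = k at rk kk
  have fk := chk_spec s hE rk ((inv_eq_of_mul_eq_one_right kk).symm ▸ rk) hE ((force_eq _ _).symm.trans chk')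
  have ee : em gs 1 = e := M.unique (R_cm s hE 1) ((show cm eL 1 = ce by decide +kernel) ▸ re)
  have rd : M.R cd (em gs 440) := Nat.eq_of_beq_eq_true cd0 ▸ R_cm s hE 440
  have h3 : List.Forall₂ M.R [cx, cy, cY, ct, ce, cd] [x, y, y⁻¹, t, e, em gs 440] :=
    .cons rx (.cons ry (.cons rY (.cons rt (.cons re (.cons rd .nil)))))
  have dx : IsConj (em gs 440) x := isConj_iff.2 ⟨xw1.g [x, y, y⁻¹, t, e, em gs 440], mul_inv_eq_of_eq_mul
    (s.eq h3 (.m xw1 (.v 5)) (.m (.v 0) xw1) (by decide +kernel))⟩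
  have st : ∀ (g : G) (A : List ℕ), List.Forall₂ (fun a n => g * a * g⁻¹ = em gs n) gs A → ∀ m,
      (IsConj (em gs m) e ∨ IsConj (em gs m) x) → IsConj (em gs (ap A m)) e ∨ IsConj (em gs (ap A m)) x :=
    fun g A f m q => q.imp (isConj_iff.2 ⟨g, em_conj ok f m⟩).symm.trans
      (isConj_iff.2 ⟨g, em_conj ok f m⟩).symm.trans
  have orb : ∀ m < 2048, m ≠ 0 → IsConj (em gs m) e ∨ IsConj (em gs m) x := fun m hm m0 => by
    refine run_spec (P := fun m => IsConj (em gs m) e ∨ IsConj (em gs m) x) (st x Ax fx) (st y Ay fy) tr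
      (2 ^ 1 ||| 2 ^ 440) (fun n hn => ?_) m ?_
    · rw [Nat.testBit_or, Bool.or_eq_true, Nat.testBit_two_pow, Nat.testBit_two_pow, decide_eq_true_eq,
        decide_eq_true_eq] at hn
      rcases hn with rfl | rfl
      exacts [.inl (ee ▸ IsConj.refl _), .inr dx]
    · have := List.all_eq_true.1 runok m (List.mem_range.2 hm)
      rw [Bool.or_eq_true, beq_iff_eq] at this
      exact this.resolve_left m0
  have nz : ∀ m < 2048, em gs m = 1 → m = 0 := fun m hm q => by_contra fun m0 => by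
    rcases orb m hm m0 with c | c <;> rw [q, isConj_one_right] at c
    exacts [e1 c, x1 c]
  have cl : ∀ v ∈ closure {a | a ∈ gs}, ∃ m < 2048, v = em gs m := fun v hv => by
    have := em_cl ok hv; rwa [hl] at this
  refine ⟨closure {a | a ∈ gs}, ee ▸ em_in gs 1, fun v hv => ?_, fun v hv => ?_, fun v hv => ?_,
    fun v hv v1 => ?_, fun v hv q => ?_, fun v hv q => ?_⟩ <;> obtain ⟨m, hm, rfl⟩ := cl v hv
  · rw [← em_xor ok, Nat.xor_self, em_zero]
  · rw [em_conj ok fx]; exact em_in _ _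
  · rw [em_conj ok fy]; exact em_in _ _
  · exact orb m hm fun m0 => v1 (by rw [m0, em_zero])
  · obtain ⟨r, hr, c⟩ := kcase ok x2 fx 2048 nz _ _ k2 hm q
    simp only [List.mem_cons, List.not_mem_nil, or_false] at hr
    rcases hr with rfl | rfl
    exacts [.inr (c.symm.trans (cert_spec s h hE rx ce8 x2)), .inl (c.symm.trans (cert_spec s h hE rx ce9 e2))]
  · obtain ⟨r, hr, c⟩ := kcase ok kk fk 2048 nz _ _ k1 hm q
    simp only [List.mem_cons, List.not_mem_nil, or_false] at hr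
    rcases hr with rfl | rfl | rfl | rfl | rfl | rfl | rfl | rfl
    exacts [.inl (c.symm.trans (cert_spec s h hE rk ce0 e2)), .inr (c.symm.trans (cert_spec s h hE rk ce1 x2)),
      .inr (c.symm.trans (cert_spec s h hE rk ce2 x2)), .inr (c.symm.trans (cert_spec s h hE rk ce3 x2)),
      .inr (c.symm.trans (cert_spec s h hE rk ce4 x2)), .inr (c.symm.trans (cert_spec s h hE rk ce5 x2)),
      .inr (c.symm.trans (cert_spec s h hE rk ce6 x2)), .inr (c.symm.trans (cert_spec s h hE rk ce7 x2))]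

end

open H27 H28 H7.JD in
theorem inv (c : J4) (hc : c ∈ closure {jx, jy, je}) (h2 : orderOf c = 2) : IsConj c je ∨ IsConj c jx := by
  haveI : Fact (Nat.Prime 2) := ⟨Nat.prime_two⟩
  haveI : Fact (Nat.Prime 7) := ⟨by norm_num⟩
  have : Finite J4 := H7.JD.j_main.2.1.1 |> fun _ =>
    Nat.finite_of_card_ne_zero (by rw [H7.JD.j_main.2.1.2]; norm_num)
  obtain ⟨M, s, h⟩ := j4_model'
  obtain ⟨E, eE, sq1, nx', ny', c0, c1, c2⟩ := invG s h
  have hr : ∀ r ∈ J4.extra, PresentedGroup.mk (coxRelators J4.edges ∪ {r | r ∈ J4.extra}) r = 1 :=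
    fun r hr => PresentedGroup.one_of_mem (Or.inr hr)
  simp only [J4.extra, List.forall_mem_cons, _root_.map_mul, _root_.map_pow, _root_.map_inv] at hr
  obtain ⟨r1, r2, r3, r4, r5, r6, r7, -⟩ := hr
  obtain ⟨π, hπ⟩ := hom (a := jx) (b := jy) (rels7 r1 r2 r3 r4 r5 r6 r7)
  have hx : π z2b = jx := by
    have := (hπ [0]).trans (ev_single _ _)
    rwa [ev_single, mN_eq] at this
  have hy : π (ev (mN.map mm) [1]) = jy := (hπ [1]).trans (ev_single _ _)
  have xN : jx ∈ normalizer (E : Set J4) := mem_normalizer_fintype nx'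
  have yN : jy ∈ normalizer (E : Set J4) := mem_normalizer_fintype ny'
  have hN : ∀ k, π k ∈ normalizer (E : Set J4) := fun k => by
    refine cl_le (H := (normalizer (E : Set J4)).comap π) (gs := mN.map mm) (fun g hg => ?_)
      (mN_top ▸ mem_top k)
    obtain ⟨i, hi, rfl⟩ := List.getElem_of_mem hg
    rw [mem_comap, ← List.getD_eq_getElem _ 1, ← ev_single, hπ, ev_single]
    rcases i with _ | _ | _ | i
    exacts [xN, yN, inv_mem yN, one_mem _]
  have cj : ∀ k, ∀ v ∈ E, π k * v * (π k)⁻¹ ∈ E := fun k v hv => (mem_normalizer_iff.1 (hN k) v).1 hv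
  have := simple_MM
  have ke : ∀ m, π m ∈ E → m = 1 := fun m hm => by
    have hn : (E.comap π).Normal := ⟨fun a ha k => by
      rw [mem_comap, _root_.map_mul, _root_.map_mul, _root_.map_inv]; exact cj k _ ha⟩
    rcases hn.eq_bot_or_eq_top with e | e
    · exact mem_bot.1 (e ▸ mem_comap.2 hm)
    · have : jy ∈ E := hy ▸ mem_comap.1 (e ▸ mem_top _)
      exact absurd (sq1 _ this) (s.ne h (.m (.v 1) (.v 1)) (.v 9) (by decide +kernel))
  obtain ⟨v, hv, m, rfl⟩ : ∃ v ∈ E, ∃ m, c = v * π m := by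
    clear h2
    induction hc using closure_induction with
    | mem a ha =>
      rcases ha with rfl | rfl | rfl
      exacts [⟨1, one_mem _, z2b, by rw [hx, one_mul]⟩, ⟨1, one_mem _, _, by rw [hy, one_mul]⟩,
        ⟨_, eE, 1, by rw [_root_.map_one, mul_one]⟩]
    | one => exact ⟨1, one_mem _, 1, by rw [_root_.map_one, mul_one]⟩
    | mul a b _ _ ia ib =>
      obtain ⟨v, hv, m, rfl⟩ := ia
      obtain ⟨w, hw, n, rfl⟩ := ib
      exact ⟨_, mul_mem hv (cj m w hw), m * n, by rw [_root_.map_mul]; group⟩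
    | inv a _ ia =>
      obtain ⟨v, hv, m, rfl⟩ := ia
      exact ⟨_, cj m⁻¹ _ (inv_mem hv), m⁻¹, by rw [_root_.map_inv]; group⟩
  have cc : v * π m * (v * π m) = 1 := by rw [← sq, ← h2, pow_orderOf_eq_one]
  have mm2 : m * m = 1 := ke _ (by
    have : π (m * m) = (v * (π m * v * (π m)⁻¹))⁻¹ := by
      rw [eq_inv_iff_mul_eq_one, _root_.map_mul]
      calc _ = π m * π m * (v * π m * (v * π m)) * (π m * π m)⁻¹ := by group
        _ = 1 := by rw [cc]; group
    rw [this]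
    exact inv_mem (mul_mem hv (cj m v hv)))
  by_cases m1 : m = 1
  · subst m1
    rw [_root_.map_one, mul_one] at h2 ⊢
    exact c0 v hv fun e => by rw [e, orderOf_one] at h2; omega
  have red : ∀ (k a : MM), m = k * a * k⁻¹ → (∀ w ∈ E, w * π a * (w * π a) = 1 →
      IsConj (w * π a) je ∨ IsConj (w * π a) jx) → IsConj (v * π m) je ∨ IsConj (v * π m) jx := fun k a e q => by
    have e1 : π k * ((π k⁻¹ * v * (π k⁻¹)⁻¹) * π a) * (π k)⁻¹ = v * π m := by
      rw [e, _root_.map_mul, _root_.map_mul, _root_.map_inv]; group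
    have c := (isConj_iff.2 ⟨_, e1⟩).symm
    refine (q _ (cj k⁻¹ v hv) ?_).imp c.trans c.trans
    rw [← e1, conj_mul, conj_eq_one_iff] at cc
    exact cc
  have hw : π (ev (mN.map mm) wk) = xk.g [jx, jy, jy⁻¹, jt, je] := by
    rw [hπ]
    simp only [wk, xk, ev_cons, ev_nil, Ex.g, List.getD_cons_zero, List.getD_cons_succ, mul_one, mul_assoc]
  generalize ev (mN.map mm) wk = w at hw
  have inj : ∀ a, π a = 1 → a = 1 := fun a e => ke a (e ▸ one_mem _)
  have w14 : w ^ 14 = 1 := inj _ (by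
    rw [_root_.map_pow, hw]; exact s.eq h (.p xk 14) (.v 9) (by decide +kernel))
  have w7 : w ^ 7 ≠ 1 := fun e => s.ne h (.p xk 7) (.v 9) (by decide +kernel) (by
    change xk.g _ ^ 7 = 1
    rw [← hw, ← _root_.map_pow, e, _root_.map_one])
  have w2 : w ^ 2 ≠ 1 := fun e => s.ne h (.p xk 2) (.v 9) (by decide +kernel) (by
    change xk.g _ ^ 2 = 1
    rw [← hw, ← _root_.map_pow, e, _root_.map_one])
  rcases cls2 (orderOf_eq_prime (p := 2) (by rw [sq, mm2]) m1) with ⟨k, e⟩ | ⟨k, e⟩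
  · rcases cls2 (orderOf_eq_prime (p := 2) (x := w ^ 7) (by rw [← pow_mul, w14]) w7) with ⟨l, f⟩ | ⟨l, f⟩
    · refine red (k * l⁻¹) (w ^ 7) (by rw [e, f]; group) ?_
      rw [_root_.map_pow, hw]
      exact c2
    · exfalso
      have o : orderOf (l⁻¹ * w ^ 2 * l⁻¹⁻¹) = 7 := by
        rw [← MulAut.conj_apply, MulEquiv.orderOf_eq]
        exact orderOf_eq_prime (by rw [← pow_mul, w14]) w2
      have m : l⁻¹ * w ^ 2 * l⁻¹⁻¹ ∈ centralizer {z2b} := mem_centralizer_singleton_iff.2 (by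
        rw [show z2b = l⁻¹ * w ^ 7 * l⁻¹⁻¹ by rw [f]; group, conj_mul, conj_mul, ← pow_add, ← pow_add])
      have := Subgroup.orderOf_dvd_natCard _ m
      rw [o, card_cent_z2b] at this
      omega
  · exact red k z2b e (hx ▸ c1)

end H9.Inv4
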