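import Mathlib

set_option autoImplicit false
open Subgroup

namespace H9.Inv4
variable {G : Type*} [Group G]

def em : List G → ℕ → G
  | [], _ => 1
  | a :: l, m => (if m % 2 = 1 then a else 1) * em l (m / 2)

def ap : List ℕ → ℕ → ℕ
  | [], _ => 0
  | a :: l, m => (if m % 2 = 1 then a else 0) ^^^ ap l (m / 2)

def Ok (l : List G) : Prop := ∀ a ∈ l, a * a = 1 ∧ ∀ b ∈ l, Commute a b

theorem em_zero (l : List G) : em l 0 = 1 := by induction l <;> simp [em, *]

theorem em_comm {l : List G} {a : G} (h : ∀ b ∈ l, Commute a b) (m : ℕ) : Commute a (em l m) := by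
  induction l generalizing m with
  | nil => exact Commute.one_right _
  | cons b l ih =>
    refine Commute.mul_right ?_ (ih (fun c hc => h c (List.mem_cons_of_mem _ hc)) _)
    split_ifs
    exacts [h b List.mem_cons_self, Commute.one_right _]

theorem em_xor {l : List G} (h : Ok l) (m n : ℕ) : em l (m ^^^ n) = em l m * em l n := by
  induction l generalizing m n with
  | nil => simp [em]
  | cons a l ih =>
    have h1 := h a List.mem_cons_self
    have c := em_comm (fun b hb => h1.2 b (List.mem_cons_of_mem _ hb)) (m / 2)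
    have t : Ok l := fun b hb => ⟨(h b (List.mem_cons_of_mem _ hb)).1,
      fun c hc => (h b (List.mem_cons_of_mem _ hb)).2 c (List.mem_cons_of_mem _ hc)⟩
    simp only [em, Nat.xor_div_two, ih t, Nat.xor_mod_two_eq_one]
    by_cases p : m % 2 = 1 <;> by_cases q : n % 2 = 1 <;> simp only [p, q, not_true, not_false_iff,
      iff_self, iff_true, true_iff, if_true, if_false, one_mul, mul_assoc]
    · rw [← mul_assoc (em l _) a, ← c.eq, ← mul_assoc, ← mul_assoc, h1.1, one_mul]
    · rw [← mul_assoc (em l _) a, ← c.eq, mul_assoc]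

theorem em_conj {L l : List G} (h : Ok L) {g : G} {A : List ℕ}
    (f : List.Forall₂ (fun a n => g * a * g⁻¹ = em L n) l A) (m : ℕ) :
    g * em l m * g⁻¹ = em L (ap A m) := by
  induction f generalizing m with
  | nil => simp [em, ap, em_zero]
  | cons e _ ih =>
    rw [em, ap, em_xor h, ← ih, ← conj_mul]
    split_ifs
    · rw [e]
    · simp [em_zero]

theorem em_mem {l : List G} {a : G} (h : a ∈ l) : ∃ m < 2 ^ l.length, a = em l m := by
  induction l with
  | nil => simp at h
  | cons b l ih =>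
    rcases List.mem_cons.1 h with rfl | h
    · exact ⟨1, by simp, by simp [em, em_zero]⟩
    · obtain ⟨m, hm, e⟩ := ih h
      exact ⟨2 * m, by rw [List.length_cons, pow_succ]; omega, by simp [em, ← e]⟩

theorem em_cl {l : List G} (h : Ok l) {v : G} (hv : v ∈ closure {a | a ∈ l}) :
    ∃ m < 2 ^ l.length, v = em l m := by
  induction hv using closure_induction with
  | mem a ha => exact em_mem ha
  | one => exact ⟨0, by positivity, (em_zero l).symm⟩
  | mul a b _ _ ia ib =>
    obtain ⟨m, hm, rfl⟩ := ia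
    obtain ⟨n, hn, rfl⟩ := ib
    exact ⟨_, Nat.xor_lt_two_pow hm hn, (em_xor h m n).symm⟩
  | inv a _ ia =>
    obtain ⟨m, hm, rfl⟩ := ia
    exact ⟨m, hm, inv_eq_of_mul_eq_one_right (by rw [← em_xor h, Nat.xor_self, em_zero])⟩

theorem em_in (l : List G) (m : ℕ) : em l m ∈ closure {a | a ∈ l} := by
  induction l generalizing m with
  | nil => exact one_mem _
  | cons a l ih =>
    refine mul_mem ?_ (closure_mono (fun b hb => List.mem_cons_of_mem _ hb) (ih _))
    split_ifs
    exacts [subset_closure List.mem_cons_self, one_mem _]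

theorem odd {a b g g' : G} (n : ℕ) (ha : a * a = 1) (hb : b * b = 1) (hg : g * g' = 1)
    (h : (a * (g * b * g')) ^ (2 * n + 1) = 1) : IsConj a b := by
  rw [eq_inv_of_mul_eq_one_right hg] at h
  refine IsConj.trans ?_ (isConj_iff.2 ⟨g, rfl⟩).symm
  have hc : g * b * g⁻¹ * (g * b * g⁻¹) = 1 := by rw [conj_mul, hb]; simp
  generalize g * b * g⁻¹ = c at h hc
  have s : SemiconjBy a (a * c) (a * c)⁻¹ := by
    rw [SemiconjBy, mul_inv_rev, inv_eq_of_mul_eq_one_right ha, inv_eq_of_mul_eq_one_right hc,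
      ← mul_assoc, ha, mul_assoc, ha, one_mul, mul_one]
  refine isConj_iff.2 ⟨((a * c) ^ (n + 1))⁻¹, ?_⟩
  rw [← inv_pow, ← (s.pow_right (n + 1)).eq, inv_pow, inv_inv, mul_assoc, ← pow_add,
    show n + 1 + (n + 1) = 2 * n + 1 + 1 by ring, pow_succ, h, one_mul, ← mul_assoc, ha, one_mul]

def run (A B : List ℕ) : List ℕ → ℕ → ℕ
  | [], S => S
  | t :: l, S => if S.testBit (t / 2) then
      run A B l (S ||| 2 ^ (if t % 2 = 0 then ap A (t / 2) else ap B (t / 2))) else 0

theorem run_spec {A B : List ℕ} {P : ℕ → Prop} (hA : ∀ m, P m → P (ap A m)) (hB : ∀ m, P m → P (ap B m))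
    (l : List ℕ) (S : ℕ) (hS : ∀ m, S.testBit m → P m) : ∀ m, (run A B l S).testBit m → P m := by
  induction l generalizing S with
  | nil => exact hS
  | cons t l ih =>
    rw [run]
    split_ifs with h k
    all_goals first
      | (intro m hm; simp at hm; done)
      | refine ih _ fun m hm => ?_
    all_goals
      rw [Nat.testBit_or, Bool.or_eq_true, Nat.testBit_two_pow, decide_eq_true_eq] at hm
      rcases hm with hm | rfl
      · exact hS m hm
      · first | exact hA _ (hS _ h) | exact hB _ (hS _ h)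

theorem kcase {L : List G} (h : Ok L) {k : G} (k2 : k * k = 1) {A : List ℕ}
    (f : List.Forall₂ (fun a n => k * a * k⁻¹ = em L n) L A) (N : ℕ) (nz : ∀ m < N, em L m = 1 → m = 0)
    (rs us : List ℕ) (ck : ((List.range N).all fun m => decide (m ^^^ ap A m < N) &&
      (!(m ^^^ ap A m == 0) || rs.any fun r => us.any fun u => m == u ^^^ r ^^^ ap A u)) = true)
    {m : ℕ} (hm : m < N) (e : em L m * k * (em L m * k) = 1) : ∃ r ∈ rs, IsConj (em L r * k) (em L m * k) := by
  have ki : k⁻¹ = k := inv_eq_of_mul_eq_one_right k2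
  have c := List.all_eq_true.1 ck m (List.mem_range.2 hm)
  simp only [Bool.and_eq_true, decide_eq_true_eq, Bool.or_eq_true, Bool.not_eq_true', beq_eq_false_iff_ne,
    List.any_eq_true, beq_iff_eq] at c
  obtain ⟨r, hr, u, -, rfl⟩ := c.2.resolve_left fun z => z (nz _ c.1 (by
    rw [em_xor h, ← em_conj h f, ki, ← e]; simp only [mul_assoc]))
  refine ⟨r, hr, isConj_iff.2 ⟨em L u, ?_⟩⟩
  rw [em_xor h, em_xor h, ← em_conj h f, inv_eq_of_mul_eq_one_right
    (show em L u * em L u = 1 by rw [← em_xor h, Nat.xor_self, em_zero])]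
  simp only [mul_assoc, inv_mul_cancel, mul_one]

end H9.Inv4
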