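import Cfsg.Agent.H29.J3
import Cfsg.Agent.H27.Acts
import Cfsg.Agent.H9.Fz1

set_option autoImplicit false
set_option maxRecDepth 100000
set_option Elab.async false

/-! Orbits of the triple cover of the third Janko group on the vectors of its 9-space, by bit masks. -/

namespace H9.Jl
open H27 Cfsg Cfsg.Spor Matrix
open H29 (Four eQ eQ2_zero eQ2_one eQ2_two j3Cs exists_four)
noncomputable section

def tf (t v : ℕ) : ℕ := ite' (v.testBit (t % 32)) (v ^^^ 2 ^ (t / 32)) v
def tfl (L : List ℕ) (v : ℕ) : ℕ := List.rec v (fun t _ ih => force ih (tf t)) L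
def tm (t M : ℕ) : ℕ :=
  force (Nat.div t 32) fun i => force (idp i 18) fun B => force (Nat.mod t 32) fun j =>
    Nat.xor M (Nat.land (idp j 18) (Nat.xor M (Nat.lor (Nat.shiftRight (Nat.land M B) (Nat.shiftLeft 1 i))
      (Nat.land (Nat.shiftLeft M (Nat.shiftLeft 1 i)) B))))
def pull (L : List ℕ) : ℕ → ℕ := List.rec (fun M => M) (fun t _ ih M => force (tm t M) ih) L

theorem tf_eq (t v : ℕ) : tf t v = if v.testBit (t % 32) then v ^^^ 2 ^ (t / 32) else v := by
  rw [tf, ite'_eq]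
theorem tfl_cons (t : ℕ) (L : List ℕ) (v : ℕ) : tfl (t :: L) v = tf t (tfl L v) := force_eq _ _
theorem pull_cons (t : ℕ) (L : List ℕ) (M : ℕ) : pull (t :: L) M = pull L (tm t M) := force_eq _ _

theorem tf_xor (t a b : ℕ) : tf t (a ^^^ b) = tf t a ^^^ tf t b := by
  simp only [tf_eq, Nat.testBit_xor]
  cases a.testBit (t % 32) <;> cases b.testBit (t % 32) <;> simp only [Bool.xor_self, Bool.false_xor, Bool.true_xor,
    Bool.not_false, Bool.false_eq_true, if_true, if_false]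
  · rw [Nat.xor_assoc]
  · rw [Nat.xor_assoc, Nat.xor_assoc, Nat.xor_comm b]
  · apply Nat.eq_of_testBit_eq; intro i; simp only [Nat.testBit_xor]
    cases a.testBit i <;> cases b.testBit i <;> cases (2 ^ (t / 32)).testBit i <;> rfl
theorem tfl_xor (L : List ℕ) (a b : ℕ) : tfl L (a ^^^ b) = tfl L a ^^^ tfl L b := by
  induction L with
  | nil => rfl
  | cons t L ih => rw [tfl_cons, tfl_cons, tfl_cons, ih, tf_xor]
theorem tfl_zero (L : List ℕ) : tfl L 0 = 0 := by
  have := tfl_xor L 0 0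
  rwa [Nat.xor_self, Nat.xor_self] at this
theorem tf_lt {t v : ℕ} (ht : t < 576) (hv : v < 2 ^ 18) : tf t v < 2 ^ 18 := by
  rw [tf_eq]; split_ifs
  · exact Nat.xor_lt_two_pow hv (Nat.pow_lt_pow_right (by norm_num) (by omega))
  · exact hv
theorem tfl_lt {L : List ℕ} (hL : ∀ t ∈ L, t < 576) {v : ℕ} (hv : v < 2 ^ 18) : tfl L v < 2 ^ 18 := by
  induction L with
  | nil => exact hv
  | cons t L ih =>
    rw [tfl_cons]
    exact tf_lt (hL t List.mem_cons_self) (ih fun s hs => hL s (List.mem_cons_of_mem _ hs))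

theorem sw_spec {i v : ℕ} (hi : i < 18) (hv : v < 2 ^ 18) (M : ℕ) :
    (((M &&& idp i 18) >>> 2 ^ i) ||| ((M <<< 2 ^ i) &&& idp i 18)).testBit v = M.testBit (v ^^^ 2 ^ i) := by
  have hx : v ^^^ 2 ^ i < 2 ^ 18 := Nat.xor_lt_two_pow hv (Nat.pow_lt_pow_right (by norm_num) hi)
  rw [Nat.testBit_or, Nat.testBit_shiftRight, Nat.testBit_and, Nat.testBit_and, Nat.testBit_shiftLeft,
    testBit_idp, testBit_idp, Nat.testBit_two_pow_add_eq]
  cases e : v.testBit i
  · have := xor_two_pow_of_not e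
    rw [this] at hx ⊢
    rw [add_comm] at hx
    rw [decide_eq_true hx]
    simp [add_comm]
  · have e' : (v ^^^ 2 ^ i).testBit i = false := by rw [Nat.testBit_xor, e, Nat.testBit_two_pow_self]; rfl
    have := xor_two_pow_of_not e'
    rw [Nat.xor_assoc, Nat.xor_self, Nat.xor_zero] at this
    have h1 : v - 2 ^ i = v ^^^ 2 ^ i := by omega
    have h2 : v ≥ 2 ^ i := by omega
    rw [decide_eq_true hv]
    simp [h1, h2]

theorem tm_spec {t v : ℕ} (ht : t < 576) (hv : v < 2 ^ 18) (M : ℕ) : (tm t M).testBit v = M.testBit (tf t v) := by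
  have e : tm t M = M ^^^ (idp (t % 32) 18 &&& (M ^^^ (((M &&& idp (t / 32) 18) >>> (1 <<< (t / 32))) |||
      ((M <<< (1 <<< (t / 32))) &&& idp (t / 32) 18)))) := by
    unfold tm; simp only [force_eq]; rfl
  rw [e, Nat.one_shiftLeft, Nat.testBit_xor, Nat.testBit_and, Nat.testBit_xor, sw_spec (by omega) hv, testBit_idp,
    tf_eq]
  cases v.testBit (t % 32)
  · simp
  · rw [decide_eq_true hv]; simp
theorem pull_spec {L : List ℕ} (hL : ∀ t ∈ L, t < 576) {v : ℕ} (hv : v < 2 ^ 18) (M : ℕ) :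
    (pull L M).testBit v = M.testBit (tfl L v) := by
  induction L generalizing M with
  | nil => rfl
  | cons t L ih =>
    have h' : ∀ s ∈ L, s < 576 := fun s hs => hL s (List.mem_cons_of_mem _ hs)
    rw [pull_cons, ih h', tfl_cons, tm_spec (hL t List.mem_cons_self) (tfl_lt h' hv)]

def ix (z : F9) : ℕ := 3 * z.1.val + z.2.val
def dg (v : ℕ) (z : F9) : ℕ := (v >>> (2 * ix z)) % 2 ^ 2
def m4 (c r : ℕ) : ℕ := if r = 0 then c else if c = 0 then 0 else if c = 3 then 1 else c + 1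

variable {F : Type*} [Field F] {ω : F} {φ : F →+* Matrix (Fin 2) (Fin 2) (ZMod 2)}

def enc (ω : F) (v : ℕ) : F9 → F := fun z => eQ 2 ω (dg v z)

theorem dg_lt (v : ℕ) (z : F9) : dg v z < 4 := Nat.mod_lt _ (by norm_num)

theorem eQ_xor (h : Four ω φ) {c d : ℕ} (hc : c < 4) (hd : d < 4) : eQ 2 ω (c ^^^ d) = eQ 2 ω c + eQ 2 ω d := by
  have := h.two
  interval_cases c <;> interval_cases d <;> norm_num [eQ] <;> grind

theorem enc_xor (h : Four ω φ) (a b : ℕ) : enc ω (a ^^^ b) = enc ω a + enc ω b := by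
  funext z
  simp only [enc, Pi.add_apply]
  rw [← eQ_xor h (dg_lt _ _) (dg_lt _ _), dg, dg, dg, Nat.shiftRight_xor_distrib, Nat.xor_mod_two_pow]

theorem enc_zero : enc ω 0 = 0 := by funext z; simp [enc, dg, eQ2_zero]

theorem enc_single (b : F9) {c : ℕ} (hc : c < 4) : enc ω (c <<< (2 * ix b)) = Pi.single b (eQ 2 ω c) := by
  have key : ∀ b z : F9, ∀ c < 4, dg (c <<< (2 * ix b)) z = if z = b then c else 0 := by decide +kernel
  funext z
  rw [enc, key b z c hc, Pi.single_apply]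
  split_ifs
  · rfl
  · exact eQ2_zero

theorem eQ_m4 (h : Four ω φ) {c r : ℕ} (hc : c < 4) (hr : r < 2) : eQ 2 ω c * eQ 2 ω (2 ^ r) = eQ 2 ω (m4 c r) := by
  have := h.two
  have := h.root
  interval_cases c <;> interval_cases r <;> norm_num [eQ, m4] <;> grind

theorem lin_ind {P : ℕ → Prop} (h0 : P 0) (hx : ∀ a b, P a → P b → P (a ^^^ b)) (n : ℕ) (hb : ∀ k < n, P (2 ^ k)) :
    ∀ v < 2 ^ n, P v := by
  induction n with
  | zero => intro v hv; obtain rfl : v = 0 := by simpa using hv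
            exact h0
  | succ n ih =>
    intro v hv
    have ih' := ih fun k hk => hb k (by omega)
    by_cases h : v < 2 ^ n
    · exact ih' v h
    · have h1 : v - 2 ^ n < 2 ^ n := by rw [pow_succ] at hv; omega
      have := xor_two_pow_of_not (Nat.testBit_lt_two_pow h1)
      rw [show v = (v - 2 ^ n) ^^^ 2 ^ n by omega]
      exact hx _ _ (ih' _ h1) (hb n (by omega))

def genOK (c : F9 → F9 → ℕ) (L : List ℕ) : Bool :=
  L.all (fun t => Nat.blt t 576) &&
    decide (∀ b : F9, ∀ r : Fin 2, ∀ a : F9, c a b < 4 ∧ dg (tfl L (2 ^ (2 * ix b + r))) a = m4 (c a b) r)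

theorem gen_act (h : Four ω φ) {c : F9 → F9 → ℕ} {L : List ℕ} (hc : genOK c L = true) :
    (∀ t ∈ L, t < 576) ∧ ∀ v < 2 ^ 18, (Matrix.of fun a b => eQ 2 ω (c a b)) *ᵥ enc ω v = enc ω (tfl L v) := by
  simp only [genOK, Bool.and_eq_true, List.all_eq_true, decide_eq_true_eq, Nat.blt_eq] at hc
  refine ⟨hc.1, lin_ind ?_ (fun a b ha hb => ?_) 18 fun k hk => ?_⟩
  · rw [tfl_zero, enc_zero, mulVec_zero]
  · rw [tfl_xor, enc_xor h, enc_xor h, mulVec_add, ha, hb]
  · have key : ∀ k < 18, ∃ b : F9, ∃ r < 2, k = 2 * ix b + r := by decide +kernel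
    obtain ⟨b, r, hr, rfl⟩ := key k hk
    have e : 2 ^ (2 * ix b + r) = (2 ^ r) <<< (2 * ix b) := by rw [Nat.shiftLeft_eq, pow_add, mul_comm]
    have hr' : 2 ^ r < 4 := by interval_cases r <;> norm_num
    funext a
    have e2 := (hc.2 b ⟨r, hr⟩ a).2
    dsimp only at e2
    rw [enc, e2, e, enc_single b hr', mulVec_single, ← eQ_m4 h (hc.2 b ⟨r, hr⟩ a).1 hr]
    simp

theorem enc_surj (h : Four ω φ) (w : F9 → F) : ∃ v < 2 ^ 18, enc ω v = w := by
  rw [← Finset.univ_sum_single w]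
  refine Finset.sum_induction _ (fun x => ∃ v < 2 ^ 18, enc ω v = x) ?_ ⟨0, by norm_num, enc_zero⟩ fun z _ => ?_
  · rintro _ _ ⟨a, ha, rfl⟩ ⟨b, hb, rfl⟩
    exact ⟨a ^^^ b, Nat.xor_lt_two_pow ha hb, enc_xor h a b⟩
  · obtain ⟨c, hc, e⟩ := h.all (w z)
    have key : ∀ b : F9, ∀ c < 4, c <<< (2 * ix b) < 2 ^ 18 := by decide +kernel
    exact ⟨_, key z c hc, by rw [enc_single z hc, e]⟩

theorem enc_inj [Fintype F] (hF : Fintype.card F = 4) (h : Four ω φ) {a b : ℕ} (ha : a < 2 ^ 18) (hb : b < 2 ^ 18)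
    (e : enc ω a = enc ω b) : a = b := by
  classical
  refine Finset.injOn_of_surjOn_of_card_le (s := Finset.range (2 ^ 18)) (t := Finset.univ) (enc ω)
    (fun _ _ => Finset.mem_coe.2 (Finset.mem_univ _)) (fun w _ => ?_) ?_ (by simpa using ha) (by simpa using hb) e
  · obtain ⟨v, hv, e⟩ := enc_surj h w
    exact ⟨v, by simpa using hv, e⟩
  · simp [hF]

def jL : List (List Nat) := [[],
  [nat_lit 67, nat_lit 98, nat_lit 164, nat_lit 133, nat_lit 265, nat_lit 296, nat_lit 362, nat_lit 331, nat_lit 463, nat_lit 494, nat_lit 560, nat_lit 529],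
  [nat_lit 98, nat_lit 67, nat_lit 133, nat_lit 164, nat_lit 296, nat_lit 265, nat_lit 331, nat_lit 362, nat_lit 494, nat_lit 463, nat_lit 529, nat_lit 560],
  [nat_lit 199, nat_lit 230, nat_lit 265, nat_lit 296, nat_lit 331, nat_lit 362, nat_lit 428, nat_lit 397, nat_lit 494, nat_lit 463, nat_lit 560, nat_lit 529],
  [nat_lit 67, nat_lit 98, nat_lit 164, nat_lit 133, nat_lit 199, nat_lit 230, nat_lit 296, nat_lit 265, nat_lit 428, nat_lit 397, nat_lit 529, nat_lit 560],
  [nat_lit 98, nat_lit 67, nat_lit 133, nat_lit 164, nat_lit 199, nat_lit 230, nat_lit 362, nat_lit 331, nat_lit 428, nat_lit 397, nat_lit 463, nat_lit 494],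
  [nat_lit 230, nat_lit 199, nat_lit 296, nat_lit 265, nat_lit 362, nat_lit 331, nat_lit 397, nat_lit 428, nat_lit 463, nat_lit 494, nat_lit 529, nat_lit 560],
  [nat_lit 67, nat_lit 98, nat_lit 164, nat_lit 133, nat_lit 230, nat_lit 199, nat_lit 331, nat_lit 362, nat_lit 397, nat_lit 428, nat_lit 494, nat_lit 463],
  [nat_lit 98, nat_lit 67, nat_lit 133, nat_lit 164, nat_lit 230, nat_lit 199, nat_lit 265, nat_lit 296, nat_lit 397, nat_lit 428, nat_lit 560, nat_lit 529],
  [nat_lit 67, nat_lit 98, nat_lit 133, nat_lit 164, nat_lit 199, nat_lit 230, nat_lit 296, nat_lit 265, nat_lit 362, nat_lit 331, nat_lit 397, nat_lit 428, nat_lit 494, nat_lit 463, nat_lit 560, nat_lit 529],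
  [nat_lit 1, nat_lit 32, nat_lit 133, nat_lit 164, nat_lit 230, nat_lit 199, nat_lit 265, nat_lit 296, nat_lit 362, nat_lit 331, nat_lit 428, nat_lit 397, nat_lit 463, nat_lit 494, nat_lit 560, nat_lit 529],
  [nat_lit 1, nat_lit 32, nat_lit 67, nat_lit 98, nat_lit 230, nat_lit 199, nat_lit 296, nat_lit 265, nat_lit 331, nat_lit 362, nat_lit 428, nat_lit 397, nat_lit 494, nat_lit 463, nat_lit 529, nat_lit 560],
  [nat_lit 1, nat_lit 32, nat_lit 98, nat_lit 67, nat_lit 164, nat_lit 133, nat_lit 265, nat_lit 296, nat_lit 331, nat_lit 362, nat_lit 397, nat_lit 428, nat_lit 494, nat_lit 463, nat_lit 560, nat_lit 529],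
  [nat_lit 32, nat_lit 1, nat_lit 67, nat_lit 98, nat_lit 164, nat_lit 133, nat_lit 199, nat_lit 230, nat_lit 331, nat_lit 362, nat_lit 428, nat_lit 397, nat_lit 463, nat_lit 494, nat_lit 560, nat_lit 529],
  [nat_lit 32, nat_lit 1, nat_lit 98, nat_lit 67, nat_lit 133, nat_lit 164, nat_lit 199, nat_lit 230, nat_lit 265, nat_lit 296, nat_lit 428, nat_lit 397, nat_lit 494, nat_lit 463, nat_lit 529, nat_lit 560],
  [nat_lit 1, nat_lit 32, nat_lit 98, nat_lit 67, nat_lit 164, nat_lit 133, nat_lit 199, nat_lit 230, nat_lit 296, nat_lit 265, nat_lit 362, nat_lit 331, nat_lit 463, nat_lit 494, nat_lit 529, nat_lit 560],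
  [nat_lit 32, nat_lit 1, nat_lit 67, nat_lit 98, nat_lit 164, nat_lit 133, nat_lit 230, nat_lit 199, nat_lit 265, nat_lit 296, nat_lit 362, nat_lit 331, nat_lit 397, nat_lit 428, nat_lit 529, nat_lit 560],
  [nat_lit 32, nat_lit 1, nat_lit 98, nat_lit 67, nat_lit 133, nat_lit 164, nat_lit 230, nat_lit 199, nat_lit 296, nat_lit 265, nat_lit 331, nat_lit 362, nat_lit 397, nat_lit 428, nat_lit 463, nat_lit 494],
  [],
  [nat_lit 2, nat_lit 64, nat_lit 35, nat_lit 97, nat_lit 68, nat_lit 130, nat_lit 101, nat_lit 163, nat_lit 4, nat_lit 68, nat_lit 37, nat_lit 101, nat_lit 200, nat_lit 262, nat_lit 233, nat_lit 295, nat_lit 267, nat_lit 328, nat_lit 360, nat_lit 298, nat_lit 329, nat_lit 331, nat_lit 202, nat_lit 266, nat_lit 298, nat_lit 362, nat_lit 203, nat_lit 235, nat_lit 267, nat_lit 331, nat_lit 398, nat_lit 460, nat_lit 431, nat_lit 493, nat_lit 465, nat_lit 558, nat_lit 496, nat_lit 463, nat_lit 527, nat_lit 529, nat_lit 400, nat_lit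 464, nat_lit 560, nat_lit 401, nat_lit 433, nat_lit 497, nat_lit 529],
  [nat_lit 4, nat_lit 128, nat_lit 37, nat_lit 161, nat_lit 68, nat_lit 2, nat_lit 130, nat_lit 101, nat_lit 35, nat_lit 163, nat_lit 4, nat_lit 68, nat_lit 37, nat_lit 101, nat_lit 202, nat_lit 326, nat_lit 235, nat_lit 359, nat_lit 266, nat_lit 200, nat_lit 328, nat_lit 299, nat_lit 233, nat_lit 361, nat_lit 331, nat_lit 234, nat_lit 298, nat_lit 362, nat_lit 203, nat_lit 235, nat_lit 267, nat_lit 299, nat_lit 400, nat_lit 524, nat_lit 433, nat_lit 557, nat_lit 464, nat_lit 398, nat_lit 526, nat_lit 497, nat_lit 431, nat_lit 559, nat_lit 400, nat_lit 432, nat_lit 464, nat_lit 496, nat_lit 560, nat_lit 433, nat_lit 497, nat_lit 529],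
  [nat_lit 6, nat_lit 192, nat_lit 39, nat_lit 225, nat_lit 72, nat_lit 258, nat_lit 105, nat_lit 291, nat_lit 138, nat_lit 324, nat_lit 171, nat_lit 357, nat_lit 204, nat_lit 390, nat_lit 237, nat_lit 423, nat_lit 271, nat_lit 488, nat_lit 302, nat_lit 265, nat_lit 457, nat_lit 337, nat_lit 522, nat_lit 554, nat_lit 368, nat_lit 523, nat_lit 12, nat_lit 204, nat_lit 45, nat_lit 237, nat_lit 463, nat_lit 78, nat_lit 270, nat_lit 494, nat_lit 79, nat_lit 111, nat_lit 303, nat_lit 463, nat_lit 529, nat_lit 144, nat_lit 336, nat_lit 368, nat_lit 560, nat_lit 145, nat_lit 177, nat_lit 337, nat_lit 529],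
  [nat_lit 8, nat_lit 256, nat_lit 41, nat_lit 289, nat_lit 74, nat_lit 322, nat_lit 107, nat_lit 355, nat_lit 135, nat_lit 228, nat_lit 166, nat_lit 133, nat_lit 197, nat_lit 206, nat_lit 454, nat_lit 239, nat_lit 487, nat_lit 272, nat_lit 520, nat_lit 305, nat_lit 553, nat_lit 332, nat_lit 394, nat_lit 365, nat_lit 427, nat_lit 76, nat_lit 108, nat_lit 332, nat_lit 364, nat_lit 428, nat_lit 109, nat_lit 365, nat_lit 397, nat_lit 463, nat_lit 142, nat_lit 238, nat_lit 494, nat_lit 175, nat_lit 207, nat_lit 239, nat_lit 463, nat_lit 16, nat_lit 272, nat_lit 49, nat_lit 305],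
  [nat_lit 10, nat_lit 320, nat_lit 43, nat_lit 353, nat_lit 71, nat_lit 194, nat_lit 226, nat_lit 102, nat_lit 195, nat_lit 136, nat_lit 260, nat_lit 169, nat_lit 293, nat_lit 208, nat_lit 518, nat_lit 241, nat_lit 551, nat_lit 268, nat_lit 392, nat_lit 301, nat_lit 425, nat_lit 334, nat_lit 458, nat_lit 367, nat_lit 491, nat_lit 397, nat_lit 172, nat_lit 300, nat_lit 428, nat_lit 141, nat_lit 173, nat_lit 269, nat_lit 301, nat_lit 14, nat_lit 334, nat_lit 47, nat_lit 367, nat_lit 529, nat_lit 80, nat_lit 112, nat_lit 240, nat_lit 560, nat_lit 81, nat_lit 209, nat_lit 241, nat_lit 529],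
  [nat_lit 12, nat_lit 384, nat_lit 45, nat_lit 417, nat_lit 78, nat_lit 450, nat_lit 111, nat_lit 483, nat_lit 144, nat_lit 516, nat_lit 177, nat_lit 549, nat_lit 204, nat_lit 6, nat_lit 390, nat_lit 237, nat_lit 39, nat_lit 423, nat_lit 270, nat_lit 72, nat_lit 456, nat_lit 303, nat_lit 105, nat_lit 489, nat_lit 336, nat_lit 138, nat_lit 522, nat_lit 369, nat_lit 171, nat_lit 555, nat_lit 12, nat_lit 204, nat_lit 45, nat_lit 237, nat_lit 78, nat_lit 110, nat_lit 270, nat_lit 302, nat_lit 494, nat_lit 111, nat_lit 303, nat_lit 463, nat_lit 529, nat_lit 176, nat_lit 368, nat_lit 560, nat_lit 145, nat_lit 177, nat_lit 337, nat_lit 369],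
  [nat_lit 14, nat_lit 448, nat_lit 47, nat_lit 481, nat_lit 80, nat_lit 514, nat_lit 113, nat_lit 547, nat_lit 141, nat_lit 388, nat_lit 420, nat_lit 172, nat_lit 389, nat_lit 209, nat_lit 102, nat_lit 550, nat_lit 240, nat_lit 71, nat_lit 199, nat_lit 519, nat_lit 269, nat_lit 136, nat_lit 168, nat_lit 424, nat_lit 300, nat_lit 169, nat_lit 393, nat_lit 334, nat_lit 10, nat_lit 458, nat_lit 367, nat_lit 43, nat_lit 491, nat_lit 397, nat_lit 140, nat_lit 172, nat_lit 268, nat_lit 428, nat_lit 141, nat_lit 269, nat_lit 301, nat_lit 397, nat_lit 14, nat_lit 334, nat_lit 47, nat_lit 367, nat_lit 529, nat_lit 112, nat_lit 208, nat_lit 560, nat_lit 81, nat_lit 113, nat_lit 241, nat_lit 529],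
  [nat_lit 16, nat_lit 512, nat_lit 49, nat_lit 545, nat_lit 77, nat_lit 418, nat_lit 108, nat_lit 67, nat_lit 387, nat_lit 142, nat_lit 452, nat_lit 175, nat_lit 485, nat_lit 207, nat_lit 134, nat_lit 166, nat_lit 454, nat_lit 486, nat_lit 238, nat_lit 135, nat_lit 455, nat_lit 272, nat_lit 8, nat_lit 520, nat_lit 305, nat_lit 41, nat_lit 553, nat_lit 333, nat_lit 74, nat_lit 426, nat_lit 364, nat_lit 75, nat_lit 107, nat_lit 395, nat_lit 397, nat_lit 76, nat_lit 332, nat_lit 428, nat_lit 109, nat_lit 333, nat_lit 365, nat_lit 397, nat_lit 463, nat_lit 174, nat_lit 206, nat_lit 238, nat_lit 494, nat_lit 143, nat_lit 175, nat_lit 207, nat_lit 463, nat_lit 16, nat_lit 272, nat_lit 49, nat_lit 305],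
  [nat_lit 76, nat_lit 386, nat_lit 109, nat_lit 419, nat_lit 134, nat_lit 196, nat_lit 167, nat_lit 229, nat_lit 204, nat_lit 70, nat_lit 390, nat_lit 237, nat_lit 103, nat_lit 423, nat_lit 270, nat_lit 456, nat_lit 303, nat_lit 489, nat_lit 334, nat_lit 266, nat_lit 458, nat_lit 367, nat_lit 299, nat_lit 491, nat_lit 76, nat_lit 140, nat_lit 204, nat_lit 109, nat_lit 173, nat_lit 237, nat_lit 464, nat_lit 526, nat_lit 497, nat_lit 559, nat_lit 272, nat_lit 336, nat_lit 464, nat_lit 305, nat_lit 369, nat_lit 497],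
  [nat_lit 70, nat_lit 194, nat_lit 103, nat_lit 227, nat_lit 140, nat_lit 388, nat_lit 173, nat_lit 421, nat_lit 204, nat_lit 134, nat_lit 390, nat_lit 237, nat_lit 167, nat_lit 423, nat_lit 266, nat_lit 328, nat_lit 299, nat_lit 361, nat_lit 336, nat_lit 522, nat_lit 369, nat_lit 555, nat_lit 76, nat_lit 140, nat_lit 204, nat_lit 109, nat_lit 173, nat_lit 237, nat_lit 464, nat_lit 270, nat_lit 334, nat_lit 526, nat_lit 497, nat_lit 303, nat_lit 367, nat_lit 559, nat_lit 272, nat_lit 336, nat_lit 464, nat_lit 305, nat_lit 369, nat_lit 497],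
  [],
  [nat_lit 78, nat_lit 450, nat_lit 111, nat_lit 483, nat_lit 138, nat_lit 324, nat_lit 171, nat_lit 357, nat_lit 200, nat_lit 262, nat_lit 233, nat_lit 295, nat_lit 266, nat_lit 136, nat_lit 328, nat_lit 299, nat_lit 169, nat_lit 361, nat_lit 332, nat_lit 394, nat_lit 365, nat_lit 427, nat_lit 400, nat_lit 524, nat_lit 433, nat_lit 557, nat_lit 464, nat_lit 142, nat_lit 206, nat_lit 270, nat_lit 334, nat_lit 398, nat_lit 526, nat_lit 497, nat_lit 175, nat_lit 239, nat_lit 303, nat_lit 367, nat_lit 431, nat_lit 559, nat_lit 80, nat_lit 144, nat_lit 208, nat_lit 272, nat_lit 336, nat_lit 400, nat_lit 464, nat_lit 113, nat_lit 177, nat_lit 241, nat_lit 305, nat_lit 369, nat_lit 433, nat_lit 497],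
  [nat_lit 72, nat_lit 258, nat_lit 105, nat_lit 291, nat_lit 144, nat_lit 516, nat_lit 177, nat_lit 549, nat_lit 202, nat_lit 326, nat_lit 235, nat_lit 359, nat_lit 268, nat_lit 392, nat_lit 301, nat_lit 425, nat_lit 332, nat_lit 74, nat_lit 266, nat_lit 394, nat_lit 365, nat_lit 107, nat_lit 299, nat_lit 427, nat_lit 398, nat_lit 460, nat_lit 431, nat_lit 493, nat_lit 464, nat_lit 142, nat_lit 526, nat_lit 497, nat_lit 175, nat_lit 559, nat_lit 80, nat_lit 144, nat_lit 208, nat_lit 272, nat_lit 336, nat_lit 400, nat_lit 464, nat_lit 113, nat_lit 177, nat_lit 241, nat_lit 305, nat_lit 369, nat_lit 433, nat_lit 497],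
  [nat_lit 68, nat_lit 130, nat_lit 101, nat_lit 163, nat_lit 68, nat_lit 101, nat_lit 204, nat_lit 390, nat_lit 237, nat_lit 423, nat_lit 272, nat_lit 520, nat_lit 305, nat_lit 553, nat_lit 334, nat_lit 458, nat_lit 367, nat_lit 491, nat_lit 204, nat_lit 237, nat_lit 334, nat_lit 367, nat_lit 272, nat_lit 305],
  [nat_lit 80, nat_lit 514, nat_lit 113, nat_lit 547, nat_lit 136, nat_lit 260, nat_lit 169, nat_lit 293, nat_lit 206, nat_lit 454, nat_lit 239, nat_lit 487, nat_lit 270, nat_lit 200, nat_lit 456, nat_lit 303, nat_lit 233, nat_lit 489, nat_lit 334, nat_lit 138, nat_lit 202, nat_lit 266, nat_lit 458, nat_lit 367, nat_lit 171, nat_lit 235, nat_lit 299, nat_lit 491, nat_lit 398, nat_lit 140, nat_lit 204, nat_lit 268, nat_lit 332, nat_lit 460, nat_lit 431, nat_lit 173, nat_lit 237, nat_lit 301, nat_lit 365, nat_lit 493, nat_lit 464, nat_lit 78, nat_lit 526, nat_lit 497, nat_lit 111, nat_lit 559, nat_lit 80, nat_lit 144, nat_lit 208, nat_lit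 272, nat_lit 336, nat_lit 400, nat_lit 464, nat_lit 113, nat_lit 177, nat_lit 241, nat_lit 305, nat_lit 369, nat_lit 433, nat_lit 497],
  [nat_lit 74, nat_lit 322, nat_lit 107, nat_lit 355, nat_lit 142, nat_lit 452, nat_lit 175, nat_lit 485, nat_lit 208, nat_lit 518, nat_lit 241, nat_lit 551, nat_lit 266, nat_lit 72, nat_lit 328, nat_lit 299, nat_lit 105, nat_lit 361, nat_lit 336, nat_lit 202, nat_lit 522, nat_lit 369, nat_lit 235, nat_lit 555, nat_lit 400, nat_lit 76, nat_lit 204, nat_lit 268, nat_lit 332, nat_lit 524, nat_lit 433, nat_lit 109, nat_lit 237, nat_lit 301, nat_lit 365, nat_lit 557, nat_lit 464, nat_lit 78, nat_lit 206, nat_lit 270, nat_lit 334, nat_lit 398, nat_lit 526, nat_lit 497, nat_lit 111, nat_lit 239, nat_lit 303, nat_lit 367, nat_lit 431, nat_lit 559, nat_lit 80, nat_lit 144, nat_lit 208, nat_lit 272, nat_lit 336, nat_lit 400, nat_lit 464, nat_lit 113, nat_lit 177, nat_lit 241, nat_lit 305, nat_lit 369, nat_lit 433,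 nat_lit 497],
  [nat_lit 130, nat_lit 386, nat_lit 163, nat_lit 419, nat_lit 134, nat_lit 68, nat_lit 196, nat_lit 388, nat_lit 167, nat_lit 101, nat_lit 229, nat_lit 421, nat_lit 390, nat_lit 423, nat_lit 328, nat_lit 456, nat_lit 361, nat_lit 489, nat_lit 266, nat_lit 522, nat_lit 299, nat_lit 555, nat_lit 76, nat_lit 204, nat_lit 109, nat_lit 237, nat_lit 270, nat_lit 526, nat_lit 303, nat_lit 559, nat_lit 336, nat_lit 464, nat_lit 369, nat_lit 497],
  [nat_lit 130, nat_lit 194, nat_lit 163, nat_lit 227, nat_lit 140, nat_lit 68, nat_lit 196, nat_lit 388, nat_lit 173, nat_lit 101, nat_lit 229, nat_lit 421, nat_lit 204, nat_lit 70, nat_lit 390, nat_lit 237, nat_lit 103, nat_lit 423, nat_lit 266, nat_lit 328, nat_lit 456, nat_lit 520, nat_lit 299, nat_lit 361, nat_lit 489, nat_lit 553, nat_lit 522, nat_lit 555, nat_lit 464, nat_lit 270, nat_lit 334, nat_lit 526, nat_lit 497, nat_lit 303, nat_lit 367, nat_lit 559, nat_lit 336, nat_lit 369],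
  [nat_lit 194, nat_lit 386, nat_lit 227, nat_lit 419, nat_lit 196, nat_lit 388, nat_lit 229, nat_lit 421, nat_lit 204, nat_lit 70, nat_lit 134, nat_lit 390, nat_lit 237, nat_lit 103, nat_lit 167, nat_lit 423, nat_lit 328, nat_lit 520, nat_lit 361, nat_lit 553, nat_lit 334, nat_lit 266, nat_lit 458, nat_lit 522, nat_lit 367, nat_lit 299, nat_lit 491, nat_lit 555, nat_lit 204, nat_lit 237, nat_lit 526, nat_lit 559, nat_lit 272, nat_lit 464, nat_lit 305, nat_lit 497],
  [nat_lit 72, nat_lit 258, nat_lit 450, nat_lit 514, nat_lit 105, nat_lit 291, nat_lit 483, nat_lit 547, nat_lit 142, nat_lit 68, nat_lit 324, nat_lit 452, nat_lit 175, nat_lit 101, nat_lit 357, nat_lit 485, nat_lit 208, nat_lit 70, nat_lit 134, nat_lit 518, nat_lit 241, nat_lit 103, nat_lit 167, nat_lit 551, nat_lit 136, nat_lit 200, nat_lit 392, nat_lit 456, nat_lit 169, nat_lit 233, nat_lit 425, nat_lit 489, nat_lit 202, nat_lit 394, nat_lit 458, nat_lit 522, nat_lit 235, nat_lit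 427, nat_lit 491, nat_lit 555, nat_lit 140, nat_lit 332, nat_lit 460, nat_lit 524, nat_lit 173, nat_lit 365, nat_lit 493, nat_lit 557, nat_lit 142, nat_lit 270, nat_lit 398, nat_lit 526, nat_lit 175, nat_lit 303, nat_lit 431, nat_lit 559, nat_lit 80, nat_lit 144, nat_lit 208, nat_lit 336, nat_lit 464, nat_lit 113, nat_lit 177, nat_lit 241, nat_lit 369, nat_lit 497],
  [nat_lit 72, nat_lit 258, nat_lit 322, nat_lit 450, nat_lit 105, nat_lit 291, nat_lit 355, nat_lit 483, nat_lit 138, nat_lit 324, nat_lit 452, nat_lit 516, nat_lit 171, nat_lit 357, nat_lit 485, nat_lit 549, nat_lit 206, nat_lit 70, nat_lit 134, nat_lit 454, nat_lit 239, nat_lit 103, nat_lit 167, nat_lit 487, nat_lit 200, nat_lit 392, nat_lit 456, nat_lit 520, nat_lit 233, nat_lit 425, nat_lit 489, nat_lit 553, nat_lit 138, nat_lit 266, nat_lit 458, nat_lit 522, nat_lit 171, nat_lit 299, nat_lit 491, nat_lit 555, nat_lit 400, nat_lit 140, nat_lit 204, nat_lit 524, nat_lit 433,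 nat_lit 173, nat_lit 237, nat_lit 557, nat_lit 78, nat_lit 334, nat_lit 398, nat_lit 526, nat_lit 111, nat_lit 367, nat_lit 431, nat_lit 559, nat_lit 144, nat_lit 208, nat_lit 272, nat_lit 336, nat_lit 400, nat_lit 177, nat_lit 241, nat_lit 305, nat_lit 369, nat_lit 433],
  [nat_lit 68, nat_lit 130, nat_lit 194, nat_lit 386, nat_lit 101, nat_lit 163, nat_lit 227, nat_lit 419, nat_lit 68, nat_lit 101, nat_lit 70, nat_lit 134, nat_lit 103, nat_lit 167, nat_lit 456, nat_lit 520, nat_lit 489, nat_lit 553, nat_lit 458, nat_lit 522, nat_lit 491, nat_lit 555, nat_lit 76, nat_lit 140, nat_lit 109, nat_lit 173, nat_lit 270, nat_lit 334, nat_lit 303, nat_lit 367, nat_lit 272, nat_lit 336, nat_lit 305, nat_lit 369],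
  [nat_lit 74, nat_lit 322, nat_lit 450, nat_lit 514, nat_lit 107, nat_lit 355, nat_lit 483, nat_lit 547, nat_lit 144, nat_lit 68, nat_lit 260, nat_lit 516, nat_lit 177, nat_lit 101, nat_lit 293, nat_lit 549, nat_lit 200, nat_lit 70, nat_lit 262, nat_lit 454, nat_lit 233, nat_lit 103, nat_lit 295, nat_lit 487, nat_lit 72, nat_lit 136, nat_lit 392, nat_lit 520, nat_lit 105, nat_lit 169, nat_lit 425, nat_lit 553, nat_lit 74, nat_lit 138, nat_lit 202, nat_lit 266, nat_lit 394, nat_lit 107, nat_lit 171, nat_lit 235, nat_lit 299, nat_lit 427, nat_lit 398, nat_lit 76, nat_lit 140, nat_lit 460, nat_lit 431, nat_lit 109, nat_lit 173, nat_lit 493, nat_lit 464, nat_lit 78, nat_lit 206, nat_lit 270, nat_lit 334, nat_lit 398, nat_lit 526, nat_lit 497, nat_lit 111, nat_lit 239, nat_lit 303, nat_lit 367, nat_lit 431, nat_lit 559, nat_lit 144, nat_lit 208, nat_lit 336, nat_lit 177, nat_lit 241, nat_lit 369],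
  [nat_lit 72, nat_lit 258, nat_lit 322, nat_lit 514, nat_lit 105, nat_lit 291, nat_lit 355, nat_lit 547, nat_lit 138, nat_lit 68, nat_lit 324, nat_lit 452, nat_lit 171, nat_lit 101, nat_lit 357, nat_lit 485, nat_lit 206, nat_lit 70, nat_lit 454, nat_lit 518, nat_lit 239, nat_lit 103, nat_lit 487, nat_lit 551, nat_lit 200, nat_lit 328, nat_lit 456, nat_lit 233, nat_lit 361, nat_lit 489, nat_lit 138, nat_lit 202, nat_lit 266, nat_lit 394, nat_lit 522, nat_lit 171, nat_lit 235, nat_lit 299, nat_lit 427, nat_lit 555, nat_lit 400, nat_lit 76, nat_lit 140, nat_lit 524, nat_lit 433, nat_lit 109, nat_lit 173, nat_lit 557, nat_lit 142, nat_lit 206, nat_lit 270, nat_lit 334, nat_lit 398, nat_lit 175, nat_lit 239, nat_lit 303, nat_lit 367, nat_lit 431, nat_lit 80, nat_lit 144, nat_lit 336, nat_lit 400, nat_lit 464, nat_lit 113, nat_lit 177, nat_lit 369, nat_lit 433, nat_lit 497]]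
def s1 : List Nat := [nat_lit 10, nat_lit 10, nat_lit 22, nat_lit 23, nat_lit 32, nat_lit 35, nat_lit 1, nat_lit 3, nat_lit 4, nat_lit 22, nat_lit 32, nat_lit 23, nat_lit 35, nat_lit 4, nat_lit 1, nat_lit 3, nat_lit 32, nat_lit 10, nat_lit 22, nat_lit 32, nat_lit 27, nat_lit 35, nat_lit 1, nat_lit 5, nat_lit 3, nat_lit 1]
def s2 : List Nat := [nat_lit 3, nat_lit 9, nat_lit 12, nat_lit 35, nat_lit 4, nat_lit 5, nat_lit 22, nat_lit 23, nat_lit 32, nat_lit 35, nat_lit 1, nat_lit 4, nat_lit 3, nat_lit 31, nat_lit 10, nat_lit 22, nat_lit 23, nat_lit 32, nat_lit 35, nat_lit 4, nat_lit 5, nat_lit 3, nat_lit 12, nat_lit 23, nat_lit 32, nat_lit 40, nat_lit 1]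

theorem jL_ok : (List.zipWith genOK j3Cs jL).all id = true := by decide +kernel

theorem gen_ex (h : Four ω φ) {A : Matrix F9 F9 F} (hA : A ∈ j3Gens F ω) :
    ∃ L ∈ jL, (∀ t ∈ L, t < 576) ∧ ∀ v < 2 ^ 18, A *ᵥ enc ω v = enc ω (tfl L v) := by
  obtain ⟨c, hc, rfl⟩ := h.mem_gens.1 hA
  obtain ⟨i, hi, rfl⟩ := List.getElem_of_mem hc
  have h1 : j3Cs.length = 43 := rfl
  have h2 : jL.length = 43 := rfl
  have := List.all_eq_true.1 jL_ok _ (List.getElem_mem (n := i) (by rw [List.length_zipWith]; omega))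
  rw [List.getElem_zipWith] at this
  exact ⟨_, List.getElem_mem _, gen_act h this⟩

theorem ex_gen (h : Four ω φ) (i : ℕ) : ∃ g ∈ threeJ3 F ω, (∀ t ∈ jL.getD i [], t < 576) ∧
    ∀ v < 2 ^ 18, (g : Matrix F9 F9 F) *ᵥ enc ω v = enc ω (tfl (jL.getD i []) v) := by
  have h1 : j3Cs.length = 43 := rfl
  have h2 : jL.length = 43 := rfl
  by_cases hi : i < 43
  · have := List.all_eq_true.1 jL_ok _ (List.getElem_mem (n := i) (by rw [List.length_zipWith]; omega))
    rw [List.getElem_zipWith] at this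
    have hA : (Matrix.of fun a b => eQ 2 ω (j3Cs[i] a b)) ∈ j3Gens F ω :=
      h.mem_gens.2 ⟨_, List.getElem_mem _, rfl⟩
    have hu := h.unitary hA
    rw [List.getD_eq_getElem _ _ (by omega)]
    exact ⟨⟨_, _, mul_eq_one_comm.1 hu, hu⟩, Subgroup.subset_closure hA, gen_act h this⟩
  · rw [List.getD_eq_default _ _ (by omega)]
    exact ⟨1, one_mem _, by simp, fun v _ => by simp [tfl]⟩

def run (s : List ℕ) : ℕ → ℕ :=
  List.rec (fun M => M) (fun i _ ih M => force (Nat.lor M (pull (jL.getD i []) M)) ih) s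

def Orb (ω : F) (w : F9 → F) (M : ℕ) : Prop :=
  ∀ v < 2 ^ 18, M.testBit v = true → ∃ g ∈ threeJ3 F ω, (g : Matrix F9 F9 F) *ᵥ w = enc ω v

theorem orb_run (h : Four ω φ) {w : F9 → F} (s : List ℕ) {M : ℕ} (hM : Orb ω w M) : Orb ω w (run s M) := by
  induction s generalizing M with
  | nil => exact hM
  | cons i s ih =>
    have e : run (i :: s) M = run s (M ||| pull (jL.getD i []) M) := force_eq _ _
    rw [e]
    refine ih fun v hv hb => ?_
    rw [Nat.testBit_or, Bool.or_eq_true] at hb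
    rcases hb with hb | hb
    · exact hM v hv hb
    · obtain ⟨g, hg, hL, hact⟩ := ex_gen h i
      rw [pull_spec hL hv] at hb
      obtain ⟨k, hk, ek⟩ := hM _ (tfl_lt hL hv) hb
      refine ⟨g⁻¹ * k, mul_mem (inv_mem hg) hk, ?_⟩
      rw [Units.val_mul, ← mulVec_mulVec, ek, ← hact v hv, mulVec_mulVec, ← Units.val_mul, inv_mul_cancel,
        Units.val_one, one_mulVec]

theorem orb_start (w : ℕ) : Orb ω (enc ω w) (1 <<< w) := fun v _ hb => by
  rw [Nat.one_shiftLeft, Nat.testBit_two_pow, decide_eq_true_eq] at hb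
  exact ⟨1, one_mem _, by rw [hb]; simp⟩

def m1 : ℕ := run s1 (Nat.shiftLeft 1 1)
def m2 : ℕ := run s2 (Nat.shiftLeft 1 4160)
def odd (n : ℕ) : ℕ :=
  Nat.rec 0 (fun k ih => Nat.xor ih (Nat.lor (idp (Nat.mul 2 k) 18) (idp (Nat.succ (Nat.mul 2 k)) 18))) n

theorem m1_chk : force m1 (fun M => and' (allL jL fun L => Nat.beq (pull L M) M)
    (and' (Nat.beq (pop 18 (Nat.shiftLeft 1 18) M) 69768) (Nat.testBit M 1))) = true := by decide +kernel
theorem m2_chk : Nat.beq (Nat.lor (Nat.lor m2 (odd 9)) 1) (Nat.pred (Nat.shiftLeft 1 (Nat.shiftLeft 1 18))) = true := by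
  decide +kernel

theorem m1_facts : (∀ L ∈ jL, pull L m1 = m1) ∧
    ((Finset.range (2 ^ 18)).filter (fun j => m1.testBit j)).card = 69768 ∧ m1.testBit 1 = true := by
  have := m1_chk
  rw [force_eq, and'_eq, and'_eq, Bool.and_eq_true, Bool.and_eq_true, allL_iff] at this
  refine ⟨fun L hL => Nat.eq_of_beq_eq_true (this.1 L hL), ?_, this.2.2⟩
  have e := Nat.eq_of_beq_eq_true this.2.1
  rwa [show Nat.shiftLeft 1 18 = 2 ^ 18 from Nat.one_shiftLeft 18, pop_eq le_rfl] at e

theorem m1_inv [Fintype F] (hF : Fintype.card F = 4) (h : Four ω φ) {g : GL F9 F} (hg : g ∈ threeJ3 F ω) :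
    ∀ a < 2 ^ 18, ∀ b < 2 ^ 18, (g : Matrix F9 F9 F) *ᵥ enc ω a = enc ω b → m1.testBit a = m1.testBit b := by
  induction hg using Subgroup.closure_induction with
  | mem g hg =>
    intro a ha b hb e
    obtain ⟨L, hL, h1, h2⟩ := gen_ex h hg
    rw [h2 a ha] at e
    rw [← enc_inj hF h (tfl_lt h1 ha) hb e, ← pull_spec h1 ha, m1_facts.1 L hL]
  | one =>
    intro a ha b hb e
    rw [Units.val_one, one_mulVec] at e
    rw [enc_inj hF h ha hb e]
  | mul g k _ _ ih1 ih2 =>
    intro a ha b hb e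
    obtain ⟨c, hc, e'⟩ := enc_surj h ((k : Matrix F9 F9 F) *ᵥ enc ω a)
    rw [Units.val_mul, ← mulVec_mulVec, ← e'] at e
    rw [ih2 a ha c hc e'.symm, ih1 c hc b hb e]
  | inv g _ ih =>
    intro a ha b hb e
    refine (ih b hb a ha ?_).symm
    rw [← e, mulVec_mulVec, ← Units.val_mul, mul_inv_cancel, Units.val_one, one_mulVec]

theorem enc_one : enc ω 1 = Pi.single 0 1 := by
  have := enc_single (ω := ω) (0 : F9) (c := 1) (by norm_num)
  rwa [eQ2_one] at this

theorem orb1_iff [Fintype F] (hF : Fintype.card F = 4) (h : Four ω φ) {v : ℕ} (hv : v < 2 ^ 18) :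
    m1.testBit v = true ↔ ∃ g ∈ threeJ3 F ω, (g : Matrix F9 F9 F) *ᵥ Pi.single 0 1 = enc ω v := by
  rw [← enc_one (ω := ω)]
  refine ⟨orb_run h s1 (orb_start 1) v hv, fun ⟨g, hg, e⟩ => ?_⟩
  rw [← m1_inv hF h hg 1 (by norm_num) v hv e, m1_facts.2.2]

theorem cube_eq (h : Four ω φ) (v k : ℕ) : eQ 2 ω ((v >>> (2 * k)) % 2 ^ 2) ^ 3 =
    if (v.testBit (2 * k) || v.testBit (2 * k + 1)) then 1 else 0 := by
  have e1 : v.testBit (2 * k) = ((v >>> (2 * k)) % 2 ^ 2).testBit 0 := by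
    rw [Nat.testBit_mod_two_pow, Nat.testBit_shiftRight]; simp
  have e2 : v.testBit (2 * k + 1) = ((v >>> (2 * k)) % 2 ^ 2).testBit 1 := by
    rw [Nat.testBit_mod_two_pow, Nat.testBit_shiftRight]; simp
  rw [e1, e2]
  have : (v >>> (2 * k)) % 2 ^ 2 < 4 := Nat.mod_lt _ (by norm_num)
  generalize (v >>> (2 * k)) % 2 ^ 2 = d at this
  have h1 := h.two
  have h2 := h.root
  interval_cases d
  · rw [if_neg (by decide), eQ2_zero]; simp
  · rw [if_pos (by decide), eQ2_one]; simp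
  · rw [if_pos (by decide), eQ2_two]; grind
  · rw [if_pos (by decide), h.eQ_three]; grind

theorem odd_spec (h : Four ω φ) {v : ℕ} (hv : v < 2 ^ 18) (n : ℕ) :
    ∑ k ∈ Finset.range n, eQ 2 ω ((v >>> (2 * k)) % 2 ^ 2) ^ 3 = if (odd n).testBit v then 1 else 0 := by
  induction n with
  | zero => simp [odd]
  | succ n ih =>
    have e : odd (n + 1) = odd n ^^^ (idp (2 * n) 18 ||| idp (2 * n + 1) 18) := rfl
    rw [Finset.sum_range_succ, ih, cube_eq h, e, Nat.testBit_xor, Nat.testBit_or, testBit_idp, testBit_idp,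
      decide_eq_true hv, Bool.true_and, Bool.true_and]
    have := h.two
    cases (odd n).testBit v <;> cases (v.testBit (2 * n) || v.testBit (2 * n + 1)) <;> simp
    grind

theorem orb2 (h : Four ω φ) {w : F9 → F} (h0 : w ≠ 0) (hw : ∑ z, w z ^ 3 = 0) :
    ∃ g ∈ threeJ3 F ω, (g : Matrix F9 F9 F) *ᵥ enc ω 4160 = w := by
  obtain ⟨v, hv, rfl⟩ := enc_surj h w
  refine orb_run h s2 (orb_start 4160) v hv ?_
  have e : ∑ z, enc ω v z ^ 3 = ∑ k ∈ Finset.range 9, eQ 2 ω ((v >>> (2 * k)) % 2 ^ 2) ^ 3 := by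
    refine Finset.sum_nbij ix (by decide) (fun a _ b _ => ?_) (fun k hk => ?_) fun _ _ => rfl
    · revert a b; decide
    · have : ∀ k < 9, ∃ z, ix z = k := by decide
      obtain ⟨z, e⟩ := this k (by simpa using hk)
      exact ⟨z, by simp, e⟩
  rw [e, odd_spec h hv] at hw
  have e1 : (odd 9).testBit v = false := by
    cases e : (odd 9).testBit v
    · rfl
    · simp [e] at hw
  have e2 : (1 : ℕ).testBit v = false := by
    have : v ≠ 0 := by rintro rfl; exact h0 enc_zero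
    rw [← pow_zero 2, Nat.testBit_two_pow]; simpa using this.symm
  have e3 : (m2 ||| odd 9 ||| 1) = 1 <<< (1 <<< 18) - 1 := Nat.eq_of_beq_eq_true m2_chk
  have e4 := congrArg (Nat.testBit · v) e3
  simp only [Nat.testBit_or, e1, e2, Bool.or_false, Nat.one_shiftLeft, Nat.testBit_two_pow_sub_one, hv,
    decide_true] at e4
  exact e4

theorem lines_card [Fintype F] (hF : Fintype.card F = 4) (h : Four ω φ) :
    {L : Submodule F (F9 → F) | ∃ g ∈ threeJ3 F ω,
      L = F ∙ ((g : Matrix F9 F9 F) *ᵥ (Pi.single (0 : F9) (1 : F) : F9 → F))}.ncard = 23256 := by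
  classical
  set S := (Finset.range (2 ^ 18)).filter (fun j => m1.testBit j) with hS
  have hO : ∀ w, w ∈ S.image (enc ω) ↔ ∃ g ∈ threeJ3 F ω, (g : Matrix F9 F9 F) *ᵥ Pi.single 0 1 = w := by
    intro w
    simp only [hS, Finset.mem_image, Finset.mem_filter, Finset.mem_range]
    constructor
    · rintro ⟨v, ⟨hv, hb⟩, rfl⟩
      exact (orb1_iff hF h hv).1 hb
    · intro hw
      obtain ⟨v, hv, rfl⟩ := enc_surj h w
      exact ⟨v, ⟨hv, (orb1_iff hF h hv).2 hw⟩, rfl⟩
  have hc : (S.image (enc ω)).card = 69768 := by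
    rw [Finset.card_image_of_injOn, m1_facts.2.1]
    intro a ha b hb e
    simp only [hS, Finset.coe_filter, Finset.mem_range, Set.mem_setOf_eq] at ha hb
    exact enc_inj hF h ha.1 hb.1 e
  generalize S.image (enc ω) = O at hO hc
  have e : {L : Submodule F (F9 → F) | ∃ g ∈ threeJ3 F ω,
      L = F ∙ ((g : Matrix F9 F9 F) *ᵥ (Pi.single (0 : F9) (1 : F) : F9 → F))} = ↑(O.image fun w => F ∙ w) := by
    ext L
    simp only [Set.mem_setOf_eq, Finset.coe_image, Set.mem_image, Finset.mem_coe, hO]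
    constructor
    · rintro ⟨g, hg, rfl⟩; exact ⟨_, ⟨g, hg, rfl⟩, rfl⟩
    · rintro ⟨_, ⟨g, hg, rfl⟩, rfl⟩; exact ⟨g, hg, rfl⟩
  rw [e, Set.ncard_coe_finset]
  obtain ⟨z, hz, -⟩ := h.exists_z
  have hω : ∀ w ∈ O, ω • w ∈ O := fun w hw => by
    obtain ⟨g, hg, rfl⟩ := (hO w).1 hw
    refine (hO _).2 ⟨z * g, mul_mem z.2 hg, ?_⟩
    rw [Units.val_mul, ← mulVec_mulVec, hz]
    funext a; simp [mulVec_diagonal]
  have hu : ∀ w ∈ O, ∀ u : Fˣ, u • w ∈ O := fun w hw u => by
    obtain ⟨c, hc, e⟩ := h.all u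
    rw [Units.smul_def, e]
    interval_cases c
    · exact absurd (e.trans eQ2_zero) u.ne_zero
    · rwa [eQ2_one, one_smul]
    · rw [eQ2_two]; exact hω w hw
    · rw [h.eQ_three, sq, mul_smul]; exact hω _ (hω w hw)
  have h0 : ∀ w ∈ O, w ≠ 0 := fun w hw e => by
    obtain ⟨g, hg, rfl⟩ := (hO w).1 hw
    have := congrArg (fun x => ((g⁻¹ : GL F9 F) : Matrix F9 F9 F) *ᵥ x) e
    simp only [mulVec_mulVec, ← Units.val_mul, inv_mul_cancel, Units.val_one, one_mulVec, mulVec_zero] at this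
    simpa using congrFun this 0
  have key := Finset.card_eq_sum_card_image (fun w : F9 → F => F ∙ w) O
  rw [Finset.sum_congr rfl (g := fun _ => 3), Finset.sum_const, smul_eq_mul, hc] at key
  · omega
  · intro L hL
    obtain ⟨w, hw, rfl⟩ := Finset.mem_image.1 hL
    have : O.filter (fun a => (F ∙ a) = F ∙ w) = Finset.univ.image fun u : Fˣ => u • w := by
      ext a
      simp only [Finset.mem_filter, Finset.mem_image, Finset.mem_univ, true_and]
      rw [eq_comm, Submodule.span_singleton_eq_span_singleton]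
      exact ⟨fun h => h.2, fun ⟨u, e⟩ => ⟨e ▸ hu w hw u, u, e⟩⟩
    rw [this, Finset.card_image_of_injective, Finset.card_univ, Fintype.card_units, hF]
    intro u u' e
    exact Units.ext (smul_left_injective F (h0 w hw) e)

end
end H9.Jl
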