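import Cfsg.Agent.H27.LCo1
/-! Sets of minimal vectors cut out by inner products; the McLaughlin configuration. -/
set_option autoImplicit false
namespace H9
noncomputable section
open MulAction Cfsg H27
open scoped Pointwise

/-- the members of `X` with inner product `k` with `w` -/
def D1 (X : Set LL) (w : LL) (k : ℤ) : Set LL := {x | x ∈ X ∧ dotInt (w : VV) (x : VV) = k}
theorem D1_mset {n T W a b M : Nat} (hT : TabL n T) {w : LL} (hw : (w : VV) = vc W) (h : a < 50000 ∧ b < 50000) :
    D1 (mset n (tL n T) M) w (a - b) = mset n (tL n T) (Nat.land M (dotM n T W a b)) := by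
  ext x
  simp only [D1, mset, Set.mem_setOf_eq, Set.mem_image, Nat.land_eq, Nat.testBit_and, Bool.and_eq_true]
  exact ⟨fun ⟨⟨j, c, d⟩, e⟩ => ⟨j, ⟨c.1, c.2, (hT.dot_iff hw c.1 h.1 h.2).1 (d ▸ e)⟩, d⟩,
    fun ⟨j, c, d⟩ => ⟨⟨j, ⟨c.1, c.2.1⟩, d⟩, d ▸ (hT.dot_iff hw c.1 h.1 h.2).2 c.2.2⟩⟩
theorem D1_smul (g : CC) (X : Set LL) (w : LL) (k : ℤ) : D1 (g • X) (g • w) k = g • D1 X w k :=
  (smul_set_eq g fun y => by simp [D1, co_dot]).symm
theorem mdot_smul (g : CC) (v : LL) (k : ℤ) : mdot (g • v) k = g • mdot v k := (smul_set_eq g fun _ => smul_mem_mdot g).symm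
variable {G Ω : Type*} [Group G] [MulAction G Ω]
def trM (d n : Nat) (Ns : List Net) (k b M c : Nat) : Bool :=
  force M fun M => and' (and' (Nat.beq (orb Ns k (Nat.shiftLeft 1 b)) M) (Nat.beq (pop d n M) c)) (and' (tb M b) (Nat.ble (Nat.succ b) n))
theorem ActsL.trM {d n k b M c : Nat} {e : Nat → Ω} (he : Set.InjOn e {j | j < n}) (hn : n ≤ 2 ^ d) {gs : List G} {Ns : List Net}
    (a : ActsL n e gs Ns) {H : Subgroup G} (hH : ∀ g ∈ gs, g ∈ H) {S : Set Ω} (hS : S = mset n e M) (h : trM d n Ns k b M c = true) :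
    S.ncard = c ∧ e b ∈ S ∧ ∀ x ∈ S, ∀ y ∈ S, ∃ g ∈ H, g • x = y := by
  simp only [H9.trM, force_eq, and'_eq, Bool.and_eq_true, tb_eq, Nat.ble_eq] at h
  subst hS
  refine ⟨(ncard_mset_pop he hn M).trans ((beq_iff _ _).1 h.1.2), ⟨b, ⟨h.2.2, h.2.1⟩, rfl⟩, ?_⟩
  rintro _ ⟨i, hi, rfl⟩ _ ⟨j, hj, rfl⟩
  exact a.conn_mask hH h.2.2 h.1.1 hi.2 hj.2
theorem orbit_of_tr {H : Subgroup G} {S : Set Ω} {x : Ω} (hx : x ∈ S) (a : ∀ g ∈ H, g • x ∈ S)
    (b : ∀ x ∈ S, ∀ y ∈ S, ∃ g ∈ H, g • x = y) : orbit H x = S :=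
  Set.ext fun y => ⟨fun ⟨g, e⟩ => e ▸ a g g.2, fun h => let ⟨g, c, d⟩ := b x hx y h; ⟨⟨g, c⟩, d⟩⟩
theorem cj_tr (g : G) {A B : Subgroup G} (h : CjRel g A B) {S : Set Ω} (b : ∀ x ∈ S, ∀ y ∈ S, ∃ g ∈ A, g • x = y) :
    ∀ x ∈ g • S, ∀ y ∈ g • S, ∃ g ∈ B, g • x = y := by
  rintro _ ⟨x, hx, rfl⟩ _ ⟨y, hy, rfl⟩; exact h.trans (b x hx y hy)

/-! ### McLaughlin -/
theorem sub32 {u x : VV} (hu : sqNorm u = 48) (hx : sqNorm x = 32) : sqNorm (u - x) = 32 ↔ dotInt (-u) x = -24 := by
  rw [sqNorm_sub, neg_dot, hu, hx]; omega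
def M275 : Set LL := D1 (mdot lV (-24)) lU 16
theorem M275_eq : M275 = mset 552 e552 0xffffffffffffffffffffffffffffffffffffffffffffffffffffffffffffffffffffe := by
  rw [M275, ← tab552.mset_ones]
  exact (D1_mset (a := 16) (b := 0) tabL552 coe_lU (by norm_num)).trans (congrArg _ ((beq_iff _ _).1 (by decide +kernel)))
theorem M275_tr : M275.ncard = 275 ∧ e552 1 ∈ M275 ∧ ∀ x ∈ M275, ∀ y ∈ M275, ∃ g ∈ CMc, g • x = y :=
  ActsL.trM (d := 10) (k := 8) tab552.inj (by norm_num) mM_acts mM_mem M275_eq (by decide +kernel)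
/-- the configuration of a vector of norm 48 and a minimal summand -/
theorem mcl_pair {u v : LL} (hu : sqNorm (u : VV) = 48) (hv : sqNorm (v : VV) = 32 ∧ sqNorm ((u : VV) - (v : VV)) = 32) :
    ∃ g : CC, g • lV = -u ∧ g • lU = v ∧
      {x : LL | sqNorm (x : VV) = 32 ∧ sqNorm ((u : VV) - (x : VV)) = 32 ∧ dotInt (v : VV) (x : VV) = 16} = g • M275 := by
  obtain ⟨g, a, b⟩ := exists_smul_V (v := -u) (x := v) orbit_C3_lU ((sqNorm_neg _).trans hu) ⟨hv.1, (sub32 hu hv.1).1 hv.2⟩
  refine ⟨g, a, b, ?_⟩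
  rw [M275, ← D1_smul, ← mdot_smul, a, b]
  exact Set.ext fun x => ⟨fun h => ⟨⟨h.1, (sub32 hu h.1).1 h.2.1⟩, h.2.2⟩, fun h => ⟨h.1.1, (sub32 hu h.1.1).2 h.1.2, h.2⟩⟩
theorem e275_zero : e275 0 = e552 1 := rfl
/-- normal form of a McLaughlin triple -/
theorem mcl_norm {u v x : LL} (hu : sqNorm (u : VV) = 48) (hv : sqNorm (v : VV) = 32 ∧ sqNorm ((u : VV) - (v : VV)) = 32)
    (hx : sqNorm (x : VV) = 32 ∧ sqNorm ((u : VV) - (x : VV)) = 32 ∧ dotInt (v : VV) (x : VV) = 16) :
    ∃ g : CC, g • lV = -u ∧ g • lU = v ∧ g • e275 0 = x ∧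
      {x : LL | sqNorm (x : VV) = 32 ∧ sqNorm ((u : VV) - (x : VV)) = 32 ∧ dotInt (v : VV) (x : VV) = 16} = g • M275 ∧
      CjRel g (CMc ⊓ stabilizer CC (e275 0)) (stabilizer CC u ⊓ stabilizer CC v ⊓ stabilizer CC x) := by
  obtain ⟨g, a, b, c⟩ := mcl_pair hu hv
  obtain ⟨y, hy, rfl⟩ : x ∈ g • M275 := c ▸ hx
  obtain ⟨k, hk, rfl⟩ := M275_tr.2.2 _ M275_tr.2.1 y hy
  have a' : (g * k) • lV = -u := by rw [mul_smul, show k • lV = lV from hk.1, a]
  have b' : (g * k) • lU = v := by rw [mul_smul, show k • lU = lU from hk.2, b]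
  refine ⟨g * k, a', b', mul_smul _ _ _, ?_, stab_neg u ▸ ((CjRel.stab' a').inf (.stab' b')).inf (.stab' (mul_smul _ _ _))⟩
  rw [c, mul_smul, M275, ← D1_smul k, ← mdot_smul, show k • lV = lV from hk.1, show k • lU = lU from hk.2]
def sU43 : List (List Nat × Net) := [([1, 1, 1, 1, 3, 0, 0, 0, 0, 0, 2, 1, 3, 1], (.cons 1 0x405044404415500045415115154054410140101511111455440055410411451551140405044404415500045415115154054410140101511111455440055410411451551140
 (.cons 2 0x330211233130202021322032220111101122322233210200022122223022100011030330211233130202021322032220111101122322233210200022122223022100011030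
 (.cons 4 0xd0a0b020009090a070e0807010206080c0709070a0d07090f03070e030f0b0f030a0d01040b030d030a010b0a0a0909070c0d0b03030504020e0d0b0f0e01040a0f03010c
 (.cons 8 0x32006d007d0025009c008b000b003f000b00ad00e9003500c300be0052008f005a0087002300fc00fb00b700ae002000d6006800a20048009900c000af0052006c0050
 (.cons 16 0x1549000099790000ac7300002f240000680500000b7a0000d941000091fd0000d9b5000047970000fe1200001daa00003f8f00000e760000ae010000ce0a0000e500
 (.cons 32 0x4000000007cdbd6cd0000000093d4adff000000001a0376c000000000e269d54a0000000004dc7476000000000a8498d100000000422bb90b000000009aada708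
 (.cons 64 0x569131b29151c04c0000000000000000853b089869f837b90000000000000000b6264d420a3ff48e00000000000000003d2e546cf1558950
 (.cons 128 0x387057c25cddf90ced2ffcfffad7e71c0000000000000000000000000000000031e5451c9d2d628f6e5893d3b8820360
 (.cons 256 0x2000000890200040005442000400008001000801000280020000fabb65f5ef
 (.cons 512 0xfabb65f5ef
 (.cons 256 0xfabb65f5ef
 (.cons 128 0x20000008902000400054d23864d5a70000000000000000000000000000000000000000000000000000004000000000
 (.cons 64 0x84105cce3c5e5d060000000000000000802100888b9022e7000000000000000050a1560e052541c500000000000000000000004a00042000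
 (.cons 32 0x8d000000009b9e5f7400000000207d14dc000000008c345cc000000000e221d44a0000000050dd2659000000009253460b0000000011421941000000000a002000
 (.cons 16 0xcbca000009ae0000f0d600003e120000916a000017030000a49e000000480000d935000095940000c605000010370000c5590000a12a00005d21000000a100000000
 (.cons 8 0x9b00d500dc008800e100b200940077005b000200480032002400df004d0077005600c50023007e004f004b004d00d90069000a00e8002a00c100c90087004300040000
 (.cons 4 0xd0409010c0b0b000e0e0e0904020c010a02000d080306040702020f0b04030d0c000d0b05050a07020005080b0205060a0408080c010a0b080502010b000f0009050c0800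
 (.cons 2 0x113202210310132012221202111221130312200031331113332332321033002001010113202210310132012221202111221130312200031331113332332321033002001010
 (.cons 1 0x1450000550154541501110405155400101101104540051010405010504514400100001450000550154541501110405155400101101104540051010405010504514400100
 .nil)))))))))))))))))))),
  ([3, 3, 5, 3, 4, 2, 4, 3, 4, 3, 3], (.cons 1 0x15405550450110441141100555055100451050505010045141040050055105504140015405550450110441141100555055100451050505010045141040050055105504140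
 (.cons 2 0x11333002003020310120101303220232210220102323031323020001310333233030011333002003020310120101303220232210220102323031323020001310333233030
 (.cons 4 0xa00010d0a0e09090c02030d05000c060f0b01010f060d04090a050f0a030505010f090f0b0608020d0d03010d0e0c090201090d0e0e050b080a0c080b060a0b09060b0d0c
 (.cons 8 0xc7004800d000660026006900cf00b100e000dd001d007a002f007200060099009a00660023004a0073002c00f5003500b700aa00e800f3009300ca00d600bc006f0018
 (.cons 16 0x84ea0000d92400005b410000bd5b0000a1e400002ce2000084950000663a0000b3820000fe5e00008dbe0000223c000093050000711b00003aed0000f15d0000db78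
 (.cons 32 0x6f000000002456397e000000006685f26700000000d314b62100000000c6da294200000000f3779dc200000000109c53440000000053c0461a0000000028ba1228
 (.cons 64 0x1037d37f6d7e1f8800000000000000006be3a735aa55d041000000000000000013c0c34cf516553b0000000000000000874d6f648a57b884
 (.cons 128 0x9842d8d05b7abaea970f404f6523efe900000000000000000000000000000000f1f1ca96fb464f6206c4b10144908980
 (.cons 256 0x20000000090008000004001000428028000002004400100000077ecfffbe9
 (.cons 512 0x77ecfffbe9
 (.cons 256 0x77ecfffbe9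
 (.cons 128 0x200000000900080000051e5b677a90000000000000000000000000000000000000000000000000000000000000008
 (.cons 64 0x90600c33ef223ab00000000000000000282002628cfd0c1000000000000000061217a42bdc6126a00000000000000000000000000000008
 (.cons 32 0xcf000000004cf7f52e0000000052f2e22800000000787d7b400000000082c228400000000028c07c02000000000b61407c000000004482c4e00000000000040000
 (.cons 16 0x8ef80000fce400004543000034f9000025e40000bbaa00008a6800000cfa0000318200002da70000afc8000060c400001f830000ee9700000b8b000020d400000000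
 (.cons 8 0xea000c00f1006c00cb00bd0046004e004d007200c2005400d200cb003000030092006d00aa00a200fa0026007900e70061008c00cc00f5001f001b0022001300930000
 (.cons 4 0x10a020600040304090505050d0e0f0d0e01000f0e0a0a0b0a030001020000010200090f0c0d0b050104050206080001080e06060f020f040501010f08020f000406070400
 (.cons 2 0x321330020333203313110122330102220220022031232211030011122122213222030321330020333203313110122330102220220022031232211030011122122213222030
 (.cons 1 0x555011110005404510014415405050051551155114444105400554455544110515010555011110005404510014415405050051551155114444105400554455544110515010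
 .nil))))))))))))))))))))]
theorem u43_acts : ActsL 552 e552 (wordG (slpG sU43 (mM.map cm)) [1, 0]) (wordN (slpN sU43 mMN) [1, 0]) :=
  (mM_acts.slp (K := 10) sU43 (by decide +kernel)).word _
theorem u43_mem : ∀ g ∈ wordG (slpG sU43 (mM.map cm)) [1, 0], g ∈ CMc ⊓ stabilizer CC (e275 0) :=
  mem_inf_of (wordG_mem (slpG_mem _ mM_mem) _) (u43_acts.stab_pt (b := 1) (by norm_num) (by decide +kernel))
theorem coe_e275 : (e275 0 : VV) = vc 0x631084210842108421084210842108 := (tabL552.coe (i := 1) (by norm_num)).trans (by decide +kernel)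
theorem D275 (a : Nat) (h : a < 50000) : D1 M275 (e275 0) a = mset 552 e552 (Nat.land 0xffffffffffffffffffffffffffffffffffffffffffffffffffffffffffffffffffffe (dotM 552 T552 0x631084210842108421084210842108 a 0)) := by
  rw [M275_eq, ← D1_mset tabL552 coe_e275 ⟨h, by norm_num⟩]; simp
theorem mcl_rank : (D1 M275 (e275 0) 8).ncard = 112 ∧ (D1 M275 (e275 0) 16).ncard = 162 ∧ ∀ y ∈ M275, ∀ y' ∈ M275, y ≠ e275 0 →
    dotInt (e275 0 : VV) y = dotInt (e275 0 : VV) y' → ∃ g ∈ CMc ⊓ stabilizer CC (e275 0), g • y = y' := by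
  have a := ActsL.trM (d := 10) (k := 7) (b := 24) (c := 112) tab552.inj (by norm_num) u43_acts u43_mem (D275 8 (by norm_num))
    (by decide +kernel)
  have b := ActsL.trM (d := 10) (k := 7) (b := 2) (c := 162) tab552.inj (by norm_num) u43_acts u43_mem (D275 16 (by norm_num))
    (by decide +kernel)
  refine ⟨a.1, b.1, fun y hy y' hy' n e => ?_⟩
  have : M275 = {e275 0} ∪ D1 M275 (e275 0) (8 : Nat) ∪ D1 M275 (e275 0) (16 : Nat) := by
    rw [D275 8 (by norm_num), D275 16 (by norm_num), e275_zero, ← mset_one_shiftLeft e552 (n := 552) (by norm_num), ← mset_or,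
      ← mset_or, M275_eq]
    exact congrArg _ ((beq_iff _ _).1 (by decide +kernel))
  obtain (c | c) | c := this.le hy
  · exact absurd c n
  · exact a.2.2 y c y' ⟨hy', e ▸ c.2⟩
  · exact b.2.2 y c y' ⟨hy', e ▸ c.2⟩
end
end H9
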