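import Cfsg.Agent.H27.LCo1
import Cfsg.Agent.S0375
/-! Lattices containing a frame, with the right number of minimal vectors. -/
set_option autoImplicit false
namespace H9
noncomputable section
open Cfsg H27 Finset
attribute [-simp] Fintype.sum_option

structure Pre (K : AddSubgroup VV) : Prop where
  d16 : ∀ x ∈ K, 16 ∣ sqNorm x
  n16 : ∀ x ∈ K, sqNorm x ≠ 16
  four : ∀ y : VV, (∑ i, y i) % 2 = 0 → (fun i => 4 * y i) ∈ K
def CodeP (K : AddSubgroup VV) (c : Finset GolayPt) : Prop := ∃ x ∈ K, ∀ i, x i % 4 = 2 * ind c i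
instance (K : AddSubgroup VV) : DecidablePred (CodeP K) := Classical.decPred _
namespace Pre
variable {K : AddSubgroup VV} (h : Pre K) {x y : VV}
include h
theorem dot8 (hx : x ∈ K) (hy : y ∈ K) : 8 ∣ dotInt x y := by
  have := h.d16 _ (K.add_mem hx hy); have := h.d16 x hx; have := h.d16 y hy; have := sqNorm_add x y; omega
theorem par (hx : x ∈ K) (i j : GolayPt) : x i % 2 = x j % 2 := by
  have := h.dot8 hx (h.four (Pi.single i 1 + Pi.single j 1) (by simp [sum_add_distrib]))
  rw [show (fun k => 4 * (Pi.single i 1 + Pi.single j 1 : VV) k) = Pi.single i 4 + Pi.single j 4 from funext fun k => by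
    simp only [Pi.add_apply, Pi.single_apply]; split_ifs <;> rfl, dot_add, dot_single, dot_single] at this
  omega
theorem cases {c : Finset GolayPt} (hc : CodeP K c) :
    (fun i => 2 * ind c i) ∈ K ∨ ∀ p, (fun i => 2 * ind c i) - Pi.single p 4 ∈ K := by
  obtain ⟨x, hx, a⟩ := hc
  rcases Int.emod_two_eq_zero_or_one (∑ i, x i / 4) with b | b
  · exact .inl (by convert K.sub_mem hx (h.four _ b) using 1; funext i; have := a i; simp only [Pi.sub_apply]; omega)
  · refine .inr fun p => ?_
    convert K.sub_mem hx (h.four (fun i => x i / 4 + (Pi.single p 1 : VV) i) (by simp [sum_add_distrib]; omega)) using 1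
    funext i; have := a i; simp only [Pi.sub_apply, Pi.single_apply]; split_ifs <;> omega
theorem wt {c : Finset GolayPt} (hc : CodeP K c) : 4 ∣ c.card ∧ c.card ≠ 4 := by
  have a : sqNorm (fun i => 2 * ind c i) = 4 * c.card := by
    rw [← sum_ind, mul_sum]; exact sum_congr rfl fun i _ => by rcases ind01 c i with u | u <;> simp [u.2]
  rcases h.cases hc with b | b
  · have := h.d16 _ b; have := h.n16 _ b; omega
  · have e : ∀ p, sqNorm ((fun i => 2 * ind c i) - Pi.single p 4) = 4 * c.card + 16 - 16 * ind c p := fun p => by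
      rw [sqNorm_sub, a, sqNorm_single, dot_single]; ring
    have := e none ▸ h.d16 _ (b none)
    refine ⟨by omega, fun k => ?_⟩
    obtain ⟨p, hp⟩ := card_pos.1 (k ▸ by norm_num : 0 < c.card)
    have := e p ▸ h.n16 _ (b p)
    rw [ind_mem hp] at this; omega
theorem code (hx : x ∈ K) (e : x none % 2 = 0) (i : GolayPt) : x i % 4 = 2 * ind (univ.filter fun i => x i % 4 = 2) i := by
  have := h.par hx i none
  rcases ind01 (univ.filter fun i => x i % 4 = 2) i with u | u <;> rw [u.2] <;> have := u.1 <;> simp at this <;> omega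
theorem eq_leech {b : VV} (hb : b ∈ K) (h1 : ∀ i, b i % 4 = 1) (hc : ∀ c, CodeP K c ↔ c ∈ GC) : K = leechLattice := by
  have ev : ∀ x ∈ K, x none % 2 = 0 → ∃ c, IsL x 0 c := fun x hx e => by
    refine ⟨_, .inl rfl, (hc _).1 ⟨x, hx, h.code hx e⟩, fun i => (h.code hx e i).trans (zero_add _).symm, ?_⟩
    have a := h.dot8 hb hx
    have : (8 : ℤ) ∣ ∑ i, (b i * x i - x i) := dvd_sum fun i _ => ⟨b i / 4 * (x i / 2), by
      have := h.par hx i none; have := h1 i
      rw [show b i = 4 * (b i / 4) + 1 by omega, show x i = 2 * (x i / 2) by omega]; simp only [Int.mul_ediv_cancel_left, ne_eq,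
        OfNat.ofNat_ne_zero, not_false_eq_true, show (4 * (b i / 4) + 1) / 4 = b i / 4 by omega]; ring⟩
    rw [sum_sub_distrib] at this
    change 8 ∣ dotInt b x - _ at this
    omega
  have lb : IsL b 1 ∅ := ⟨.inr rfl, empty_mem_GC, fun i => by simp [h1, ind], by
    have a := h.d16 b hb
    have : (16 : ℤ) ∣ ∑ i, (b i ^ 2 - (3 - 2 * b i)) := dvd_sum fun i _ => ⟨b i / 4 * (b i / 4 + 1), by
      have := h1 i
      generalize b i = t at *
      obtain ⟨k, rfl⟩ : ∃ k, t = 4 * k + 1 := ⟨t / 4, by omega⟩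
      rw [show (4 * k + 1) / 4 = k by omega]; ring⟩
    rw [sum_sub_distrib, sum_sub_distrib, sum_const_pt, ← mul_sum] at this
    change 16 ∣ sqNorm b - _ at this
    omega⟩
  refine le_antisymm (fun x hx => ?_) (LL_le lb hb (fun x hx => ?_) fun j => ?_)
  · rcases Int.emod_two_eq_zero_or_one (x none) with e | e
    · exact (ev x hx e).choose_spec.mem
    · simpa using leechLattice.add_mem (ev _ (K.sub_mem hx hb) (by have := h1 none; simp only [Pi.sub_apply]; omega)).choose_spec.mem lb.mem
  · have c : GE.fs x ∈ GC := fs_mem_GC_of (by revert x; decide +kernel)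
    refine (h.cases ((hc _).2 c)).resolve_right fun e => ?_
    have := (ev _ (e (some 0)) (by simp)).choose_spec.sm
    have := four_dvd_card c
    simp only [Pi.sub_apply, sum_sub_distrib, ← mul_sum, sum_ind, sum_pi_single', mem_univ, if_true] at *
    omega
  · convert h.four (Pi.single j 1 + Pi.single none 1) (by simp [sum_add_distrib]) using 1
    funext k; simp only [Pi.add_apply, Pi.single_apply]; split_ifs <;> rfl
theorem oct_le : (univ.filter fun c => CodeP K c ∧ c.card = 8).card ≤ 759 := by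
  have a := card_biUnion (s := univ.filter fun c => CodeP K c ∧ c.card = 8) (t := powersetCard 5) fun c hc d hd n =>
    disjoint_left.2 fun s u v => by
      obtain ⟨⟨x, hx, a⟩, c8⟩ := (mem_filter.1 hc).2
      obtain ⟨⟨y, hy, b⟩, d8⟩ := (mem_filter.1 hd).2
      have e := h.wt (c := symmDiff c d) ⟨_, K.add_mem hx hy, fun i => by
        have := a i; have := b i; rw [ind_symmDiff, Pi.add_apply]; omega⟩
      have := card_symmDiff_add c d
      have := card_le_card (subset_inter (mem_powersetCard.1 u).1 (mem_powersetCard.1 v).1)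
      have := (mem_powersetCard.1 u).2
      exact n (symmDiff_eq_empty.1 (card_eq_zero.1 (by omega)))
  rw [sum_congr rfl fun c hc => by rw [card_powersetCard, (mem_filter.1 hc).2.2], sum_const] at a
  have b := card_le_card (biUnion_subset.2 fun c _ => powersetCard_mono (subset_univ c) :
    (univ.filter fun c => CodeP K c ∧ c.card = 8).biUnion (powersetCard 5) ⊆ powersetCard 5 univ)
  rw [a, card_powersetCard, card_univ, card_pt, show Nat.choose 24 5 = 42504 by decide +kernel, show Nat.choose 8 5 = 56 from rfl] at b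
  simp only [smul_eq_mul] at b; omega
theorem even_le (S : Finset VV) (hS : ∀ x ∈ S, x ∈ K ∧ sqNorm x = 32 ∧ x none % 2 = 0) : S.card ≤ 98256 := by
  rw [← card_filter_add_card_filter_not (fun x => ∀ i, x i % 4 = 0)]
  refine (Nat.add_le_add (?_ : _ ≤ 1104) (card_le_mul_card_image_of_maps_to (f := fun x => univ.filter fun i => x i % 4 = 2)
    (t := univ.filter fun c => CodeP K c ∧ c.card = 8) ?_ 128 ?_)).trans (by have := h.oct_le; omega)
  · rw [← count_T (A := [-4, 0, 4]) (n := 2) (N := 1104) (by decide +kernel) (by decide +kernel), ← Set.ncard_coe_finset]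
    refine Set.ncard_le_ncard (fun x hx => ?_) ((finite_shell _).subset fun _ h => h.2.1)
    obtain ⟨a, b⟩ := mem_filter.1 hx
    have c := (hS x a).2.1
    have e : x = fun i => 4 * (x i / 4) := funext fun i => by have := b i; omega
    refine ⟨e ▸ (isL_four ?_).mem, c, fun i => ?_⟩
    · have : (2 : ℤ) ∣ ∑ i, ((x i / 4) ^ 2 - x i / 4) := dvd_sum fun i _ => (Int.even_mul_pred_self (x i / 4)).two_dvd.trans
        (dvd_of_eq (by ring))
      rw [e, show (fun i => 4 * (x i / 4)) = (4 : ℤ) • fun i => x i / 4 from rfl, sqNorm_smul] at c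
      rw [sum_sub_distrib] at this
      change _ ∣ sqNorm (fun i => x i / 4) - _ at this
      omega
    · have := abs_le_of_sqNorm (k := 5) (by norm_num) (by rw [c]; norm_num) i
      have := b i
      simp only [List.mem_cons, List.not_mem_nil, or_false]; omega
  all_goals
    have k : ∀ x ∈ S.filter fun x => ¬ ∀ i, x i % 4 = 0, (univ.filter fun i => x i % 4 = 2).card = 8 ∧
        ∀ i, x i ^ 2 = 4 * ind (univ.filter fun i => x i % 4 = 2) i := fun x hx => by
      obtain ⟨a, b⟩ := mem_filter.1 hx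
      obtain ⟨a, c, d⟩ := hS x a
      have e := h.code a d
      have w := h.wt ⟨x, a, e⟩
      generalize (univ.filter fun i => x i % 4 = 2) = s at *
      have l : ∀ i ∈ univ, 4 * ind s i ≤ x i ^ 2 := fun i _ => by
        have := e i
        rcases ind01 s i with u | u <;> rw [u.2] at this ⊢
        · obtain v | v : x i ≤ -2 ∨ 2 ≤ x i := by omega
          all_goals nlinarith
        · positivity
      have m := sum_le_sum l
      have n : s.card ≠ 0 := fun z => b fun i => by rw [e i, card_eq_zero.1 z]; simp [ind]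
      have o : ∑ i, 4 * ind s i = 4 * s.card := by rw [← mul_sum, sum_ind]
      unfold sqNorm at c
      exact ⟨by omega, fun i => ((sum_eq_sum_iff_of_le l).1 (by omega) i (mem_univ i)).symm⟩
  · exact fun x hx => mem_filter.2 ⟨mem_univ _, ⟨x, (hS x (mem_filter.1 hx).1).1, h.code (hS x (mem_filter.1 hx).1).1
      (hS x (mem_filter.1 hx).1).2.2⟩, (k x hx).1⟩
  · intro c hc
    have c8 := (mem_filter.1 hc).2.2
    obtain ⟨p, hp⟩ := card_pos.1 (c8 ▸ by norm_num : 0 < c.card)
    rw [show 128 = (c.erase p).powerset.card by rw [card_powerset, card_erase_of_mem hp, c8]; rfl]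
    refine card_le_card_of_injOn (fun x => (c.erase p).filter fun i => x i = 2) (fun x _ => mem_powerset.2 (filter_subset _ _))
      fun x hx y hy e => ?_
    obtain ⟨a, u⟩ := mem_filter.1 hx
    obtain ⟨b, v⟩ := mem_filter.1 hy
    have a' := u ▸ (k x a).2
    have b' := v ▸ (k y b).2
    have t : ∀ z : ℤ, z ^ 2 = 4 * 1 → z = 2 ∨ z = -2 := fun z e => sq_eq_sq_iff_eq_or_eq_neg.1 (e.trans rfl)
    have q : ∀ i, i ≠ p → x i = y i := fun i hi => by
      have r := a' i; have s := b' i
      rcases ind01 c i with w | w <;> rw [w.2] at r s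
      · have := Finset.ext_iff.1 e i
        simp only [mem_filter, mem_erase, ne_eq, hi, w.1, not_false_eq_true, true_and] at this
        have := t _ r; have := t _ s; omega
      · rw [pow_eq_zero_iff two_ne_zero |>.1 r, pow_eq_zero_iff two_ne_zero |>.1 s]
    have z : x - y = Pi.single p (x p - y p) := funext fun i => by
      by_cases g : i = p
      · simp [g]
      · simp [g, q i g]
    have n := h.n16 _ (K.sub_mem (hS x (mem_filter.1 a).1).1 (hS y (mem_filter.1 b).1).1)
    rw [z, sqNorm_single] at n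
    have r := a' p; have s := b' p
    rw [ind_mem hp] at r s
    refine funext fun i => (em (i = p)).elim (fun g => ?_) (q i)
    rcases t _ r with r | r <;> rcases t _ s with s | s <;> simp [g, r, s] at n ⊢
theorem odd_le {b : VV} (hb : b ∈ K) (h1 : b none % 2 = 1) (S : Finset VV) (hS : ∀ x ∈ S, x ∈ K ∧ sqNorm x = 32 ∧ x none % 2 = 1) :
    S.card ≤ 24 * (univ.filter (CodeP K)).card := by
  have u : ∀ x ∈ S, ∀ i, (x - b) i % 4 = 2 * ind (univ.filter fun i => (x - b) i % 4 = 2) i := fun x hx =>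
    h.code (K.sub_mem (hS x hx).1 hb) (by have := (hS x hx).2.2; rw [Pi.sub_apply]; omega)
  refine card_le_mul_card_image_of_maps_to (f := fun x => univ.filter fun i => (x - b) i % 4 = 2)
    (fun x hx => mem_filter.2 ⟨mem_univ _, _, K.sub_mem (hS x hx).1 hb, u x hx⟩) 24 fun c _ => ?_
  have k : ∀ x ∈ S, (univ.filter fun i => |x i| = 3).card = 1 ∧ ∀ i, |x i| ≠ 5 ∧ x i % 2 = 1 ∧ -5 ≤ x i ∧ x i ≤ 5 := fun x hx => by
    obtain ⟨a, c, d⟩ := hS x hx
    have b := abs_le_of_sqNorm (k := 5) (by norm_num) (by rw [c]; norm_num)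
    have e : sqNorm x = ∑ j, (1 + (8 * (if |x j| = 3 then 1 else 0) + 24 * (if |x j| = 5 then 1 else 0))) :=
      sum_congr rfl fun j _ => by
        have := b j; have := h.par a j none
        obtain e | e | e | e | e | e : x j = -5 ∨ x j = -3 ∨ x j = -1 ∨ x j = 1 ∨ x j = 3 ∨ x j = 5 := by omega
        all_goals rw [e]; decide
    rw [sum_add_distrib, sum_add_distrib, ← mul_sum, ← mul_sum, sum_boole, sum_boole, sum_const_pt, c] at e
    exact ⟨by omega, fun i => ⟨filter_eq_empty_iff (p := fun j => |x j| = 5).1 (card_eq_zero.1 (by omega)) (mem_univ i), (h.par a i none).trans d, b i⟩⟩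
  rw [show 24 = (powersetCard 1 (univ : Finset GolayPt)).card by rw [card_powersetCard, card_univ, card_pt]; rfl]
  refine card_le_card_of_injOn (fun x => univ.filter fun i => |x i| = 3)
    (fun x hx => mem_powersetCard.2 ⟨subset_univ _, (k x (mem_filter.1 hx).1).1⟩) fun x hx y hy e => funext fun i => ?_
  obtain ⟨a, v⟩ := mem_filter.1 hx
  obtain ⟨d, w⟩ := mem_filter.1 hy
  have r := v ▸ u x a i
  have s := w ▸ u y d i
  have := (k x a).2 i; have := (k y d).2 i
  have := Finset.ext_iff.1 e i
  simp only [mem_filter, mem_univ, true_and, Pi.sub_apply] at this r s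
  rcases abs_cases (x i) with l | l <;> rcases abs_cases (y i) with m | m <;> omega
end Pre
open Lead.St (l24)
def fsW (w : Fin 24 → ZMod 2) : Finset GolayPt := univ.filter fun p => w (l24 p) ≠ 0
theorem ind_fsW (w : Fin 24 → ZMod 2) (p : GolayPt) : ind (fsW w) p = (w (l24 p)).val := by
  simp only [ind, fsW, mem_filter, mem_univ, true_and]
  generalize w _ = a; revert a; decide
theorem card_fsW (w : Fin 24 → ZMod 2) : hammingNorm w = (fsW w).card :=
  card_equiv l24.symm fun i => by simp [fsW]
def cod (K : AddSubgroup VV) : Submodule (ZMod 2) (Fin 24 → ZMod 2) where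
  carrier := {w | CodeP K (fsW w)}
  zero_mem' := ⟨0, K.zero_mem, fun i => by simp [ind_fsW]⟩
  add_mem' := by
    rintro v w ⟨x, hx, a⟩ ⟨y, hy, b⟩
    refine ⟨_, K.add_mem hx hy, fun i => ?_⟩
    have := a i; have := b i
    simp only [ind_fsW, Pi.add_apply, ZMod.val_add] at *; omega
  smul_mem' c w hw := by
    obtain rfl | rfl : c = 0 ∨ c = 1 := by revert c; decide
    · exact ⟨0, K.zero_mem, fun i => by simp [ind_fsW]⟩
    · simpa using hw
theorem Pre.golay {K : AddSubgroup VV} (h : Pre K) (hc : {x | x ∈ K ∧ sqNorm x = 32}.ncard = 196560) :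
    (∃ b ∈ K, b none % 2 = 1) ∧ ∃ σ : Equiv.Perm GolayPt, ∀ c, CodeP K c ↔ c.map σ.toEmbedding ∈ GC := by
  have f : {x | x ∈ K ∧ sqNorm x = 32}.Finite := (finite_shell 32).subset fun _ h => h.2
  rw [Set.ncard_eq_toFinset_card _ f, ← card_filter_add_card_filter_not (fun x => x none % 2 = 0)] at hc
  have m : ∀ x ∈ f.toFinset, x ∈ K ∧ sqNorm x = 32 := fun x => f.mem_toFinset.1
  have a := h.even_le (f.toFinset.filter fun x => x none % 2 = 0) fun x hx => ⟨(m x (mem_filter.1 hx).1).1, (m x (mem_filter.1 hx).1).2,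
    (mem_filter.1 hx).2⟩
  have o : ∀ x ∈ f.toFinset.filter fun x => ¬ x none % 2 = 0, x ∈ K ∧ sqNorm x = 32 ∧ x none % 2 = 1 := fun x hx =>
    ⟨(m x (mem_filter.1 hx).1).1, (m x (mem_filter.1 hx).1).2, by have := (mem_filter.1 hx).2; omega⟩
  obtain ⟨b, hb⟩ := card_pos.1 (by omega : 0 < (f.toFinset.filter fun x => ¬ x none % 2 = 0).card)
  have l := h.odd_le (o b hb).1 (o b hb).2.2 _ o
  have s : ∀ c, fsW (fun i => if l24.symm i ∈ c then 1 else 0) = c := fun c => by ext; simp [fsW]
  have n : (univ.filter (CodeP K)).card ≤ Nat.card (cod K) := by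
    rw [← Nat.card_eq_finsetCard]
    exact Nat.card_le_card_of_injective (fun c => ⟨fun i => if l24.symm i ∈ c.1 then 1 else 0, show CodeP K _ from
      (s c.1).symm ▸ (mem_filter.1 c.2).2⟩) fun c d e => Subtype.ext ((s _).symm.trans ((congrArg fsW (Subtype.mk.inj e)).trans (s _)))
  have t : ∀ v ∈ cod K, ∀ w ∈ cod K, ∑ i, v i * w i = 0 := by
    rintro v ⟨x, hx, a⟩ w ⟨y, hy, b⟩
    have d := h.dot8 hx hy
    have : (8 : ℤ) ∣ ∑ p, (x p * y p - 4 * (ind (fsW v) p * ind (fsW w) p)) := dvd_sum fun p _ =>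
      ⟨2 * (x p / 4) * (y p / 4) + x p / 4 * ind (fsW w) p + y p / 4 * ind (fsW v) p, by
        have a := a p; have b := b p
        linear_combination (4 * (y p / 4) + 2 * ind (fsW w) p) * (by omega : x p = 4 * (x p / 4) + 2 * ind (fsW v) p) +
          x p * (by omega : y p = 4 * (y p / 4) + 2 * ind (fsW w) p)⟩
    rw [sum_sub_distrib, ← mul_sum] at this
    change 8 ∣ dotInt x y - _ at this
    have e := (ZMod.intCast_zmod_eq_zero_iff_dvd (∑ p, ind (fsW v) p * ind (fsW w) p) 2).2 (by omega)
    simpa [ind_fsW, ← l24.sum_comp] using e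
  have B := LinearMap.BilinForm.finrank_orthogonal (B := Matrix.toBilin' (1 : Matrix (Fin 24) (Fin 24) (ZMod 2)))
    (Matrix.nondegenerate_toBilin'_iff.2 (Matrix.nondegenerate_of_det_ne_zero (by simp))) (cod K)
  have r := Submodule.finrank_mono (show cod K ≤ LinearMap.BilinForm.orthogonal (Matrix.toBilin' 1) (cod K) from fun w hw v hv => by
    simpa [LinearMap.BilinForm.IsOrtho, Matrix.toBilin'_apply', dotProduct] using t v hv w hw)
  rw [B, Module.finrank_fin_fun] at r
  rw [Module.natCard_eq_pow_finrank (K := ZMod 2), Nat.card_zmod] at n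
  have d : 12 ≤ Module.finrank (ZMod 2) (cod K) := (Nat.pow_le_pow_iff_right one_lt_two).1 (by omega)
  obtain ⟨e, he⟩ := Cfsg.Agent.S0375.result (cod K) (by omega) t (fun w hw => card_fsW w ▸ (h.wt hw).1) fun w hw => card_fsW w ▸ (h.wt hw).2
  refine ⟨⟨b, (o b hb).1, (o b hb).2.2⟩, l24.trans e, fun c => ?_⟩
  have u : support₂ (fun p => if (l24.trans e).symm p ∈ c then (1 : ZMod 2) else 0) = c.map (l24.trans e).toEmbedding := by
    ext; rw [mem_map_equiv, support₂, mem_filter, and_iff_right (mem_univ _)]; split_ifs with z <;> simp only [z] <;> decide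
  rw [← u, GC, supports, support₂_inj.mem_set_image, SetLike.mem_coe, he]
  simp only [Equiv.symm_trans_apply, Equiv.symm_apply_apply]
  exact iff_of_eq (congrArg (CodeP K) (s c).symm)
/-- the lattice is the Leech lattice up to a signed permutation of the coordinates -/
theorem Pre.leech {K : AddSubgroup VV} (h : Pre K) (hc : {x | x ∈ K ∧ sqNorm x = 32}.ncard = 196560) :
    ∃ S : VV ≃+ VV, (∀ x, sqNorm (S x) = sqNorm x) ∧ ∀ x, x ∈ K ↔ S x ∈ leechLattice := by
  obtain ⟨⟨b, hb, b1⟩, σ, e⟩ := h.golay hc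
  let ε : GolayPt → ℤ := fun i => if b i % 4 = 1 then 1 else -1
  have a : ∀ i, ε i = 1 ∨ ε i = -1 := fun i => by simp only [ε]; split_ifs <;> simp
  have a2 : ∀ i, ε i * ε i = 1 := fun i => by rcases a i with u | u <;> simp [u]
  let S : VV ≃+ VV := ⟨⟨fun x i => ε (σ.symm i) * x (σ.symm i), fun x i => ε i * x (σ i),
    fun x => funext fun i => by simp [← mul_assoc, a2], fun x => funext fun i => by simp [← mul_assoc, a2]⟩,
    fun x y => funext fun i => mul_add _ _ _⟩
  have p : ∀ x i, S x (σ i) = ε i * x i := fun x i => by simp [S]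
  have n : ∀ x, sqNorm (S x) = sqNorm x := fun x => by
    rw [sqNorm, ← Equiv.sum_comp σ]; exact sum_congr rfl fun i _ => by rw [p, mul_pow, pow_two (ε i), a2, one_mul]
  refine ⟨S, n, fun x => ?_⟩
  rw [← Pre.eq_leech (K := K.map S.toAddMonoidHom) (b := S b) ⟨?_, ?_, fun y hy => ?_⟩ ⟨b, hb, rfl⟩ (σ.forall_congr_right.1 fun i => ?_)
    fun c => ?_]
  · exact (AddSubgroup.mem_map_iff_mem S.injective).symm
  · rintro _ ⟨x, hx, rfl⟩; exact (n x).symm ▸ h.d16 x hx
  · rintro _ ⟨x, hx, rfl⟩; exact (n x).symm ▸ h.n16 x hx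
  · refine ⟨_, h.four (S.symm y) ?_, funext (σ.forall_congr_right.1 fun i => (p _ i).trans ?_)⟩
    · have : (2 : ℤ) ∣ ∑ i, (S.symm y i - y (σ i)) := dvd_sum fun i _ => by
        change 2 ∣ ε i * y (σ i) - _
        rcases a i with u | u <;> rw [u] <;> omega
      rw [sum_sub_distrib, Equiv.sum_comp σ] at this; omega
    · change ε i * (4 * (ε i * y (σ i))) = _
      linear_combination 4 * y (σ i) * a2 i
  · rw [p]; have := h.par hb i none; simp only [ε]; split_ifs <;> omega
  · have k := e (c.map σ.symm.toEmbedding)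
    have z : ∀ i, ind (c.map σ.symm.toEmbedding) i = ind c (σ i) := fun i => by simp [ind]
    rw [show (c.map σ.symm.toEmbedding).map σ.toEmbedding = c by ext; simp] at k
    rw [← k]
    refine ⟨?_, fun ⟨x, hx, u⟩ => ⟨_, ⟨x, hx, rfl⟩, σ.forall_congr_right.1 fun i => ?_⟩⟩
    · rintro ⟨_, ⟨x, hx, rfl⟩, u⟩
      refine ⟨x, hx, fun i => ?_⟩
      have := (congrArg (· % 4) (p x i)).symm.trans (u (σ i))
      rw [z]; rcases a i with v | v <;> rw [v] at this <;> omega
    · have := z i ▸ u i
      refine (congrArg (· % 4) (p x i)).trans ?_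
      rcases a i with v | v <;> rw [v] <;> omega
end
end H9
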