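import Cfsg.Agent.H27.MX
import Cfsg.Agent.H27.Cls
import Cfsg.Agent.H22.IsoE
/-! Small tools for concrete subgroups of the Mathieu groups: projective points, partitions, kernels. -/
set_option autoImplicit false
namespace H9
open Cfsg H27 MulAction Matrix
open scoped Pointwise MatrixGroups

section lines
variable {ι K : Type*} [Fintype ι] [DecidableEq ι] [Field K]
/-- sets of vectors, with the action of the special linear group -/
def Ln (ι K : Type*) := Set (ι → K)
instance slLn : MulAction (Matrix.SpecialLinearGroup ι K) (Ln ι K) where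
  smul g S := (fun v => g.1 *ᵥ v) '' S
  one_smul S := by
    change (fun v => (1 : Matrix ι ι K) *ᵥ v) '' S = S
    simp only [one_mulVec]; exact Set.image_id' _
  mul_smul a b S := by
    change (fun v => (a.1 * b.1) *ᵥ v) '' S = (fun v => a.1 *ᵥ v) '' ((fun v => b.1 *ᵥ v) '' S)
    refine Eq.trans ?_ (Set.image_image _ _ _).symm
    congr 1; funext v; exact (mulVec_mulVec _ _ _).symm
def ln (v : ι → K) : Ln ι K := Set.range fun c : K => c • v
theorem smul_ln (g : Matrix.SpecialLinearGroup ι K) (v : ι → K) : g • ln v = ln (g.1 *ᵥ v) := by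
  change (fun v => g.1 *ᵥ v) '' Set.range _ = Set.range _
  rw [← Set.range_comp]; congr 1; funext c; exact mulVec_smul _ _ _
omit [Fintype ι] [DecidableEq ι] in
theorem ln_smul {c : K} (hc : c ≠ 0) (v : ι → K) : ln (c • v) = ln v :=
  Set.ext fun _ => ⟨fun ⟨d, h⟩ => ⟨d * c, (mul_smul d c v).trans h⟩,
    fun ⟨d, h⟩ => ⟨d * c⁻¹, by rw [← h]; simp only [smul_smul, inv_mul_cancel_right₀ hc]⟩⟩
theorem acts_ln {m : Nat} {v : Nat → ι → K} {g : Matrix.SpecialLinearGroup ι K} {N : Net} (h1 : N.valid m = true)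
    (h : ∀ i < m, ∃ c : K, c ≠ 0 ∧ g.1 *ᵥ v i = c • v (N.fn i)) : Acts m (fun i => ln (v i)) g N :=
  ⟨Net.ok_of_valid h1, fun i hi => by obtain ⟨c, a, b⟩ := h i hi; rw [smul_ln, b, ln_smul a]⟩
omit [Fintype ι] [DecidableEq ι] in
theorem ln_injOn {m : Nat} {v : Nat → ι → K} (h : ∀ i < m, ∀ j < m, ∀ c : K, c • v j = v i → i = j) :
    Set.InjOn (fun i => ln (v i)) {j | j < m} := fun i hi j hj a => by
  obtain ⟨c, b⟩ : v i ∈ Set.range fun c : K => c • v j :=
    (show Set.range (fun c : K => c • v i) = Set.range fun c : K => c • v j from a) ▸ ⟨1, one_smul _ _⟩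
  exact h i hi j hj c b
theorem center_ln [Nonempty ι] {g : Matrix.SpecialLinearGroup ι K} (h : g ∈ Subgroup.center _) (v : ι → K) : g • ln v = ln v := by
  obtain ⟨r, a, b⟩ := Matrix.SpecialLinearGroup.mem_center_iff.1 h
  have : r ≠ 0 := by rintro rfl; rw [zero_pow Fintype.card_ne_zero] at a; exact zero_ne_one a
  rw [smul_ln, show g.1 = scalar ι r from b.symm, ← ln_smul this v]
  congr 1; ext i; simp [mulVec_diagonal]
end lines

variable {G Ω : Type*} [Group G] [MulAction G Ω]

theorem iso_psl {F K : Type*} [Field F] [Fintype F] [Field K] [Fintype K] (hF : Fintype.card F = Fintype.card K)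
    {n m k c : Nat} [NeZero m] [NeZero n] {e : Nat → Ω} (he : Set.InjOn e {j | j < m}) {gs : List G} {Ms : List Net}
    (h : ActsL m e gs Ms) {H : Subgroup G} [Finite H] (hH : ∀ g ∈ gs, g ∈ H) (hc : Nat.card H ≤ c)
    {v : Nat → Fin n → K} (hv : ∀ i < m, ∀ j < m, ∀ c : K, c • v j = v i → i = j) {As : List SL(n, K)}
    (hA : ActsL m (fun i => ln (v i)) As Ms) (hX : Nat.card PSL(n, K) ≤ c) (hn : m ≤ 2 ^ k)
    (S : List (List Nat × Net)) (sel : List Nat) (L : List (Nat × Nat × Nat))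
    (hS : and' (slpChk k m S Ms) (Nat.beq (chain k m L (wordN (slpN S Ms) sel)) c) = true) : Nonempty (H ≃* PSL(n, F)) :=
  ⟨(h.iso_cover he (ln_injOn hv) hA hH hc (QuotientGroup.mk' (Subgroup.center _))
    (fun g hg i _ => center_ln ((QuotientGroup.eq_one_iff g).1 hg) _) hX hn S sel L hS).some.trans
    (_root_.H22.quotCenterCongr (_root_.H22.slCongr (FiniteField.ringEquivOfCardEq hF) (Fin n))).symm⟩

theorem tabc {X : Set Ω} {n : Nat} {e : Nat → Ω} (he : Set.InjOn e {j | j < n}) (hm : ∀ i < n, e i ∈ X)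
    (hf : X.Finite) (hc : X.ncard ≤ n) : Tab X n e := by
  have T : Tab (mset n e (ones n)) n e := ⟨he, fun i hi => ⟨i, ⟨hi, (testBit_ones n i).2 hi⟩, rfl⟩,
    fun _ ⟨i, hi, a⟩ => ⟨i, hi.1, a⟩⟩
  rwa [Set.eq_of_subset_of_ncard_le (s := mset n e (ones n)) (by rintro _ ⟨i, hi, rfl⟩; exact hm i hi.1)
    (by rwa [T.ncard]) hf] at T

/-- a subgroup of a subgroup is generated by listed elements -/
theorem map_eq_cl {d n c : Nat} {e : Nat → Ω} (he : Set.InjOn e {j | j < n}) (hn : n ≤ 2 ^ d) {H : Subgroup G} [Finite H]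
    {N : Subgroup H} (hN : Nat.card N ≤ c) {ks : List G} {Ks : List Net} (a : ActsL n e ks Ks)
    (hk : ∀ k ∈ ks, ∃ h : k ∈ H, (⟨k, h⟩ : H) ∈ N) (L : List (Nat × Nat × Nat)) (hL : chain d n L Ks = c) {x : H}
    (hx : x ∈ N) : (x : G) ∈ cl ks := by
  have := Finite.of_equiv _ (N.equivMapOfInjective H.subtype H.subtype_injective).toEquiv
  rw [(a.cl_eq he hn L (H := N.map H.subtype) (fun k h => by obtain ⟨u, v⟩ := hk k h; exact ⟨_, v, rfl⟩)
    ((Subgroup.card_map_of_injective H.subtype_injective).trans_le hN) hL).1]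
  exact ⟨x, hx, rfl⟩

section fam
variable {m : Nat} (E : Enum Ω m) [Fintype Ω] [DecidableEq Ω]
theorem tfam_inj {k n P : Nat} (h : allN n (fun i => allN i fun j => anyL (famL m k P i) fun x =>
    not' (elemL x (famL m k P j))) = true) : Set.InjOn (E.tfam k P) {j | j < n} := by
  simp only [allN_iff, anyL_iff, not'_eq, Bool.not_eq_true', Bool.eq_false_iff, ne_eq, elemL_iff] at h
  have key : ∀ i < n, ∀ j < i, E.tfam k P i ≠ E.tfam k P j := fun i hi j hj a => by
    obtain ⟨x, b, c⟩ := h i hi j hj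
    have l := Enum.famL_lt m k P i x b
    refine c ((E.fs_mem_fam (Enum.famL_lt m k P j) l).1 ?_)
    change _ ∈ E.tfam k P j
    rw [← a]; exact (E.fs_mem_fam (Enum.famL_lt m k P i) l).2 b
  intro i hi j hj a
  rcases lt_trichotomy i j with c | c | c
  exacts [absurd a.symm (key j hj i c), c, absurd a (key i hi j c)]
omit [DecidableEq Ω] in
theorem tblk_eq_iff {K n L i : Nat} {p q : Ω} :
    E.tblk K n L i p = E.tblk K n L i q ↔ Enum.sameB K n L (E.ix p) (E.ix q) i :=
  ⟨fun a => E.mem_tblk.1 (a ▸ E.self_mem_tblk K n L i q), fun a => Finset.ext fun _ => by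
    rw [E.mem_tblk, E.mem_tblk]
    exact ⟨fun h k hk => (a k hk).symm.trans (h k hk), fun h k hk => (a k hk).trans (h k hk)⟩⟩
theorem filter_meet (K n L i : Nat) (Y : Finset Ω) :
    (E.tpart K n L i).filter (fun t => (t ∩ Y).Nonempty) = Y.image (E.tblk K n L i) := by
  ext t
  simp only [Finset.mem_filter, Finset.mem_image]
  constructor
  · rintro ⟨a, p, b⟩
    rw [Finset.mem_inter] at b
    exact ⟨p, b.2, (E.mem_tpart_iff b.1).1 a⟩
  · rintro ⟨p, a, rfl⟩
    exact ⟨E.tblk_mem_tpart .., p, Finset.mem_inter.2 ⟨E.self_mem_tblk .., a⟩⟩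
end fam

theorem card_three {α : Type*} [DecidableEq α] (a b c : α) : ({a, b, c} : Finset α).card =
    if a = b then (if a = c then 1 else 2) else (if a = c ∨ b = c then 2 else 3) := by
  by_cases h1 : a = b <;> by_cases h2 : a = c <;> by_cases h3 : b = c <;> simp_all [Finset.card_insert_of_notMem]

end H9
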