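import Cfsg.Agent.H9.Mz1
import Cfsg.Agent.H27.Br
/-! Tables of subsets given by lists of masks; kernels on invariant families. -/
set_option autoImplicit false
namespace H9
open Cfsg H27 MulAction
open scoped Pointwise

noncomputable def lE (l : List Nat) (i : Nat) : Finset GolayPt := GE.fs (nth 0 l i)
noncomputable def lChk (m : Nat) (l : List Nat) (N M : Net) : Bool :=
  and' (M.valid m) (allN m fun i => Nat.beq (N.app (nth 0 l (M.fn i))) (nth 0 l i))
theorem toL {gs : List MM} {Ns Ms : List Net} (a : ActsL 24 GE.e gs Ns) {m : Nat} {l : List Nat}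
    (h : all2 (lChk m l) Ns Ms = true) : ActsL m (lE l) gs Ms :=
  a.map2 (fun b c => by
    simp only [lChk, and'_eq, Bool.and_eq_true, allN_iff, beq_iff] at c
    exact ⟨Net.ok_of_valid c.1, fun i hi => b.smul_gfs (c.2 i hi)⟩) h
theorem lE_inj {m : Nat} {l : List Nat} (h : allN m (fun i => and' (Nat.ble (nth 0 l i) 16777215)
    (allN i fun j => not' (Nat.beq (nth 0 l i) (nth 0 l j)))) = true) : Set.InjOn (lE l) {j | j < m} := by
  simp only [allN_iff, and'_eq, Bool.and_eq_true, not'_eq, Bool.not_eq_true', Bool.eq_false_iff, ne_eq, beq_iff,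
    Nat.ble_eq] at h
  intro i hi j hj a
  have b := GE.fs_inj (Nat.lt_succ_of_le (h i hi).1) (Nat.lt_succ_of_le (h j hj).1) a
  rcases lt_trichotomy i j with c | c | c
  exacts [absurd b.symm ((h j hj).2 i c), c, absurd b ((h i hi).2 j c)]
theorem tab_fam {l : List Nat} (h : allN l.length (fun i => and' (Nat.ble (nth 0 l i) 16777215)
    (allN i fun j => not' (Nat.beq (nth 0 l i) (nth 0 l j)))) = true) : Tab (GE.fam l : Set (Finset GolayPt)) l.length (lE l) :=
  ⟨lE_inj h, fun i hi => GE.mem_fam.2 ⟨_, by rw [nth_eq, List.getD_eq_getElem _ _ hi]; exact List.getElem_mem _, rfl⟩,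
    fun x hx => by
      obtain ⟨y, a, rfl⟩ := GE.mem_fam.1 hx
      obtain ⟨i, hi, rfl⟩ := List.getElem_of_mem a
      exact ⟨i, hi, by rw [lE, nth_eq, List.getD_eq_getElem _ _ hi]⟩⟩

variable {G Ω : Type*} [Group G] [MulAction G Ω]
theorem card_fixing_mul [DecidableEq Ω] {s : Finset Ω} {m : Nat} [NeZero m] {e : Nat → Ω} (T : Tab (s : Set Ω) m e)
    {gs : List G} {Ms : List Net} (h : ActsL m e gs Ms) (hH : cl gs = stabilizer G s) :
    Nat.card (fixingSubgroup G (s : Set Ω)) * Nat.card (netGrp m Ms) = Nat.card (stabilizer G s) := by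
  obtain ⟨N, -, a, -, b⟩ := h.quot_iso T.inj hH ⟨MulEquiv.refl _⟩
  rw [← card_ker_resHom, ← b, show (resHom G s).ker = N from Subgroup.ext fun g => by
    rw [mem_ker_resHom, a, ← T.forall_iff (P := fun x => (g : G) • x = x)]; rfl]

/-- an explicit normal subgroup of exponent `p` -/
theorem exists_normal_cl {H : Subgroup MM} {gs ks : List MM} {Ns Ks : List Net} (h : ActsL 24 GE.e gs Ns) (hH : cl gs = H)
    (a : ActsL 24 GE.e ks Ks) (hk : ∀ k ∈ ks, k ∈ H) {C : PcCert} {L : List (Nat × Nat × Nat)} {c p : Nat}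
    {W : List (List (List Nat))} (hc : and' (and' (pcChk 5 24 C Ks) (and' (Nat.beq (chain 5 24 L Ks) c) (Nat.beq (pcOrd C) c)))
      (and' (normChk 5 24 Ns Ks W) (and' (commChk 5 24 Ks) (powChk 5 24 p Ks))) = true) :
    ((cl ks).subgroupOf H).Normal ∧ Nat.card ((cl ks).subgroupOf H) = c ∧ ∀ x ∈ (cl ks).subgroupOf H, x ^ p = 1 := by
  rw [and'_eq, Bool.and_eq_true, and'_eq (pcChk _ _ _ _), and'_eq (normChk _ _ _ _ _), Bool.and_eq_true, Bool.and_eq_true] at hc
  exact ⟨normal_subgroupOf_of_le (hH ▸ h.norm (fun _ => MM_faithful) a W hc.2.1),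
    (Nat.card_congr (Subgroup.subgroupOfEquivOfLe (cl_le hk)).toEquiv).trans
      (a.pc_card (fun _ => MM_faithful) GE.injOn (by norm_num) hc.1.1 L hc.1.2),
    fun x hx => Subtype.ext (a.elemAb (fun _ => MM_faithful) hc.2.2 x hx)⟩

theorem range_octad {o : Finset GolayPt} (ho : o ∈ octads) : (resHom MM o).range = alternatingGroup o := by
  have a := card_stab_eq (G := MM) o
  have c : Fintype.card o = 8 := (Fintype.card_coe _).trans (mem_octads_iff.1 ho).2
  rw [card_fixing_octad ho] at a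
  obtain ⟨g, rfl⟩ := exists_smul_eO ho
  rw [(CjRel.stab g _).card, card_stab_eO] at a
  have b := (resHom MM (g • eO 0)).range.card_mul_index
  rw [Nat.card_perm, Nat.card_eq_fintype_card (α := ↥(g • eO 0)), c, show Nat.card (resHom MM (g • eO 0)).range = 20160 by omega] at b
  exact Equiv.Perm.eq_alternatingGroup_of_index_eq_two (by norm_num [Nat.factorial] at b; omega)

end H9
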