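import Cfsg.Agent.H9.Mz2
import Cfsg.Agent.H27.LOut
/-! Subgroups of given order in the Mathieu groups: Sylow counting and orbits of known subgroups. -/
set_option autoImplicit false
namespace H9
open Cfsg H27 MulAction Subgroup
open scoped Pointwise
noncomputable section

section general
variable {G : Type*} [Group G]
abbrev NZ (x : G) : Subgroup G := normalizer (zpowers x : Set G)
theorem card_NZ_dvd [Finite G] {A : Subgroup G} {x : G} {p : Nat} (hp : p.Prime) (ho : orderOf x = p)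
    (hc : ∀ σ ∈ A, σ * x = x * σ → σ ∈ zpowers x) : Nat.card ↥(A ⊓ NZ x) ∣ p * (p - 1) := by
  let φ := (zpowers x).normalizerMonoidHom.comp (inclusion (inf_le_right : A ⊓ NZ x ≤ NZ x))
  rw [card_eq_ker_mul φ]
  refine Nat.mul_dvd_mul ?_ ?_
  · rw [← ho, ← Nat.card_zpowers, ← card_map_of_injective (K := φ.ker) (A ⊓ NZ x).subtype_injective]
    refine card_dvd_of_le ?_
    rintro _ ⟨s, hs, rfl⟩
    have : inclusion (inf_le_right : A ⊓ NZ x ≤ NZ x) s ∈ (zpowers x).normalizerMonoidHom.ker := hs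
    rw [normalizerMonoidHom_ker] at this
    exact hc _ s.2.1 (this x (mem_zpowers x)).symm
  · have := (card_subgroup_dvd_card φ.range)
    rwa [IsCyclic.card_mulAut, Nat.card_zpowers, ho, Nat.totient_prime hp] at this
theorem sylow_cnt [Finite G] {H : Subgroup G} {x : G} {p : Nat} (hp : p.Prime) (ho : orderOf x = p) (hx : x ∈ H)
    (h2 : ¬ p ^ 2 ∣ Nat.card H) : ∃ n, n % p = 1 ∧ Nat.card H = n * Nat.card ↥(H ⊓ NZ x) := by
  have := Fact.mk hp
  have l : zpowers x ≤ H := zpowers_le.2 hx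
  have c : Nat.card ((zpowers x).subgroupOf H) = p ^ 1 := by
    rw [Nat.card_congr (subgroupOfEquivOfLe l).toEquiv, Nat.card_zpowers, ho, pow_one]
  let P : Sylow p H := (IsPGroup.of_card c).toSylow fun h => h2 (by
    rw [← ((zpowers x).subgroupOf H).card_mul_index, c, pow_succ]; exact Nat.mul_dvd_mul_left _ h)
  refine ⟨Nat.card (Sylow p H), ?_, ?_⟩
  · rw [card_sylow_modEq_one p H]; exact Nat.mod_eq_of_lt hp.one_lt
  · rw [P.card_eq_index_normalizer, ← (normalizer ((P : Subgroup H) : Set H)).index_mul_card]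
    congr 1
    rw [show (P : Subgroup H) = (zpowers x).subgroupOf H from rfl, ← subgroupOf_normalizer_eq l]
    exact Nat.card_congr (subOfEquiv _ _).toEquiv
/-- the possible orders of a Sylow normaliser -/
theorem NZ_cases [Finite G] {H : Subgroup G} {x : G} {p c m : Nat} (hp : p.Prime) (ho : orderOf x = p) (hx : x ∈ H)
    (hc : Nat.card H = c) (hm : Nat.card ↥(H ⊓ NZ x) ∣ m) (h0 : 0 < m) (h2 : ¬ p ^ 2 ∣ c) {P : Nat → Prop}
    (h : ∀ d ∈ m.divisors, c % d = 0 → c / d % p = 1 → P d) : P (Nat.card ↥(H ⊓ NZ x)) := by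
  obtain ⟨n, a, b⟩ := sylow_cnt hp ho hx (hc ▸ h2)
  refine h _ (Nat.mem_divisors.2 ⟨hm, h0.ne'⟩) (by rw [← hc, b, Nat.mul_mod_left]) ?_
  rw [← hc, b, Nat.mul_div_cancel _ Nat.card_pos, a]
theorem NZ_le [Finite G] {A H : Subgroup G} (hA : H ≤ A) {x : G} {d : Nat} (h1 : Nat.card ↥(A ⊓ NZ x) ≤ d)
    (h2 : Nat.card ↥(H ⊓ NZ x) = d) {g : G} (hg : g ∈ A) (hn : g ∈ NZ x) : g ∈ H :=
  (show g ∈ H ⊓ NZ x from eq_of_le_of_card_ge (inf_le_inf_right _ hA) (h1.trans h2.ge) ▸ ⟨hg, hn⟩).1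
theorem mem_of_index_lt [Finite G] {K A : Subgroup G} (h : K ≤ A) {n p : Nat} (hc : Nat.card A = n * Nat.card K)
    (hp : p.Prime) (hn : n < p) {g : G} (hg : g ∈ A) (h1 : g ^ p = 1) : g ∈ K := by
  have i : K.relIndex A = n := by
    have := (K.subgroupOf A).index_mul_card
    rw [Nat.card_congr (subgroupOfEquivOfLe h).toEquiv, hc] at this
    exact Nat.eq_of_mul_eq_mul_right Nat.card_pos this
  obtain ⟨k, a, b, c⟩ := exists_pow_mem_of_relIndex_ne_zero (H := K) (K := A) (index_ne_zero_of_finite) hg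
  have : k.Coprime (orderOf g) := Nat.Coprime.coprime_dvd_right (orderOf_dvd_of_pow_eq_one h1)
    (Nat.coprime_of_lt_prime a.ne' (by omega) hp).symm
  exact (zpowers_le.2 c.1) (mem_zpowers_pow_iff.2 this)
theorem exists_conj_ge [Finite G] {A H P : Subgroup G} (hA : H ≤ A) (hP : P ≤ A) {p k : Nat} (hp : p.Prime)
    (c : Nat.card P = p ^ k) (hk : ¬ p ^ (k + 1) ∣ Nat.card A) (hH : p ^ k ∣ Nat.card H) :
    ∃ g ∈ A, ∃ H' : Subgroup G, CjRel g H' H ∧ P ≤ H' ∧ H' ≤ A := by
  have := Fact.mk hp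
  obtain ⟨Q, hQ⟩ := Sylow.exists_subgroup_card_pow_prime p hH
  have cq := (card_map_of_injective (K := Q) H.subtype_injective).trans hQ
  obtain ⟨g, hg, a⟩ := exists_conj_le_sylow hp hP c hk ((map_subtype_le Q).trans hA) (IsPGroup.of_card cq)
  have R := CjRel.of_map g (Q.map H.subtype)
  refine ⟨g⁻¹, A.inv_mem hg, _, (CjRel.of_map g H).symm, ?_, ?_⟩
  · rw [← eq_of_le_of_card_ge (H := (Q.map H.subtype).map (MulAut.conj g).toMonoidHom) (K := P) (by rintro _ ⟨x, hx, rfl⟩; exact a x hx)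
      (by rw [R.card, cq, c])]
    exact map_mono (map_subtype_le Q)
  · rintro _ ⟨x, hx, rfl⟩
    exact A.mul_mem (A.mul_mem hg (hA hx)) (A.inv_mem hg)
theorem exists_conj_mem [Finite G] {A H : Subgroup G} (hA : H ≤ A) {x : G} (hx : x ∈ A) {p : Nat} (hp : p.Prime)
    (ho : orderOf x = p) (hk : ¬ p ^ 2 ∣ Nat.card A) (hH : p ∣ Nat.card H) :
    ∃ g ∈ A, ∃ H' : Subgroup G, CjRel g H' H ∧ x ∈ H' ∧ H' ≤ A := by
  obtain ⟨g, a, H', b, c, d⟩ := exists_conj_ge hA (zpowers_le.2 hx) hp (k := 1) (by rw [Nat.card_zpowers, ho, pow_one]) hk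
    (by rwa [pow_one])
  exact ⟨g, a, H', b, c (mem_zpowers x), d⟩
theorem card_map_index {A : Subgroup G} (H : Subgroup A) : H.index * Nat.card (H.map A.subtype) = Nat.card A := by
  rw [card_map_of_injective A.subtype_injective, H.index_mul_card]
end general

/-- all unions of some of the masks -/
def subs (l : List Nat) : List Nat :=
  List.rec (motive := fun _ => List Nat) [0] (fun m _ ih => ih ++ ih.map (Nat.lor m)) l
def orM (l : List Nat) : Nat := List.rec (motive := fun _ => Nat) 0 (fun m _ ih => Nat.lor m ih) l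
theorem and_mem_subs {y : Nat} {l : List Nat} (h : ∀ m ∈ l, y &&& m = 0 ∨ y &&& m = m) : y &&& orM l ∈ subs l := by
  induction l with
  | nil => exact List.mem_singleton.2 (Nat.and_zero y)
  | cons m t ih =>
    have := ih fun x hx => h x (.tail _ hx)
    change y &&& (m ||| orM t) ∈ subs t ++ (subs t).map (Nat.lor m)
    rw [Nat.and_or_distrib_left]
    rcases h m (.head _) with a | a <;> rw [a]
    · rw [Nat.zero_or]; exact List.mem_append_left _ this
    · exact List.mem_append_right _ (List.mem_map_of_mem this)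
def orbs (Ns : List Net) (k : Nat) (R : List Nat) : List Nat := mapL (fun r => orb Ns k (Nat.shiftLeft 1 r)) R
theorem orb_sub {H : Subgroup MM} {gs : List MM} {Ns : List Net} (a : ActsL 24 GE.e gs Ns) (hH : ∀ g ∈ gs, g ∈ H)
    {k : Nat} {R : List Nat} {P : Nat → Bool} {b : Nat} (hb : b < 24)
    (hc : and' (and' (allL R fun r => Nat.ble r 23) (Nat.beq (orM (orbs Ns k R)) 16777215))
      (allL (subs (orbs Ns k R)) fun y => or' (not' (tb y b)) (P y)) = true) :
    ∃ y, P y = true ∧ H ≤ stabilizer MM (GE.fs y) ∧ H ≤ stabilizer MM (GE.fs (y ^^^ (2 ^ 24 - 1))) ∧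
      Nat.card H = pop24 y * Nat.card ↥(H ⊓ stabilizer MM (GE.e b)) ∧
      ∀ i < 24, i ≠ b → H ≤ stabilizer MM (GE.e i) → tb y i = false := by
  simp only [and'_eq, Bool.and_eq_true, allL_iff, beq_iff, Nat.ble_eq, or'_eq, Bool.or_eq_true, not'_eq,
    Bool.not_eq_true', tb_eq] at hc
  obtain ⟨y, hy, e⟩ := GE.exists_fs (Set.toFinite (orbit H (GE.e b))).toFinset
  have m : ∀ p, p ∈ GE.fs y ↔ p ∈ orbit H (GE.e b) := fun p => by rw [e, Set.Finite.mem_toFinset]
  have s : H ≤ stabilizer MM (GE.fs y) := fun g hg => Finset.eq_of_subset_of_card_le (fun q hq => by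
    obtain ⟨q, hq', rfl⟩ := Finset.mem_smul_finset.1 hq
    exact (m _).2 (mem_orbit_of_mem_orbit (⟨g, hg⟩ : H) ((m _).1 hq'))) (Finset.card_smul_finset _ _).ge
  have u := and_mem_subs (y := y) (l := orbs Ns k R) fun x hx => by
    rw [orbs, mapL_eq] at hx
    obtain ⟨r, hr, rfl⟩ := List.mem_map.1 hx
    have r24 : r < 24 := Nat.lt_succ_of_le (hc.1.1 r hr)
    by_cases z : y.testBit r = true
    · refine .inr (Nat.eq_of_testBit_eq fun j => ?_)
      rw [Nat.testBit_and, Bool.and_eq_right_iff_imp]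
      intro hj
      obtain ⟨j24, g, hg, c⟩ := a.orb_orbit hH k r24 hj
      rw [← GE.e_mem_fs j24, ← c, ← s hg]
      exact Finset.smul_mem_smul_finset ((GE.e_mem_fs r24).2 z)
    · refine .inl (Nat.eq_of_testBit_eq fun j => ?_)
      rw [Nat.testBit_and, Nat.zero_testBit, Bool.and_eq_false_imp, ← Bool.not_eq_true]
      intro c hj
      obtain ⟨j24, g, hg, d⟩ := a.orb_orbit hH k r24 hj
      rw [← GE.e_mem_fs j24, ← d, ← s hg, Finset.smul_mem_smul_finset_iff, GE.e_mem_fs r24] at c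
      exact z c
  rw [hc.1.2, show y &&& 16777215 = y from (Nat.and_two_pow_sub_one_eq_mod y 24).trans (Nat.mod_eq_of_lt hy)] at u
  refine ⟨y, (hc.2 y u).resolve_left ?_, s, fun g hg => ?_, ?_, fun i hi n f => ?_⟩
  · rw [(GE.e_mem_fs hb).1 ((m _).2 (mem_orbit_self _))]; exact Bool.noConfusion
  · rw [mem_stabilizer_iff, GE.fs_compl, mm_smul_compl, s hg]
  · rw [card_eq_orbit_mul H (GE.e b), ← ncard_coe_gfs]; congr 2; exact Set.ext fun p => (m p).symm
  · rw [tb_eq, ← Bool.not_eq_true, ← GE.e_mem_fs hi, m]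
    rintro ⟨g, c⟩
    have : GE.e b = GE.e i := (smul_left_cancel_iff g.1).1 (c.trans (f g.2).symm)
    exact n ((GE.e_eq_iff hb hi).1 this).symm

def cenF (N : Net) (r q F F1 : Nat) (Ps Os Os1 : List Nat) : Bool := forceL (cyL N r q) fun A =>
  and' (and' (and' (allL Ps isOct) (Nat.ble (Nat.succ q) 24)) (and' (refChk (Nat.lor (orL A) F) Os F1) (refChk F1 Os1 16777215)))
  (allN 24 fun p => or' (elemL p A) (forceL (cyL N r p) fun B => anyL Ps fun O => allC fun c =>
    or' (or' (not' (Nat.beq (pop24 c) 8)) (not' (Nat.beq (Nat.land c F) (Nat.land O F))))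
      (anyN r fun k => not' (Nat.beq (Nat.land (Nat.shiftRight c (nth 0 B k)) 1) (Nat.land (Nat.shiftRight O (nth 0 A k)) 1)))))
/-- elements that are self-centralising in a pointwise stabiliser -/
theorem cent_fix {g : MM} {N : Net} (a : Acts 24 GE.e g N) {r q F F1 : Nat} {Ps Os Os1 : List Nat} (hg : g ∈ fixM F)
    (hc : cenF N r q F F1 Ps Os Os1 = true) (σ : MM) (hσ : σ ∈ fixM F) (h : σ * g = g * σ) : σ ∈ zpowers g := by
  simp only [cenF, forceL_eq, and'_eq, Bool.and_eq_true, allN_iff, or'_eq, Bool.or_eq_true, elemL_iff, Nat.ble_eq,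
    allL_iff, anyL_iff] at hc
  obtain ⟨⟨⟨c1, hq⟩, c2, c4⟩, c3⟩ := hc
  have k : ∀ {τ : MM} {p : Nat}, p < 24 → τ * g = g * τ → τ • GE.e q = GE.e p → ∀ k,
      τ • GE.e (cy N k q) = GE.e (cy N k p) := fun hp u v k => by
    rw [← (a.cyc k _ hq).2, ← (a.cyc k _ hp).2, ← v, ← mul_smul, ← mul_smul, (Commute.pow_right u k).eq]
  have hp := GE.ix_lt (σ • GE.e q)
  have v := (GE.e_ix (σ • GE.e q)).symm
  rcases c3 _ hp with c | ⟨O, hO, c⟩
  · obtain ⟨i, hi, c⟩ := mem_cyL.1 c
    refine ⟨(i : ℤ), (zpow_natCast g i).trans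
      (inv_mul_eq_one.1 (mem_bot.1 (fixM_all ▸ fixM_le_of_refChk c4 (fixM_le_of_refChk c2 (mem_fixM'.2 fun j j24 b => ?_)))))⟩
    rcases Bool.or_eq_true _ _ ▸ (Nat.testBit_or _ _ _ ▸ b : ((orL _).testBit j || F.testBit j) = true) with b | b
    · obtain ⟨l, -, rfl⟩ := mem_cyL.1 ((testBit_orL _ _).1 b)
      exact k hq (((Commute.refl g).pow_left i).inv_left.mul_left h)
        (by rw [mul_smul, v, ← c, ← (a.cyc i _ hq).2, inv_smul_smul]) l
    · exact mem_fixM'.1 (mul_mem (inv_mem (pow_mem hg i)) hσ) j j24 b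
  · have o := (mm_smul_octads σ).2 (fs_mem_octads_of (c1 O hO))
    obtain ⟨x, hx, u⟩ := mem_GC_iff.1 o.1
    have := allC_spec c hx
    rw [← card_gfs, u, o.2] at this
    have f : Nat.land x F = Nat.land O F := Nat.eq_of_testBit_eq fun j => by
      change (x &&& F).testBit j = (O &&& F).testBit j
      rw [Nat.testBit_and, Nat.testBit_and]
      cases z : F.testBit j
      · simp
      by_cases j24 : j < 24
      · rw [Bool.and_true, Bool.and_true, Bool.eq_iff_iff, ← GE.e_mem_fs j24, ← GE.e_mem_fs j24, u,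
          ← Finset.smul_mem_smul_finset_iff (s := GE.fs O) σ, mem_fixM'.1 hσ j j24 z]
      · rw [Nat.testBit_lt_two_pow ((lt_of_inC hx).trans_le (Nat.pow_le_pow_right (by norm_num) (not_lt.1 j24))),
          Nat.testBit_lt_two_pow ((lt_of_inC (isOct_iff.1 (c1 O hO)).1).trans_le (Nat.pow_le_pow_right (by norm_num) (not_lt.1 j24)))]
    simp only [f, not'_eq, Bool.or_eq_true, anyN_iff, Bool.not_eq_true', Nat.beq_refl, Bool.true_eq_false, false_or] at this
    obtain ⟨l, hl, w⟩ := this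
    have z : x.testBit (cy N l (GE.ix (σ • GE.e q))) = O.testBit (cy N l q) := by
      rw [Bool.eq_iff_iff, ← GE.e_mem_fs (a.cyc l _ hp).1, ← GE.e_mem_fs (a.cyc l _ hq).1, u, ← k hp h v l,
        Finset.smul_mem_smul_finset_iff]
    rw [nth_cyL hl, nth_cyL hl, (beq_iff _ _).2] at w
    · cases w
    · simp only [Nat.land_eq, Nat.shiftRight_eq, Nat.and_one_is_mod, Nat.shiftRight_eq_div_pow, ← Nat.toNat_testBit, z]
theorem mem_NZ {g x : MM} {N X : Net} (a : Acts 24 GE.e g N) (b : Acts 24 GE.e x X) (w : List Nat)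
    (h : normChk 5 24 [N] [X] [[w]] = true) : g ∈ NZ x := by
  have := ActsL.norm (gs := [g]) (ks := [x]) (fun _ => MM_faithful) (.cons a .nil) (.cons b .nil) _ h (mem_cl (.head _))
  rwa [show cl [x] = zpowers x by simp [cl, zpowers_eq_closure]] at this
theorem stab_oct {g : MM} {o s : Finset GolayPt} (ho : o ∈ octads) (hs : s ⊆ o) (h5 : 5 ≤ s.card) (hg : g • s = s) :
    g • o = o := octad_eq_of_five ((mm_smul_octads g).2 ho) ho (h5.trans (Finset.card_le_card
  (Finset.subset_inter (hg ▸ (mm_smul_subset g).2 hs) hs)))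
theorem stab_dod {g : MM} {d s : Finset GolayPt} (hd : d ∈ dodecads) (hs : s ⊆ d) (h : 9 ≤ s.card) (hg : g • s = s) :
    g • d = d := by
  have a := (mm_smul_dodecads g).2 hd
  have b := card_symmDiff_add (g • d) d
  have c := h.trans (Finset.card_le_card (Finset.subset_inter (hg ▸ (mm_smul_subset g).2 hs) hs))
  have e := card_of_mem_GC (symmDiff_mem_GC a.1 hd.1)
  rw [a.2, hd.2] at b
  exact symmDiff_eq_bot.1 (Finset.card_eq_zero.1 (by omega))

end
end H9
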