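import Cfsg.Agent.H27.MSub2
import Cfsg.Agent.S1635
/-! Invariant families of subsets of the 24 points closed under symmetric difference. -/
set_option autoImplicit false
namespace H9
open Cfsg H27 MulAction
open scoped Pointwise symmDiff

structure InvF (F : Set (Finset GolayPt)) : Prop where
  e : ∅ ∈ F
  sd : ∀ {s t}, s ∈ F → t ∈ F → s ∆ t ∈ F
  sm : ∀ (g : MM) {s}, s ∈ F → g • s ∈ F
theorem sup_add (v w : GolayPt → ZMod 2) : support₂ (v + w) = support₂ v ∆ support₂ w := by
  ext p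
  simp only [support₂, Finset.mem_symmDiff, Finset.mem_filter, Finset.mem_univ, true_and, Pi.add_apply]
  generalize v p = a; generalize w p = b
  revert a b; decide
theorem sup_sub (v w : GolayPt → ZMod 2) : support₂ (v - w) = support₂ v ∆ support₂ w := by
  ext p
  simp only [support₂, Finset.mem_symmDiff, Finset.mem_filter, Finset.mem_univ, true_and, Pi.sub_apply]
  generalize v p = a; generalize w p = b
  revert a b; decide
theorem sup_smul (g : MM) (w : GolayPt → ZMod 2) : support₂ (fun p => w (g.1.symm p)) = g • support₂ w := by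
  ext p
  rw [← Finset.inv_smul_mem_iff]
  simp only [support₂, Finset.mem_filter, Finset.mem_univ, true_and]
  rfl
theorem sup_zero : support₂ (0 : GolayPt → ZMod 2) = ∅ := by simp [support₂]
theorem sup_one : support₂ (fun _ : GolayPt => (1 : ZMod 2)) = Finset.univ := by simp [support₂]
theorem sup_mem {W : Submodule (ZMod 2) (GolayPt → ZMod 2)} {w : GolayPt → ZMod 2} :
    support₂ w ∈ supports (W : Set (GolayPt → ZMod 2)) ↔ w ∈ W := support₂_inj.mem_set_image
theorem sum_eq_card (w : GolayPt → ZMod 2) : ∑ p, w p = (support₂ w).card := by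
  rw [support₂, Finset.card_filter, Nat.cast_sum]
  refine Finset.sum_congr rfl fun p _ => ?_
  generalize w p = a
  revert a; decide
theorem invF {W : Submodule (ZMod 2) (GolayPt → ZMod 2)} (h : ∀ σ ∈ M24, ∀ w ∈ W, (fun p => w (σ.symm p)) ∈ W) :
    InvF (supports (W : Set (GolayPt → ZMod 2))) :=
  ⟨⟨0, W.zero_mem, sup_zero⟩, by
    rintro _ _ ⟨v, a, rfl⟩ ⟨w, b, rfl⟩; exact ⟨_, W.add_mem a b, sup_add _ _⟩, by
    rintro g _ ⟨w, a, rfl⟩; exact ⟨_, h _ g.2 w a, sup_smul _ _⟩⟩
theorem leader (s : Finset GolayPt) : ∃ t : Finset GolayPt, t.card ≤ 4 ∧ s ∆ t ∈ GC := by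
  obtain ⟨x, -, rfl⟩ := GE.exists_fs s
  have : {v : GolayPt → ZMod 2 | hammingNorm v ≤ 4 ∧ wd x - v ∈ golayCode}.Nonempty :=
    Set.nonempty_of_ncard_ne_zero (by rcases Cfsg.Agent.S1635.result (wd x) with h | h <;> rw [h.1] <;> norm_num)
  obtain ⟨v, a, b⟩ := this
  exact ⟨support₂ v, hammingNorm_eq_card v ▸ a, _, b, by rw [sup_sub, support_wd]⟩
theorem mm_smul_sd (g : MM) (s t : Finset GolayPt) : g • (s ∆ t) = (g • s) ∆ (g • t) := by
  ext p; simp only [Finset.mem_symmDiff, ← Finset.inv_smul_mem_iff]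

namespace InvF
variable {F : Set (Finset GolayPt)} (h : InvF F)
include h
theorem orb {s t b : Finset GolayPt} (a : s ∈ F) (u : ∃ g : MM, g • b = s) (v : ∃ g : MM, g • b = t) : t ∈ F := by
  obtain ⟨g, rfl⟩ := u
  obtain ⟨k, rfl⟩ := v
  simpa [mul_smul] using h.sm (k * g⁻¹) a
theorem oct {o : Finset GolayPt} (a : o ∈ F) (b : o ∈ octads) : GC ⊆ F := fun s hs => by
  obtain ⟨x, c, rfl⟩ := mem_GC_iff.1 hs
  exact inC_ind (fun x => GE.fs x ∈ F) (GE.fs_zero ▸ h.e) (fun x y u v => GE.fs_xor x y ▸ h.sd u v)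
    (fun x hx => h.orb a (exists_smul_eO b) (exists_smul_eO (fs_mem_octads_of (by revert x; decide +kernel)))) c
theorem code {c : Finset GolayPt} (a : c ∈ F) (b : c ∈ GC) (h0 : c ≠ ∅) (h1 : c ≠ Finset.univ) : GC ⊆ F := by
  rcases card_of_mem_GC b with d | d | d | d | d
  · exact absurd (Finset.card_eq_zero.1 d) h0
  · exact h.oct a (mem_octads_iff.2 ⟨b, d⟩)
  · have k : ∀ x, isDod x = true → GE.fs x ∈ F := fun x hx =>
      h.orb a (exists_smul_eD (mem_dodecads_iff.2 ⟨b, d⟩)) (exists_smul_eD (fs_mem_dodecads_of hx))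
    have := h.sd (k dod0 (by decide +kernel)) (k 0x50efe (by decide +kernel))
    rw [← GE.fs_xor] at this
    exact h.oct this (fs_mem_octads_of (by decide +kernel))
  · have k : ∀ x, isOct x = true → (GE.fs x)ᶜ ∈ F := fun x hx => by
      obtain ⟨g, u⟩ := exists_smul_eO (mem_octads_iff.2 ⟨compl_mem_GC b, by rw [Finset.card_compl, card_pt, d]⟩)
      obtain ⟨k, v⟩ := exists_smul_eO (fs_mem_octads_of hx)
      exact h.orb a ⟨g, by rw [mm_smul_compl, u, compl_compl]⟩ ⟨k, by rw [mm_smul_compl, v]⟩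
    have := h.sd (k oct0 (by decide +kernel)) (k 0x149f (by decide +kernel))
    rw [compl_symmDiff_compl, ← GE.fs_xor] at this
    exact h.oct this (fs_mem_octads_of (by decide +kernel))
  · exact absurd (Finset.eq_univ_of_card _ (d.trans card_pt.symm)) h1
theorem duad {t : Finset GolayPt} (a : t ∈ F ∨ tᶜ ∈ F) (h0 : t ≠ ∅) (h4 : t.card ≤ 4) : ∃ s ∈ F, s.card = 2 := by
  obtain ⟨p, hp⟩ := Finset.nonempty_iff_ne_empty.2 h0
  obtain ⟨q, hq⟩ := Finset.exists_mem_notMem_of_card_lt_card (s := t) (t := Finset.univ)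
    (by rw [Finset.card_univ, card_pt]; omega)
  have n : p ≠ q := fun e => hq.2 (e ▸ hp)
  obtain ⟨g, e⟩ := exists_smul_finset (s := t) (t := insert q (t.erase p)) (by
    rw [Finset.card_insert_of_notMem fun c => hq.2 (Finset.mem_of_mem_erase c), Finset.card_erase_add_one hp]) (by omega)
  refine ⟨{p, q}, ?_, Finset.card_pair n⟩
  have f : t ∆ (g • t) = {p, q} := by
    rw [e]; ext r
    simp only [Finset.mem_symmDiff, Finset.mem_insert, Finset.mem_erase, Finset.mem_singleton]
    by_cases u : r = p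
    · simp [u, hp, n]
    by_cases v : r = q <;> simp [u, v, hq.2]
  rcases a with a | a <;> have := h.sd a (h.sm g a)
  · rwa [f] at this
  · rwa [mm_smul_compl, compl_symmDiff_compl, f] at this
theorem duad' {s : Finset GolayPt} (a : s ∈ F) (b : s ∉ GC) : ∃ s ∈ F, s.card = 2 := by
  obtain ⟨t, c, d⟩ := leader s
  obtain ⟨u, rfl⟩ : ∃ u, s = u ∆ t := ⟨s ∆ t, (symmDiff_symmDiff_cancel_right _ _).symm⟩
  rw [symmDiff_symmDiff_cancel_right] at d
  have h0 : t ≠ ∅ := fun e => b (by rwa [e, ← Finset.bot_eq_empty, symmDiff_bot])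
  by_cases u0 : u = ∅
  · exact h.duad (.inl (by rwa [u0, ← Finset.bot_eq_empty, bot_symmDiff] at a)) h0 c
  by_cases u1 : u = Finset.univ
  · exact h.duad (.inr (by rwa [u1, ← Finset.top_eq_univ, top_symmDiff'] at a)) h0 c
  have w := card_of_mem_GC d
  have w0 := mt Finset.card_eq_zero.1 u0
  have w1 : u.card ≠ 24 := fun e => u1 (Finset.eq_univ_of_card u (e.trans card_pt.symm))
  obtain ⟨p, hp, hp'⟩ := Finset.exists_mem_notMem_of_card_lt_card (s := t) (t := u) (by omega)
  obtain ⟨q, hq, hq'⟩ := Finset.exists_mem_notMem_of_card_lt_card (s := t) (t := uᶜ)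
    (by rw [Finset.card_compl, card_pt]; omega)
  obtain ⟨g, e⟩ := exists_smul_list (l := p :: t.toList) (l' := q :: t.toList)
    (List.nodup_cons.2 ⟨by simpa, t.nodup_toList⟩) (List.nodup_cons.2 ⟨by simpa, t.nodup_toList⟩) rfl
    (by rw [List.length_cons, Finset.length_toList]; omega)
  obtain ⟨e1, e2⟩ := List.cons.inj e
  have e3 : ∀ r ∈ t, g • r = r := fun r hr =>
    List.map_inj_left.1 (e2.trans (List.map_id _).symm) r (Finset.mem_toList.2 hr)
  have e4 : g • t = t := Finset.eq_of_subset_of_card_le (fun r hr => by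
    obtain ⟨r, k, rfl⟩ := Finset.mem_smul_finset.1 hr
    rwa [e3 r k]) (Finset.card_smul_finset _ _).ge
  have z := h.sd a (h.sm g a)
  rw [mm_smul_sd, e4, symmDiff_symmDiff_symmDiff_comm, symmDiff_self, symmDiff_bot] at z
  obtain ⟨r, hr⟩ := Finset.nonempty_iff_ne_empty.2 h0
  have y := h.code z (symmDiff_mem_GC d ((mm_smul_GC g).2 d)) (Finset.ne_empty_of_mem (a := q)
    (Finset.mem_symmDiff.2 (.inr ⟨e1 ▸ Finset.smul_mem_smul_finset hp, Finset.mem_compl.1 hq⟩))) fun k => by
      have := k ▸ Finset.mem_univ r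
      rw [Finset.mem_symmDiff, ← e3 r hr, Finset.smul_mem_smul_finset_iff, e3 r hr] at this
      tauto
  have := h.sd (y d) a
  rw [symmDiff_symmDiff_cancel_left] at this
  exact h.duad (.inl this) h0 c
theorem even {s : Finset GolayPt} (a : s ∈ F) (b : s.card = 2) (t : Finset GolayPt) (ht : Even t.card) : t ∈ F := by
  have k : ∀ p q : GolayPt, {p} ∆ {q} ∈ F := fun p q => by
    by_cases e : p = q
    · rw [e, symmDiff_self]; exact h.e
    · obtain ⟨g, c⟩ := exists_smul_finset (s := s) (t := {p} ∆ {q}) (by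
        rw [b, Disjoint.symmDiff_eq_sup (Finset.disjoint_singleton.2 e)]; exact (Finset.card_pair e).symm) (by omega)
      exact c ▸ h.sm g a
  refine (?_ : (Even t.card → t ∈ F) ∧ (¬ Even t.card → t ∆ {none} ∈ F)).1 ht
  clear ht
  induction t using Finset.induction with
  | empty => exact ⟨fun _ => h.e, fun c => absurd ⟨0, rfl⟩ c⟩
  | insert p t n ih =>
    rw [Finset.card_insert_of_notMem n, Nat.even_add_one, not_not, show insert p t = t ∆ {p} by
      rw [Disjoint.symmDiff_eq_sup (Finset.disjoint_singleton_right.2 n), sup_comm]; rfl]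
    refine ⟨fun c => ?_, fun c => symmDiff_assoc t _ _ ▸ h.sd (ih.1 c) (k _ _)⟩
    have := h.sd (ih.2 c) (k none p)
    rwa [symmDiff_assoc, symmDiff_symmDiff_cancel_left] at this
end InvF
theorem triv_span {W : Submodule (ZMod 2) (GolayPt → ZMod 2)}
    (h : ∀ c ∈ supports (W : Set (GolayPt → ZMod 2)), c = ∅ ∨ c = Finset.univ) :
    W ≤ Submodule.span (ZMod 2) {fun _ => (1 : ZMod 2)} := fun w hw => by
  rcases h _ (sup_mem.2 hw) with a | a
  · rw [support₂_inj (a.trans sup_zero.symm)]; exact zero_mem _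
  · rw [support₂_inj (a.trans sup_one.symm)]; exact Submodule.subset_span rfl
theorem code_cases {W : Submodule (ZMod 2) (GolayPt → ZMod 2)} (h : ∀ σ ∈ M24, ∀ w ∈ W, (fun p => w (σ.symm p)) ∈ W)
    (l : W ≤ golayCode) : W ≤ Submodule.span (ZMod 2) {fun _ => (1 : ZMod 2)} ∨ W = golayCode := by
  by_cases a : ∀ c ∈ supports (W : Set (GolayPt → ZMod 2)), c = ∅ ∨ c = Finset.univ
  · exact .inl (triv_span a)
  push Not at a
  obtain ⟨c, a, b, d⟩ := a
  exact .inr (le_antisymm l fun w hw => sup_mem.1 ((invF h).code a (Set.image_mono l a) b.ne_empty d (sup_mem.2 hw)))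
end H9
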