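import Cfsg.Agent.H9.Sh8

/-! The symmetric group of degree three as a fixed-point-free operator group. -/

set_option autoImplicit false

namespace H9
open Module H2 Subgroup H15 Cfsg
open scoped commutatorElement

universe u

variable {G : Type u} [Group G] [Finite G]
variable {F W : Type*} [Field F] [AddCommGroup W] [Module F W] {ρ : G →* End F W}

theorem comm_le_of_sup {D R D₁ D₂ Y : Subgroup G} (hD : D ≤ D₁ ⊔ D₂) (h1 : D₁ ≤ 𝒩(Y))
    (h2 : D₂ ≤ 𝒩(Y)) (h3 : ⁅D₁, R⁆ ≤ Y) (h4 : ⁅D₂, R⁆ ≤ Y) : ⁅D, R⁆ ≤ Y :=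
  (commutator_mono hD le_rfl).trans (comm_sup_left_le h3 h4 h1 h2)

theorem mem_zpowers_three {a u : G} (ha : orderOf a = 3) (hu : u ∈ zpowers a) :
    u = 1 ∨ u = a ∨ u = a⁻¹ := by
  classical
  obtain ⟨j, hj, rfl⟩ := Finset.mem_image.1 (mem_zpowers_iff_mem_range_orderOf.1 hu)
  rw [ha, Finset.mem_range] at hj
  have h3 : a ^ 3 = 1 := ha ▸ pow_orderOf_eq_one a
  interval_cases j
  · simp
  · simp
  · exact Or.inr (Or.inr (eq_inv_of_mul_eq_one_left (by rw [← pow_succ, h3])))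

theorem s3_abelian [IsAlgClosed F] [FiniteDimensional F W] {K A R : Subgroup G} {a : G}
    (h : Op K A) (hρ : ρ.ker ⊓ K = ⊥) (hf : fix ρ A = ⊥) (hAF : (Nat.card A : F) ≠ 0)
    (P : PQ A a 3 2) (hRK : R ≤ K) (hAR : A ≤ 𝒩(R)) (hR : Group.IsNilpotent R)
    (hRF : (Nat.card R : F) ≠ 0) : ⁅R, R⁆ = ⊥ := by
  by_contra hne
  obtain ⟨b, hb, hba⟩ := SetLike.not_le_iff_exists.1 P.ex
  have hA : ¬ A ≤ 𝒞(A) := ((P.cent_or hb hba).resolve_left fun h => by omega).1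
  obtain ⟨D, ⟨h1, h2, h3⟩, hDR, hmin⟩ := H1.exists_minimal_le
    (fun D : Subgroup G => A ≤ 𝒩(D) ∧ R ≤ 𝒩(D) ∧ ⁅D, R⁆ ≠ ⊥) ⟨hAR, le_norm_self R, hne⟩
  have hZD : ⁅D, R⁆ < D := H1.commutator_lt_of_isNilpotent hR hDR h2 fun h0 => h3 (by simp [h0])
  have hAZ : A ≤ 𝒩(⁅D, R⁆) := le_norm_comm h1 hAR
  have hRZ : R ≤ 𝒞(⁅D, R⁆) := cent_comm (le_cent_iff_comm.2 (by_contra fun h4 =>
    hZD.ne (hmin _ ⟨hAZ, normalizer_commutator_ge_right D R, h4⟩ hZD.le)))
  have hZR := hZD.le.trans hDR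
  have hZK := hZR.trans hRK
  obtain ⟨l, hl⟩ := H9.exists_wt (ρ := ρ) (S := ⁅D, R⁆) (U := ⊤) (X := fix ρ ⁅D, R⁆)
    (natCast_ne_zero_of_dvd hRF (card_dvd_of_le hZR)) (le_top.trans stabOn_top.ge)
    (by rw [le_cent_iff_comm.1 (hZR.trans hRZ)]; exact bot_le)
    (fun h' => h3 (le_bot_iff.1
      (hρ ▸ le_inf (by rw [← kerOn_top]; exact le_kerOn_iff.2 h') hZK)))
  rw [top_inf_eq, ← le_kerOn_iff] at hl
  have hl0 : wt ρ ⁅D, R⁆ l ≠ ⊥ := fun h => hl (by rw [le_kerOn_iff, h]; exact bot_le)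
  obtain ⟨⟨d, hd, hdS⟩, hd1⟩ := ne_bot_iff_exists_ne_one.1 (wstab_ne_bot hAF hAZ
    (U := ⊤) (le_top.trans stabOn_top.ge) (by rw [hf, inf_bot_eq]) (by rwa [top_inf_eq]))
  replace hd1 : d ≠ 1 := fun e => hd1 (Subtype.ext e)
  have h0 := wt_fix_eq_bot hAF hAZ (U := ⊤) (le_top.trans stabOn_top.ge)
    (by rw [hf, inf_bot_eq]) l
  rw [top_inf_eq] at h0
  replace h0 : wt ρ ⁅D, R⁆ l ⊓ fix ρ (zpowers d) = ⊥ :=
    le_bot_iff.1 (h0 ▸ inf_le_inf_left _ (fix_anti ρ (P.le_zp inf_le_left (fun h2 =>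
      hl ((h.le_comm hZK hAZ).trans (comm_le_kerOn_wt (h2.trans inf_le_right)))) ⟨hd, hdS⟩ hd1)))
  have hRU : R ≤ stabOn ρ (wt ρ ⁅D, R⁆ l) := hRZ.trans (cent_le_stabOn _ l)
  have hRY := hRU.trans (stabOn_le_norm_kerOn _)
  have hdU := wstab_le_stabOn (ρ := ρ) _ l hdS
  have hdA : zpowers d ≤ A := zpowers_le.2 hd
  by_cases hda : d ∈ zpowers a
  · have ho : orderOf d = 3 := by rw [← Nat.card_zpowers, P.zp_eq hda hd1, Nat.card_zpowers, P.ord]
    have h4 := shult_core (ρ := ρ) Nat.prime_three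
      (ho ▸ natCast_ne_zero_of_dvd hAF (A.orderOf_dvd_natCard hd)) (x := d) (n := 0)
      (by rw [← ho]; simp) (natCast_ne_zero_of_dvd hRF (card_dvd_of_le hDR))
      (ho ▸ h.cop_ord (hDR.trans hRK) hd) (h1 hd) hl0 (hDR.trans hRU) hdU
      (wt_scalar (commutator_mono le_rfl hDR) l) h0
    rw [pow_zero, pow_one] at h4
    have h5 : ⁅D, zpowers d⁆ ≤ kerOn ρ (wt ρ ⁅D, R⁆ l) := by
      refine h4.resolve_right fun ⟨_, t, ht, h5, _⟩ => ?_
      obtain rfl : t = 0 := by omega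
      have h6 := h.cop_ord ((sup_le (comm_le_left (hdA.trans h1)) (relC_le D
        (kerOn ρ (wt ρ ⁅D, R⁆ l)))).trans (hDR.trans hRK)) hb
      rw [(P.out b hb hba).1] at h6
      have h7 := h6.coprime_dvd_left (relIndex_dvd_card (relC D (kerOn ρ (wt ρ ⁅D, R⁆ l))) _)
      rw [h5] at h7
      norm_num at h7
    have hY := (zpowers_le.2 hdU).trans (stabOn_le_norm_kerOn _)
    have h6 : ⁅⁅D, zpowers d⁆, R⁆ ≤ kerOn ρ (wt ρ ⁅D, R⁆ l) :=
      (commutator_mono h5 le_rfl).trans (comm_le_left hRY)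
    have h7 := H5.three_subgroups_mod (X := R) (Y := zpowers d) (Z := D) hRY hY (hDR.trans hRY)
      (by rwa [commutator_comm (zpowers d)]) (comm_le_kerOn_wt (zpowers_le.2 hdS))
    have h8 : ⁅K ⊓ 𝒞(zpowers d), K ⊓ 𝒞(zpowers d)⁆ = ⊥ := by
      rw [P.zp_eq hda hd1]
      refine comm_of_fpf_invol (le_norm_inf h.le_norm (le_norm_cent P.nrm) hb)
        (by rw [← (P.out b hb hba).1, pow_orderOf_eq_one]) (le_bot_iff.1 (h.fpf ▸ le_inf
          (inf_le_left.trans inf_le_left) ((le_cent_sup (inf_le_left.trans inf_le_right)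
            (inf_le_right.trans (cent_zpowers b).ge)).trans (cent_anti (P.out b hb hba).2))))
    refine hl (comm_le_of_sup (h.le_comm_sup (hDR.trans hRK) hdA (hdA.trans h1))
      ((comm_le_left (hdA.trans h1)).trans (hDR.trans hRY)) (inf_le_left.trans (hDR.trans hRY)) h6 ?_)
    rw [commutator_comm]
    refine comm_le_of_sup (h.le_comm_sup hRK hdA (hdA.trans hAR))
      ((comm_le_left (hdA.trans hAR)).trans hRY) (inf_le_left.trans hRY)
      ((commutator_mono le_rfl inf_le_left).trans h7) ?_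
    exact ((commutator_mono (inf_le_inf_right _ hRK) (inf_le_inf_right _ (hDR.trans hRK))).trans
      h8.le).trans bot_le
  have hd2 : d * d = 1 := by rw [← sq, ← (P.out d hd hda).1, pow_orderOf_eq_one]
  have h4 : ∀ w ∈ wt ρ ⁅D, R⁆ l, ρ d w = (-1 : F) • w := fun w hw => by
    have : w + ρ d w ∈ wt ρ ⁅D, R⁆ l ⊓ fix ρ (zpowers d) :=
      ⟨add_mem hw (stabOn_apply hdU hw), mem_fix_zpowers.2 (by
        rw [map_add, ← End.mul_apply, ← map_mul, hd2, map_one, End.one_apply, add_comm])⟩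
    rw [h0, Submodule.mem_bot] at this
    rw [neg_one_smul, eq_neg_iff_add_eq_zero, add_comm, this]
  have h5 : ⁅R, zpowers d⁆ ≤ kerOn ρ (wt ρ ⁅D, R⁆ l) := by
    rw [commutator_comm]
    refine commutator_le.2 fun z hz r hr => comm_mem_kerOn_of_scalar (hRU hr) ?_
    obtain ⟨j, rfl⟩ := mem_powers_iff_mem_zpowers.2 hz
    exact ⟨(-1) ^ j, fun w hw => rep_pow_of_eigen (h4 w hw) j⟩
  have had : a ∉ zpowers d := fun h' => P.not_le_zp hd
    ((P.out d hd hda).2.trans (sup_le (zpowers_le.2 h') le_rfl))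
  have n : ∀ {X : Subgroup G} {g : G}, A ≤ 𝒩(X) → g ∈ A → zpowers (g⁻¹ * d * g) ≤ 𝒩(X) :=
    fun hX hg => (zpowers_le.2 (mul_mem (mul_mem (inv_mem hg) hd) hg)).trans hX
  have s : ∀ {X : Subgroup G} {g : G}, X ≤ K → A ≤ 𝒩(X) → g ∈ A → g ∉ zpowers d →
      X ≤ ⁅X, zpowers (g⁻¹ * d * g)⁆ ⊔ ⁅X, zpowers d⁆ := fun hX hX' hg hg' =>
    (h.le_comm hX hX').trans ((commutator_mono le_rfl (P.le_sup_conj hA hd hda hg hg')).trans
      (le_comm_sup_comm (n hX' hg) (hdA.trans hX')))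
  have c : ∀ {X : Subgroup G} {g x : G}, X ≤ R → A ≤ 𝒩(X) → g ∈ A →
      x ∈ ⁅X, zpowers (g⁻¹ * d * g)⁆ → g * x * g⁻¹ ∈ kerOn ρ (wt ρ ⁅D, R⁆ l) :=
    fun {X g x} hX hX' hg hx => by
      have := conj_mem_cj (g := g) hx
      rw [cj_comm, cj_zpowers, cj_of_mem_norm (hX' hg)] at this
      refine h5 (commutator_mono hX (le_of_eq ?_) this)
      congr 1; group
  have ha' := inv_mem P.mem
  refine hl (comm_le_of_sup (s (hDR.trans hRK) h1 ha' (by simpa using had))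
    ((comm_le_left (n h1 ha')).trans (hDR.trans hRY))
    ((comm_le_left (hdA.trans h1)).trans (hDR.trans hRY)) ?_
    ((commutator_mono ((commutator_mono hDR le_rfl).trans h5) le_rfl).trans (comm_le_left hRY)))
  rw [commutator_comm]
  refine comm_le_of_sup (s hRK hAR P.mem had) ((comm_le_left (n hAR P.mem)).trans hRY)
    ((comm_le_left (hdA.trans hAR)).trans hRY) ?_ ((commutator_mono h5
      ((comm_le_left (n h1 ha')).trans hDR)).trans (comm_le_left hRY))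
  rw [commutator_comm]
  refine commutator_le.2 fun x hx r hr => ?_
  have hxD := comm_le_left (n h1 ha') hx
  have hrR := comm_le_left (n hAR P.mem) hr
  have hz := commutator_mem_commutator hxD hrR
  have e : ∀ g : G, g * ⁅x, r⁆ * g⁻¹ = ⁅g * x * g⁻¹, g * r * g⁻¹⁆ := fun g => by
    simp only [commutatorElement_def]; group
  refine (mem_kerOn_wt_iff hl0 hz).2 (prod_wt (comm_of_le_cent (hZR.trans hRZ)) hAZ (h.fpf' hZK)
    (h.cop' hZK le_rfl) hl0 hz fun g hg hg' => ?_)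
  obtain ⟨u, hu, v, hv, rfl⟩ := (H1.mem_sup_of_le_normalizer_left (hdA.trans P.nrm)).1
    ((P.out d hd hda).2 hg)
  have hvS := zpowers_le.2 hdS hv
  have huZ := H1.conj_mem_of_mem_normalizer' (hAZ (zpowers_le.2 P.mem hu)) hz
  have e2 := hvS.2 _ huZ
  rw [show (u * v)⁻¹ * ⁅x, r⁆ * (u * v) = v⁻¹ * (u⁻¹ * ⁅x, r⁆ * u) * v by group, e2,
    ← mem_kerOn_wt_iff hl0 huZ]
  rcases mem_zpowers_three P.ord hu with rfl | rfl | rfl
  · exact absurd (by simpa using hvS) hg'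
  · have := e u⁻¹
    rw [inv_inv] at this
    rw [this]
    refine comm_le_left hRY (commutator_mem_commutator ?_
      (H1.conj_mem_of_mem_normalizer' (hAR P.mem) hrR))
    simpa using c hDR h1 ha' hx
  · rw [inv_inv, e]
    exact comm_le_right hRY (commutator_mem_commutator
      (H1.conj_mem_of_mem_normalizer (hAR P.mem) (hDR hxD)) (c le_rfl hAR P.mem hr))

theorem not_dvd_card_der {K R : Subgroup G} [K.Normal] {q : ℕ} (hq : q.Prime)
    (hR : IsPiHallOf {q} R K) (hc : ⁅R, R⁆ = ⊥) (hE : ¬ q ∣ Nat.card (nres K)) :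
    ¬ q ∣ Nat.card (⁅K, K⁆ : Subgroup G) := fun hd => by
  let f := QuotientGroup.mk' (nres K)
  have hn : Group.IsNilpotent (K.map f) := nres_eq_bot_iff.1 (by
    rw [← map_nres, Subgroup.map_eq_bot_iff, QuotientGroup.ker_mk'])
  have h1 : piCoreOf {q} (K.map f) ≤ R.map f := H1.IsPiHallOf.le_of_normalizes (H1.IsPiHallOf.map hR f)
    (piCoreOf_le _ _) (le_norm_piCoreOf _ (le_norm_of_le (map_mono hR.le))) (isPi_piCoreOf _ _)
  have h2 : piCoreOf {q} (K.map f) ≤ 𝒞(piCoreOf {q} (K.map f)) := le_cent_iff_comm.2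
    (le_bot_iff.1 ((commutator_mono h1 h1).trans (by rw [← map_commutator, hc, Subgroup.map_bot])))
  have h3 : K.map f ≤ 𝒞(piCoreOf {q} (K.map f)) := (piCoreOf_sup_compl hn {q}).ge.trans
    (sup_le h2 (piCoreOf_compl_le_cent _ _))
  have h4 : K.map f ≤ 𝒩(piCoreOf {q}ᶜ (K.map f)) := le_norm_piCoreOf _ (le_norm_self _)
  have h5 : ⁅K.map f, K.map f⁆ ≤ piCoreOf {q}ᶜ (K.map f) :=
    comm_le_of_sup (piCoreOf_sup_compl hn {q}).ge ((piCoreOf_le _ _).trans h4) (le_norm_self _)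
      ((le_cent_iff_comm.1 (cent_comm h3)).le.trans bot_le) (comm_le_left h4)
  rw [← map_commutator] at h5
  have h6 := card_dvd_of_le h5
  rw [H1.card_map_mk'_eq_relIndex] at h6
  rw [← H1.card_inf_mul_relIndex (nres K)] at hd
  rcases hq.dvd_mul.1 hd with h | h
  · exact hE (h.trans (card_dvd_of_le inf_le_left))
  · exact isPi_piCoreOf {q}ᶜ (K.map f) q hq (h.trans h6) rfl

theorem Op.der_nilpotent_s3 {K A : Subgroup G} (h : Op K A) (hA : Nat.card A = 3 * 2)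
    (hc : ¬ IsCyclic A) : nres ⁅K, K⁆ = ⊥ := by
  by_contra hD
  haveI := h.nrm
  have hE := nres_eq_bot_iff.1 (h.nres_nres Nat.prime_three Nat.prime_two hA hc)
  obtain ⟨N, _, F, _, _, W, _, _, _, ρ, q, hN, -, h2, h3, h4, hq, hqF, hqD, h5⟩ :=
    h.tower (h.comm_le K) hD
  haveI := Fact.mk hq
  set f := QuotientGroup.mk' N
  have h' := h.map (QuotientGroup.mk'_surjective N)
  haveI := h'.nrm
  obtain ⟨e⟩ := h.equiv_map hN
  rw [Nat.card_congr e.toEquiv] at hA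
  obtain ⟨a, ha, ho, hn⟩ := exists_normal_prime Nat.prime_three Nat.prime_two (by norm_num) hA
  have P := pq_of_card Nat.prime_three Nat.prime_two hA
    (fun _ => hc (isCyclic_of_surjective e.symm e.symm.surjective)) ha ho hn
  obtain ⟨R, hR, hAR⟩ := H1.exists_invariant_sylowOf q h'.le_norm h'.cop (Or.inr h'.solv)
  obtain ⟨k, hk⟩ := IsPGroup.iff_card.1 hR.isPGroup
  rw [map_commutator] at hqD
  refine not_dvd_card_der hq hR (s3_abelian h' h2 h3 (natCast_ne_zero_of_dvd h4 (card_map_dvd _ _))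
    P hR.le hAR hR.isPGroup.isNilpotent (by rw [hk, Nat.cast_pow]; exact pow_ne_zero _ hqF))
    (fun hd => ?_) hqD
  haveI : (piCoreOf {q} (nres K)).Normal := normalizer_eq_top_iff.1 (top_le_iff.1
    (le_norm_piCoreOf _ le_normalizer_of_normal))
  have h6 : piCoreOf {q} (nres K) ≤ N := h5 _ ((piCoreOf_le _ _).trans (nres_le K)) fun x hx => by
    obtain ⟨j, hj⟩ := (isPi_piCoreOf {q} (nres K)).isPGroup
      ⟨x, comm_le_right le_normalizer_of_normal hx⟩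
    exact natCast_ne_zero_of_dvd (n := q ^ j) (by rw [Nat.cast_pow]; exact pow_ne_zero _ hqF)
      (orderOf_dvd_of_pow_eq_one (congrArg Subtype.val hj))
  rw [← map_nres, ← piCoreOf_sup_compl hE {q}, Subgroup.map_sup, (Subgroup.map_eq_bot_iff _).2
    (by rwa [QuotientGroup.ker_mk']), bot_sup_eq] at hd
  exact isPi_piCoreOf {q}ᶜ (nres K) q hq (hd.trans (card_map_dvd _ _)) rfl

theorem der_nilpotent_of_six {G A : Type*} [Group G] [Finite G] [Group A] [Finite A]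
    (φ : A →* MulAut G) (hG : Group.IsSolvable G) (hcop : (Nat.card A).Coprime (Nat.card G))
    (h : ∀ g : G, (∀ a, φ a g = g) → g = 1) (hA : Nat.card A = 3 * 2) (hc : ¬ IsCyclic A) :
    Group.IsNilpotent (_root_.commutator G) := by
  have h1 := (op_sdp φ hG hcop h).der_nilpotent_s3 (by rw [H8.card_sdR, card_top, hA])
    fun _ => hc (isCyclic_of_injective ((SemidirectProduct.inr).codRestrict (H8.sdR φ ⊤)
      fun a => ⟨a, mem_top a, rfl⟩) fun _ _ e =>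
        SemidirectProduct.inr_injective (congrArg Subtype.val e))
  rw [← map_commutator] at h1
  exact nres_eq_bot_iff.1 (nres_iter_of_sdL _ (n := 1) h1)

end H9
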