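import Mathlib

set_option autoImplicit false

/-! Fifteen vectors with two inner products: every vector lies in exactly two ovoids. -/

namespace H9.Sr
open Finset
variable {ι : Type*} [Fintype ι] [DecidableEq ι]

theorem cs {F : ι → ι → ℤ} {p q : ι} {c n : ℤ} (hc : 0 < c) (a : ∑ z, F p z * F p z = c * n) (b : ∑ z, F q z * F q z = c * n)
    (d : ∑ z, F p z * F q z = c * F p q) : -n ≤ F p q ∧ F p q ≤ n ∧ (F p q = n → F p = F q) ∧ (F p q = -n → F p = -F q) := by
  have e1 : ∑ z, (F p z + F q z) ^ 2 = c * (2 * (n + F p q)) := by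
    rw [sum_congr rfl (g := fun z => F p z * F p z + 2 * (F p z * F q z) + F q z * F q z) fun z _ => by ring]
    simp only [sum_add_distrib, ← mul_sum, a, b, d]; ring
  have e2 : ∑ z, (F p z - F q z) ^ 2 = c * (2 * (n - F p q)) := by
    rw [sum_congr rfl (g := fun z => F p z * F p z - 2 * (F p z * F q z) + F q z * F q z) fun z _ => by ring]
    simp only [sum_add_distrib, sum_sub_distrib, ← mul_sum, a, b, d]; ring
  have n1 := sum_nonneg fun z (_ : z ∈ univ) => sq_nonneg (F p z + F q z)
  have n2 := sum_nonneg fun z (_ : z ∈ univ) => sq_nonneg (F p z - F q z)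
  refine ⟨by nlinarith, by nlinarith, fun h => funext fun z => ?_, fun h => funext fun z => ?_⟩
  · rw [h, sub_self, mul_zero, mul_zero] at e2
    exact sub_eq_zero.1 (pow_eq_zero_iff two_ne_zero |>.1 ((sum_eq_zero_iff_of_nonneg fun z _ => sq_nonneg _).1 e2 z (mem_univ z)))
  · rw [h, add_neg_cancel, mul_zero, mul_zero] at e1
    exact eq_neg_of_add_eq_zero_left
      (pow_eq_zero_iff two_ne_zero |>.1 ((sum_eq_zero_iff_of_nonneg fun z _ => sq_nonneg _).1 e1 z (mem_univ z)))

theorem gq {g : ι → ι → ℤ} (c : Fintype.card ι = 15) (sy : ∀ p q, g p q = g q p) (d : ∀ p, g p p = 4)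
    (v : ∀ p q, p ≠ q → g p q = 1 ∨ g p q = -2) (s : ∀ p, ∑ z, g p z = 0) (t : ∀ p q, ∑ z, g p z * g q z = 12 * g p q) (K : ι) :
    (univ.filter fun O : Finset ι => O.card = 5 ∧ K ∈ O ∧ ∀ p ∈ O, ∀ q ∈ O, p ≠ q → g p q = 1).card = 2 := by
  obtain ⟨y, hy, y01, ysy, y0⟩ : ∃ y : ι → ι → ℤ, (∀ p q, g p q = 1 + 3 * (if p = q then 1 else 0) - 3 * y p q) ∧
      (∀ p q, y p q = 0 ∨ y p q = 1) ∧ (∀ p q, y p q = y q p) ∧ ∀ p, y p p = 0 := by
    refine ⟨fun p q => if g p q = -2 then 1 else 0, fun p q => ?_, fun p q => by simp only []; split_ifs <;> simp,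
      fun p q => by simp only [sy p q], fun p => by simp [d]⟩
    by_cases h : p = q
    · simp [h, d]
    · rcases v p q h with e | e <;> simp [h, e]
  have yn : ∀ p q, 0 ≤ y p q := fun p q => by rcases y01 p q with e | e <;> omega
  have ys : ∀ p, ∑ z, y p z = 6 := fun p => by
    have := s p
    simp only [hy, sum_sub_distrib, sum_add_distrib, ← mul_sum, sum_ite_eq, mem_univ, if_true, sum_const, card_univ, c] at this
    simp at this; omega
  have yy : ∀ p q, ∑ z, y p z * y q z = 3 * (if p = q then 1 else 0) + 3 - 2 * y p q := fun p q => by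
    have := t p q
    rw [sum_congr rfl (g := fun z => 1 + 3 * (if q = z then 1 else 0) - 3 * y q z + 3 * (if p = z then g q z else 0) - 3 * y p z -
      9 * (if q = z then y p z else 0) + 9 * (y p z * y q z)) fun z _ => by
        rw [hy p z]; split_ifs <;> rw [hy q z] <;> simp only [*, if_true, if_false] <;> ring] at this
    simp only [sum_sub_distrib, sum_add_distrib, ← mul_sum, sum_ite_eq, mem_univ, if_true, sum_const, card_univ, c, ys] at this
    rw [sy q p, hy p q] at this
    simp only [nsmul_eq_mul] at this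
    omega
  have tri : ∀ {p q a b}, y p q = 1 → y p a = 1 → y q a = 1 → y p b = 1 → y q b = 1 → a = b := fun {p q a b} h a1 a2 b1 b2 => by
    by_contra n
    have := sum_le_sum_of_subset_of_nonneg (subset_univ {a, b}) fun z _ _ => mul_nonneg (yn p z) (yn q z)
    rw [sum_pair n, yy, if_neg (by rintro rfl; rw [y0] at h; omega)] at this
    simp only [*] at this; omega
  let D := univ.filter fun L => L ≠ K ∧ y K L = 0
  have mD : ∀ {L}, L ∈ D ↔ L ≠ K ∧ y K L = 0 := by simp [D]
  have sD : ∀ f : ι → ℤ, ∑ z, f z = f K + ∑ z, y K z * f z + ∑ z ∈ D, f z := fun f => by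
    rw [sum_filter, ← sum_ite_eq_of_mem univ K f (mem_univ K), ← sum_add_distrib, ← sum_add_distrib]
    refine sum_congr rfl fun z _ => ?_
    by_cases h : K = z
    · simp [← h, y0]
    · rcases y01 K z with e | e <;> simp [h, e, Ne.symm h]
  have cD : D.card = 8 := by
    have := sD 1
    simp [c, ys] at this; omega
  obtain ⟨F, hF⟩ : ∃ F : ι → ι → ℤ, ∀ L z, F L z = 2 * g L z + g K z + ∑ a, y K a * y L a * g a z := ⟨_, fun _ _ => rfl⟩
  have Fg : ∀ L p, ∑ z, F L z * g p z = 12 * F L p := fun L p => by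
    simp only [hF, add_mul, sum_add_distrib, mul_assoc, ← mul_sum, t, sum_mul]
    rw [sum_comm]; simp only [← mul_sum, t, mul_add]
    rw [mul_sum]; congr 1
    exacts [by ring, sum_congr rfl fun a _ => by ring]
  have Fs : ∀ L, ∑ z, F L z = 0 := fun L => by
    simp only [hF, sum_add_distrib, ← mul_sum, s]
    rw [sum_comm]; simp [← mul_sum, s]
  have KL : ∀ L ∈ D, ∑ a, y K a * y L a = 3 := fun L h => by rw [yy, if_neg (mD.1 h).1.symm, (mD.1 h).2]; rfl
  have FK : ∀ L ∈ D, F L K = 0 := fun L h => by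
    rw [hF, d, sum_congr rfl (g := fun a => -2 * (y K a * y L a)) fun a _ => ?_, ← mul_sum, KL L h, hy, if_neg (mD.1 h).1, ysy,
      (mD.1 h).2]; · rfl
    rw [hy, ysy a]
    rcases y01 K a with e | e <;> simp [e]
    rw [if_neg (by rintro rfl; rw [y0] at e; omega)]; ring
  have FA : ∀ L ∈ D, ∀ b, y K b * F L b = 0 := fun L h b => by
    have e1 := Fg L K
    rw [sum_congr rfl (g := fun z => F L z + 3 * (if K = z then F L z else 0) - 3 * (y K z * F L z)) fun z _ => by
      rw [hy]; split_ifs <;> ring] at e1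
    simp only [sum_sub_distrib, sum_add_distrib, ← mul_sum, sum_ite_eq, mem_univ, if_true, Fs, FK L h] at e1
    have e2 : ∑ z, y K z * F L z = 0 := by omega
    refine (sum_eq_zero_iff_of_nonneg fun b _ => ?_).1 e2 b (mem_univ b)
    rcases y01 K b with e | e <;> rw [e]; · simp
    have n1 : L ≠ b := by rintro rfl; rw [(mD.1 h).2] at e; omega
    have n2 : K ≠ b := by rintro rfl; rw [y0] at e; omega
    rw [hF, sum_congr rfl (g := fun a => y K a * y L a + 3 * (if a = b then y K a * y L a else 0) - 3 * (y K a * y L a * y b a))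
      fun a _ => by rw [hy, ysy a]; split_ifs <;> ring]
    simp only [sum_sub_distrib, sum_add_distrib, ← mul_sum, sum_ite_eq', mem_univ, if_true, KL L h, hy, if_neg n1, if_neg n2, e]
    rcases y01 L b with f | f
    · have := sum_le_sum (s := univ) (f := fun a => y K a * y L a * y b a) (g := fun a => y K a * y b a) fun a _ => by
        rcases y01 L a with k | k <;> simp [k, mul_nonneg (yn _ _) (yn _ _)]
      rw [yy, if_neg n2] at this; omega
    · rw [sum_eq_zero fun a _ => ?_]; · omega
      rcases y01 K a with k | k; · simp [k]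
      rcases y01 L a with l | l; · simp [l]
      rcases y01 b a with m | m; · simp [m]
      exact absurd (tri m (ysy K b ▸ e) (ysy K a ▸ k) (ysy L b ▸ f) (ysy L a ▸ l)) (mD.1 h).1.symm
  have FF : ∀ L ∈ D, ∀ M, ∑ z, F L z * F M z = 24 * F L M := fun L h M => by
    rw [sum_congr rfl (g := fun z => 2 * (F L z * g M z) + F L z * g K z + ∑ a, y K a * y M a * (F L z * g a z)) fun z _ => by
      rw [hF M, mul_add, mul_add, mul_sum]; congr 1
      exacts [by ring, sum_congr rfl fun a _ => by ring]]
    simp only [sum_add_distrib, ← mul_sum, Fg, FK L h]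
    rw [sum_comm]; simp only [← mul_sum, Fg]
    rw [sum_eq_zero fun a _ => by linear_combination 12 * y M a * FA L h a]; ring
  have Fv : ∀ L ∈ D, ∀ M ∈ D, F L M = 3 * (2 + 2 * (if L = M then 1 else 0) - 2 * y L M - ∑ a, y K a * y L a * y M a) :=
    fun L h M k => by
      rw [hF, sum_congr rfl (g := fun a => y K a * y L a - 3 * (y K a * y L a * y M a)) fun a _ => by
        rw [hy, ysy a]; split_ifs with e
        · rw [e, (mD.1 k).2]; ring
        · ring]
      simp only [sum_sub_distrib, ← mul_sum, KL L h, hy, if_neg (mD.1 k).1.symm, (mD.1 k).2]; ring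
  have FL : ∀ L ∈ D, F L L = 3 := fun L h => by
    rw [Fv L h L h, y0, if_pos rfl, sum_congr rfl (g := fun a => y K a * y L a) fun a _ => by rcases y01 L a with e | e <;> simp [e],
      KL L h]; rfl
  have C := fun L h M k => cs (F := F) (p := L) (q := M) (c := 24) (n := 3) (by norm_num) ((FF L h L).trans (by rw [FL L h]))
    ((FF M k M).trans (by rw [FL M k])) (FF L h M)
  have pm : ∀ L ∈ D, ∀ M ∈ D, F L M = 3 ∨ F L M = -3 := fun L h M k => by
    have e := FF L h L
    rw [sD, FK L h, FL L h, sum_eq_zero fun a _ => by rw [← mul_assoc, FA L h a, zero_mul]] at e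
    have := (sum_eq_zero_iff_of_nonneg (s := D) (f := fun z => 9 - F L z * F L z) fun z k => by
      nlinarith [(C L h z k).1, (C L h z k).2.1]).1 (by rw [sum_sub_distrib, sum_const, cD]; simp at e ⊢; omega) M k
    exact mul_self_eq_mul_self_iff.1 (by omega)
  have ad : ∀ L ∈ D, ∀ M ∈ D, y L M = 1 → F L M = -3 := fun L h M k e => (pm L h M k).resolve_left fun f => by
    rw [Fv L h M k, if_neg (by rintro rfl; rw [y0] at e; omega)] at f
    have := sum_nonneg (s := univ) fun a _ => mul_nonneg (mul_nonneg (yn K a) (yn L a)) (yn M a)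
    omega
  let E := fun L => D.filter fun M => F L M = 3
  have mE : ∀ {L M}, M ∈ E L ↔ M ∈ D ∧ F L M = 3 := by simp [E]
  have cE : ∀ L ∈ D, (E L).card = 4 := fun L h => by
    have e := Fs L
    rw [sD, FK L h, sum_eq_zero fun a _ => FA L h a, sum_congr rfl (g := fun M => 6 * (if F L M = 3 then 1 else 0) - 3) fun M k => by
      rcases pm L h M k with f | f <;> simp [f], sum_sub_distrib, ← mul_sum, sum_boole, sum_const, cD] at e
    simp only [E]; simp at e; omega
  have un : ∀ L ∈ D, ∀ M ∈ D, ∀ N ∈ D, F L M = -3 → y L M = 0 → F L N = -3 → y L N = 0 → M = N := fun L h M k N l a b a' b' => by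
    by_contra n
    have e := ys L
    rw [sD, KL L h, ysy, (mD.1 h).2] at e
    have := sum_le_sum_of_subset_of_nonneg (s := {M, N}) (t := D) (f := fun z => 1 - (if F L z = 3 then 1 else 0) - y L z)
      (insert_subset k (singleton_subset_iff.2 l)) fun z hz _ => by
        rcases y01 L z with f | f
        · split_ifs <;> omega
        · rw [ad L h z hz f, f]; simp
    rw [sum_pair n, sum_sub_distrib, sum_sub_distrib, sum_boole, sum_const, cD, cE L h, a, a', b, b'] at this
    simp at this; omega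
  have key : ∀ O : Finset ι, (O.card = 5 ∧ K ∈ O ∧ ∀ p ∈ O, ∀ q ∈ O, p ≠ q → g p q = 1) ↔ ∃ L ∈ D, O = insert K (E L) := fun O => by
    constructor
    · rintro ⟨c5, hK, h⟩
      have y0' : ∀ p ∈ O, ∀ q ∈ O, y p q = 0 := fun p hp q hq => by
        by_cases e : p = q
        · rw [e, y0]
        · have := h p hp q hq e
          rw [hy, if_neg e] at this; omega
      have c4 : (O.erase K).card = 4 := by rw [card_erase_of_mem hK, c5]
      have sb : ∀ p ∈ O.erase K, p ∈ D := fun p hp => mD.2 ⟨ne_of_mem_erase hp, y0' K hK p (mem_of_mem_erase hp)⟩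
      obtain ⟨L, hL⟩ := card_pos.1 (by omega : 0 < (O.erase K).card)
      refine ⟨L, sb L hL, ?_⟩
      rw [← eq_of_subset_of_card_le (s := O.erase K) (fun M hM => mE.2 ⟨sb M hM, (pm L (sb L hL) M (sb M hM)).resolve_right fun f => ?_⟩)
        (by rw [cE L (sb L hL), c4]), insert_erase hK]
      obtain ⟨P, hP, n⟩ := exists_mem_notMem_of_card_lt_card (s := {L, M}) (t := O.erase K) (card_le_two.trans_lt (by omega))
      simp only [mem_insert, mem_singleton, not_or] at n
      have o := fun p (hp : p ∈ O.erase K) q (hq : q ∈ O.erase K) => y0' p (mem_of_mem_erase hp) q (mem_of_mem_erase hq)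
      have a := (pm L (sb L hL) P (sb P hP)).resolve_right fun a => n.2 (un L (sb L hL) P (sb P hP) M (sb M hM) a (o L hL P hP) f (o L hL M hM))
      have b := (C L (sb L hL) M (sb M hM)).2.2.2 f
      refine n.1 (un M (sb M hM) P (sb P hP) L (sb L hL) ?_ (o M hM P hP) ?_ (o M hM L hL))
      · have := congrFun b P; simp only [Pi.neg_apply] at this; omega
      · have := congrFun b L; simp only [Pi.neg_apply, FL L (sb L hL)] at this; omega
    · rintro ⟨L, h, rfl⟩
      have k : ∀ q ∈ E L, g K q = 1 := fun q hq => by rw [hy, if_neg (mD.1 (mE.1 hq).1).1.symm, (mD.1 (mE.1 hq).1).2]; rfl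
      refine ⟨by rw [card_insert_of_notMem fun e => (mD.1 (mE.1 e).1).1 rfl, cE L h], mem_insert_self _ _, fun p hp q hq n => ?_⟩
      rcases mem_insert.1 hp with rfl | hp <;> rcases mem_insert.1 hq with rfl | hq
      exacts [absurd rfl n, k q hq, sy _ _ ▸ k p hp, by
        rcases y01 p q with e | e
        · rw [hy, if_neg n, e]; rfl
        · have := ad p (mE.1 hp).1 q (mE.1 hq).1 e
          rw [← (C L h p (mE.1 hp).1).2.2.1 (mE.1 hp).2, (mE.1 hq).2] at this; omega]
  obtain ⟨L, h⟩ := card_pos.1 (by omega : 0 < D.card)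
  obtain ⟨M, k, n⟩ := exists_mem_notMem_of_card_lt_card (s := E L) (t := D) (by rw [cE L h]; omega)
  have f := (pm L h M k).resolve_left fun f => n (mE.2 ⟨k, f⟩)
  refine card_eq_two.2 ⟨insert K (E L), insert K (E M), fun e => ?_, Finset.ext fun O => ?_⟩
  · exact n ((mem_insert.1 (e ▸ mem_insert_of_mem (mE.2 ⟨k, FL M k⟩))).resolve_left (mD.1 k).1)
  · rw [mem_filter, key, mem_insert, mem_singleton]
    refine ⟨fun ⟨_, N, l, e⟩ => ?_, fun e => ⟨mem_univ _, e.elim (⟨L, h, ·⟩) (⟨M, k, ·⟩)⟩⟩
    rcases pm L h N l with a | a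
    · exact .inl (by simp only [e, E, (C L h N l).2.2.1 a])
    · refine .inr (by simp only [e, E, neg_injective (((C L h N l).2.2.2 a).symm.trans ((C L h M k).2.2.2 f))])
end H9.Sr
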