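import Cfsg.Agent.H9.Sr1

set_option autoImplicit false

/-! The graph with parameters (77, 16, 0, 4): a local frame and the cocliques of size 21. -/

namespace H9.Sr
open Finset
variable {V : Type*} [Fintype V] [DecidableEq V]

structure SR (a : V → V → ℤ) : Prop where
  c : Fintype.card V = 77
  a01 : ∀ x y, a x y = 0 ∨ a x y = 1
  sy : ∀ x y, a x y = a y x
  a0 : ∀ x, a x x = 0
  s1 : ∀ x, ∑ y, a x y = 16
  s2 : ∀ x y, ∑ z, a x z * a y z = 4 + 12 * (if x = y then 1 else 0) - 4 * a x y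

def tt (a : V → V → ℤ) (x B y : V) : ℤ := ∑ s, a x s * a B s * a y s

def gg (a : V → V → ℤ) (x B y : V) : ℤ :=
  12 * (if B = y then 1 else 0) - 6 * a B y + 6 * (a x y * a B y) - 3 * tt a x B y + 8 * (if x = y then 1 else 0) - 4 * a x y + 4

def Dl (a : V → V → ℤ) (x B : V) : Prop := x ≠ B ∧ a x B = 0

variable {a : V → V → ℤ} (H : SR a) {x B C y : V}
include H

theorem SR.nn (x y : V) : 0 ≤ a x y := by rcases H.a01 x y with e | e <;> omega

theorem SR.ne (h : a x y = 1) : x ≠ y := by rintro rfl; rw [H.a0] at h; omega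

theorem SR.tri (h : a x y = 1) (z : V) : a x z * a y z = 0 :=
  (sum_eq_zero_iff_of_nonneg fun z _ => mul_nonneg (H.nn x z) (H.nn y z)).1 (by rw [H.s2, if_neg (H.ne h), h]; rfl) z (mem_univ z)

theorem SR.s4 (h : Dl a x B) : ∑ s, a x s * a B s = 4 := by rw [H.s2, if_neg h.1, h.2]; rfl

theorem SR.tn (x B y : V) : 0 ≤ tt a x B y := sum_nonneg fun s _ => mul_nonneg (mul_nonneg (H.nn _ _) (H.nn _ _)) (H.nn _ _)

theorem SR.gx (h : Dl a x B) : gg a x B x = 0 := by
  rw [gg, tt, sum_congr rfl (g := fun s => a x s * a B s) fun s _ => by rcases H.a01 x s with e | e <;> simp [e], H.s4 h,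
    if_neg h.1.symm, if_pos rfl, H.sy B, h.2, H.a0]; rfl

theorem SR.gN (h : Dl a x B) (k : a x y = 1) : gg a x B y = 0 := by
  rw [gg, tt, sum_eq_zero fun s _ => by linear_combination a B s * H.tri k s, if_neg (by rintro rfl; have := h.2; omega),
    if_neg (H.ne k), k]; ring

theorem SR.gD (h : Dl a x B) (k : gg a x B y ≠ 0) : Dl a x y :=
  ⟨by rintro rfl; exact k (H.gx h), (H.a01 x y).resolve_right fun e => k (H.gN h e)⟩

theorem SR.gs (h : Dl a x B) (k : Dl a x C) : gg a x B C = gg a x C B := by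
  rw [gg, gg, h.2, k.2, if_neg h.1, if_neg k.1, H.sy C, tt, tt, sum_congr rfl fun s _ => mul_right_comm _ _ _]
  simp only [eq_comm (a := C)]

theorem SR.g4 (h : Dl a x B) : gg a x B B = 4 := by
  rw [gg, tt, sum_congr rfl (g := fun s => a x s * a B s) fun s _ => by rcases H.a01 B s with e | e <;> simp [e], H.s4 h,
    if_neg h.1, if_pos rfl, h.2, H.a0]; rfl

theorem SR.ga (k : Dl a x C) (e : a B C = 1) : gg a x B C = -2 := by
  rw [gg, tt, sum_eq_zero fun s _ => by linear_combination a x s * H.tri e s, if_neg (H.ne e), if_neg k.1, k.2, e]; rfl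

theorem SR.g0 (h : Dl a x B) : ∑ z, gg a x B z = 0 := by
  simp only [gg, tt, sum_add_distrib, sum_sub_distrib, ← mul_sum, sum_ite_eq, mem_univ, if_true, H.s1, H.s4 h, sum_const,
    card_univ, H.c]
  rw [sum_comm, sum_congr rfl (g := fun s => 16 * (a x s * a B s)) fun s _ => by
    rw [← mul_sum, sum_congr rfl fun z _ => H.sy z s, H.s1, mul_comm], ← mul_sum, H.s4 h]; rfl

theorem SR.ge (h : Dl a x B) (y : V) : ∑ z, a y z * gg a x B z = -6 * gg a x B y := by
  have e : ∑ z, a y z * tt a x B z = 16 + 12 * (a x y * a B y) - 4 * tt a x B y := by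
    simp only [tt, mul_sum]
    rw [sum_comm, sum_congr rfl (g := fun s => 4 * (a x s * a B s) + 12 * (if y = s then a x s * a B s else 0) -
      4 * (a x s * a B s * a y s)) fun s _ => by
        rw [sum_congr rfl (g := fun z => a x s * a B s * (a y z * a s z)) fun z _ => by rw [H.sy z]; ring, ← mul_sum, H.s2]
        split_ifs <;> ring]
    simp only [sum_add_distrib, sum_sub_distrib, ← mul_sum, sum_ite_eq, mem_univ, if_true, H.s4 h]; rfl
  rw [sum_congr rfl (g := fun z => 12 * (if B = z then a y z else 0) - 6 * (a B z * a y z) + 6 * (a x z * a B z * a y z) -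
    3 * (a y z * tt a x B z) + 8 * (if x = z then a y z else 0) - 4 * (a x z * a y z) + 4 * a y z) fun z _ => by
      rw [gg]; split_ifs <;> ring]
  simp only [sum_add_distrib, sum_sub_distrib, ← mul_sum, sum_ite_eq, mem_univ, if_true, H.s1, H.s2, e]
  rw [gg, H.sy y, H.sy y, tt]; ring

theorem SR.gg2 (h : Dl a x B) (k : Dl a x C) : ∑ z, gg a x B z * gg a x C z = 48 * gg a x B C := by
  have z0 : ∀ s, a x s * gg a x C s = 0 := fun s => by
    rcases H.a01 x s with e | e
    · rw [e, zero_mul]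
    · rw [H.gN k e, mul_zero]
  have e : ∑ z, tt a x B z * gg a x C z = 0 := by
    simp only [tt, sum_mul]
    rw [sum_comm]
    refine sum_eq_zero fun s _ => ?_
    rw [sum_congr rfl (g := fun z => a x s * a B s * (a s z * gg a x C z)) fun z _ => by rw [H.sy z]; ring, ← mul_sum, H.ge k]
    linear_combination -6 * a B s * z0 s
  rw [sum_congr rfl (g := fun z => 12 * (if B = z then gg a x C z else 0) - 6 * (a B z * gg a x C z) -
    3 * (tt a x B z * gg a x C z) + 8 * (if x = z then gg a x C z else 0) + 4 * gg a x C z) fun z _ => by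
      rw [gg.eq_1 a x B]; split_ifs <;> linear_combination (6 * a B z - 4) * z0 z]
  simp only [sum_add_distrib, sum_sub_distrib, ← mul_sum, sum_ite_eq, mem_univ, if_true, H.ge k, e, H.g0 k, H.gx k, H.gs h k]; ring

theorem SR.gc (h : Dl a x B) (k : Dl a x C) :
    (gg a x B C = 4 ∨ gg a x B C = 1 ∨ gg a x B C = -2) ∧ (gg a x B C = 4 → gg a x B = gg a x C) := by
  obtain ⟨c1, c2, c3, -⟩ := cs (F := gg a x) (p := B) (q := C) (c := 48) (n := 4) (by norm_num) ((H.gg2 h h).trans (by rw [H.g4 h]))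
    ((H.gg2 k k).trans (by rw [H.g4 k])) (H.gg2 h k)
  refine ⟨?_, c3⟩
  have : gg a x B C = 4 + 3 * (4 * (if B = C then 1 else 0) - 2 * a B C - tt a x B C) := by rw [gg, k.2, if_neg k.1]; ring
  omega

theorem SR.sD (x : V) : ∑ z, (1 - (if x = z then 1 else 0) - a x z) = 60 := by
  simp [sum_sub_distrib, H.s1, H.c]

theorem SR.c4 (h : Dl a x B) : (univ.filter fun z => gg a x B z = 4).card = 4 := by
  have e : ∑ z, (gg a x B z * gg a x B z + gg a x B z - 2 * (1 - (if x = z then 1 else 0) - a x z)) =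
      ∑ z, 18 * (if gg a x B z = 4 then 1 else 0) := sum_congr rfl fun z _ => by
    by_cases n : x = z
    · simp [← n, H.gx h, H.a0]
    rcases H.a01 x z with e | e
    · rcases (H.gc h ⟨n, e⟩).1 with f | f | f <;> simp [f, n, e]
    · simp [H.gN h e, n, e]
  rw [sum_sub_distrib, sum_add_distrib, ← mul_sum, H.sD, H.gg2 h h, H.g0 h, H.g4 h, ← mul_sum, sum_boole] at e
  omega

theorem SR.six {S : Finset V} (c : S.card = 21) (h : ∀ p ∈ S, ∀ q ∈ S, a p q = 0) (s : V) :
    ∑ p ∈ S, a s p = 6 * if s ∈ S then 0 else 1 := by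
  have e1 : ∑ s, ∑ p ∈ S, a s p = 336 := by
    rw [sum_comm, sum_congr rfl (g := fun _ => (16 : ℤ)) fun p _ => by rw [sum_congr rfl fun z _ => H.sy z p, H.s1], sum_const, c]; rfl
  have e2 : ∑ s, (∑ p ∈ S, a s p) * ∑ p ∈ S, a s p = 2016 := by
    simp only [sum_mul_sum]
    rw [sum_comm, sum_congr rfl (g := fun _ => (96 : ℤ)) fun p hp => ?_, sum_const, c]; · rfl
    rw [sum_comm, sum_congr rfl (g := fun q => 4 + 12 * if p = q then (1 : ℤ) else 0) fun q hq => by
      rw [sum_congr rfl fun z _ => by rw [H.sy z, H.sy z], H.s2, h p hp q hq]; ring]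
    simp [sum_add_distrib, hp, c]
  have e3 : ∑ s, (if s ∈ S then (1 : ℤ) else 0) = 21 := by simp [c]
  have := (sum_eq_zero_iff_of_nonneg (s := univ) (f := fun s => (∑ p ∈ S, a s p - 6 * if s ∈ S then 0 else 1) ^ 2)
    fun s _ => sq_nonneg _).1 (by
      rw [sum_congr rfl (g := fun s => (∑ p ∈ S, a s p) * (∑ p ∈ S, a s p) - 12 * (∑ p ∈ S, a s p) + 36 - 36 * if s ∈ S then 1 else 0)
        fun s _ => by
          split_ifs with k
          · rw [sum_eq_zero (h s k)]; rfl
          · ring]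
      simp only [sum_add_distrib, sum_sub_distrib, ← mul_sum, e1, e2, e3, sum_const, card_univ, H.c]; rfl) s (mem_univ s)
  exact sub_eq_zero.1 (pow_eq_zero_iff two_ne_zero |>.1 this)

theorem SR.coc {S : Finset V} (c : S.card = 21) (h : ∀ p ∈ S, ∀ q ∈ S, a p q = 0) (hx : x ∈ S) (hB : B ∈ S) (n : x ≠ B) (y : V) :
    (y ∈ S → gg a x B y ≠ -2) ∧ (gg a x B y = 4 → y ∈ S) := by
  have k : Dl a x B := ⟨n, h x hx B hB⟩
  have e1 : ∑ y ∈ S, tt a x B y = 24 := by
    simp only [tt]
    rw [sum_comm, sum_congr rfl (g := fun s => 6 * (a x s * a B s)) fun s _ => ?_, ← mul_sum, H.s4 k]; · rfl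
    rw [← mul_sum, sum_congr rfl fun z _ => H.sy z s, H.six c h]
    split_ifs with m
    · rw [h x hx s m]; ring
    · ring
  have e2 : ∑ y ∈ S, gg a x B y = 32 := by
    rw [sum_congr rfl (g := fun y => 12 * (if B = y then 1 else 0) - 3 * tt a x B y + 8 * (if x = y then 1 else 0) + 4) fun y m => by
      rw [gg, h x hx y m, h B hB y m]; ring]
    simp only [sum_add_distrib, sum_sub_distrib, ← mul_sum, sum_ite_eq, hx, hB, if_true, e1, sum_const, c]; rfl
  have := (sum_eq_zero_iff_of_nonneg (s := univ) (f := fun y => (if y ∈ S then 1 - gg a x B y else 0) - (if x = y then 1 else 0) +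
    3 * if gg a x B y = 4 then (1 : ℤ) else 0) fun y _ => ?_).1 (by
      rw [sum_add_distrib, sum_sub_distrib, ← mul_sum, sum_boole (fun y => gg a x B y = 4), H.c4 k, sum_ite_mem, univ_inter,
        sum_sub_distrib, e2, sum_const, c, sum_ite_eq, if_pos (mem_univ x)]; rfl) y (mem_univ y)
  · by_cases e : x = y
    · simp [← e, H.gx k, hx]
    · simp only [if_neg e] at this
      constructor <;> intro m
      · rw [if_pos m] at this; split_ifs at this <;> omega
      · by_contra l; rw [if_neg l, if_pos m] at this; omega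
  · by_cases e : x = y
    · simp [← e, H.gx k, hx]
    by_cases m : y ∈ S
    · rcases (H.gc k ⟨e, h x hx y m⟩).1 with f | f | f <;> simp [f, e, m]
    · simp only [if_neg e, if_neg m]; split_ifs <;> omega
end H9.Sr
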