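import Cfsg.Agent.H9.Sr2
import Cfsg.Agent.S0410

set_option autoImplicit false

/-! The graph with parameters (77, 16, 0, 4) is the block graph of the Steiner system on 22 points. -/

namespace H9.Sr
open Finset
variable {V : Type*} [Fintype V] [DecidableEq V]

def PP (a : V → V → ℤ) : Finset (Finset V) := univ.filter fun S => S.card = 21 ∧ ∀ p ∈ S, ∀ q ∈ S, a p q = 0

variable {a : V → V → ℤ} (H : SR a) {x y : V}
include H

theorem SR.two (h : Dl a x y) : ((PP a).filter fun S => x ∈ S ∧ y ∈ S).card = 2 := by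
  obtain ⟨s, -, hs⟩ := exists_ne_zero_of_sum_ne_zero (s := univ) (f := fun s => a x s * a y s) (by rw [H.s4 h]; omega)
  have xs : a x s = 1 := (H.a01 x s).resolve_left fun e => hs (by rw [e, zero_mul])
  have ys : a y s = 1 := (H.a01 y s).resolve_left fun e => hs (by rw [e, mul_zero])
  obtain ⟨R, mR⟩ : ∃ R : Finset V, ∀ K, K ∈ R ↔ x ≠ K ∧ a K s = 1 := ⟨univ.filter fun K => x ≠ K ∧ a K s = 1, by simp⟩
  have sR : ∀ S : Finset V, x ∈ S → ∑ p ∈ S, a s p = 1 + (S.filter (· ∈ R)).card := fun S hx => by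
    rw [sum_congr rfl (g := fun p => (if x = p then 1 else 0) + if p ∈ R then 1 else 0) fun p _ => ?_, sum_add_distrib, sum_ite_eq,
      if_pos hx, sum_boole]
    rw [H.sy s]
    by_cases e : x = p
    · simp [mR, ← e, xs]
    · rcases H.a01 p s with f | f <;> simp [mR, e, f]
  have cR : R.card = 15 := by
    have := sR univ (mem_univ x)
    rw [H.s1, filter_univ_mem] at this; omega
  have RD : ∀ K ∈ R, Dl a x K := fun K k => ⟨((mR K).1 k).1, by
    have := H.tri (H.sy x s ▸ xs) K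
    rwa [H.sy s, ((mR K).1 k).2, one_mul] at this⟩
  have R4 : ∀ K ∈ R, ∀ L ∈ R, gg a x K L = 4 → K = L := fun K k L l e => by
    by_contra n
    have := single_le_sum (f := fun s => a x s * a K s * a L s) (fun s _ => mul_nonneg (mul_nonneg (H.nn _ _) (H.nn _ _)) (H.nn _ _))
      (mem_univ s)
    simp only [xs, ((mR K).1 k).2, ((mR L).1 l).2] at this
    rw [gg, tt, if_neg n, if_neg (RD L l).1, (RD L l).2] at e
    have := H.nn K L
    omega
  let cl := fun K => univ.filter fun z => gg a x K z = 4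
  have mc : ∀ {K z}, z ∈ cl K ↔ gg a x K z = 4 := by simp [cl]
  have cD : ∀ K ∈ R, ∀ z ∈ cl K, Dl a x z := fun K k z m => H.gD (RD K k) (by rw [mc.1 m]; omega)
  have ce : ∀ K ∈ R, ∀ z ∈ cl K, gg a x K = gg a x z := fun K k z m => (H.gc (RD K k) (cD K k z m)).2 (mc.1 m)
  have dj : ∀ K ∈ R, ∀ L ∈ R, K ≠ L → Disjoint (cl K) (cl L) := fun K k L l n => disjoint_left.2 fun z m m' =>
    n (R4 K k L l (by rw [ce K k z m, ← ce L l z m', H.g4 (RD L l)]))
  have cov : ∀ z, Dl a x z → z ∈ R.biUnion cl := fun z hz => by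
    refine eq_of_subset_of_card_le (s := R.biUnion cl) (t := univ.filter fun z => x ≠ z ∧ a x z = 0) (fun z m => ?_) ?_ ▸
      mem_filter.2 ⟨mem_univ z, hz⟩
    · obtain ⟨K, k, m⟩ := mem_biUnion.1 m
      exact mem_filter.2 ⟨mem_univ z, cD K k z m⟩
    · have := H.sD x
      rw [sum_congr rfl (g := fun z => if x ≠ z ∧ a x z = 0 then 1 else 0) fun z _ => by
        by_cases e : x = z
        · simp [← e, H.a0]
        · rcases H.a01 x z with f | f <;> simp [e, f], sum_boole] at this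
      rw [card_biUnion dj, sum_congr rfl fun K k => H.c4 (RD K k), sum_const, cR]
      simp only [smul_eq_mul]; omega
  have sm : ∀ f : V → ℤ, (∀ z, f z ≠ 0 → Dl a x z) → (∀ K ∈ R, ∀ z ∈ cl K, f z = f K) → ∑ z, f z = 4 * ∑ K : R, f K :=
    fun f f0 fc => by
      rw [← sum_subset (subset_univ (R.biUnion cl)) fun z _ m => by_contra fun e => m (cov z (f0 z e)), sum_biUnion dj,
        sum_coe_sort R f, mul_sum]
      refine sum_congr rfl fun K k => ?_
      rw [sum_congr rfl (fc K k), sum_const, H.c4 (RD K k)]; rfl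
  have gc : ∀ B, Dl a x B → ∀ K ∈ R, ∀ z ∈ cl K, gg a x B z = gg a x B K := fun B b K k z m => by
    rw [H.gs b (cD K k z m), ← ce K k z m, H.gs b (RD K k)]
  rw [← gq (ι := R) (g := fun K L => gg a x K L) (by simp [cR]) (fun K L => H.gs (RD _ K.2) (RD _ L.2)) (fun K => H.g4 (RD _ K.2))
    (fun K L n => (H.gc (RD _ K.2) (RD _ L.2)).1.resolve_left fun e => n (Subtype.ext (R4 _ K.2 _ L.2 e))) (fun K => by
      have := sm _ (fun z => H.gD (RD _ K.2)) (gc _ (RD _ K.2))
      rw [H.g0 (RD _ K.2)] at this; omega) (fun K L => by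
      have := sm (fun z => gg a x K z * gg a x L z) (fun z e => H.gD (RD _ K.2) (left_ne_zero_of_mul e)) fun M k z m => by
        simp only [gc _ (RD _ K.2) M k z m, gc _ (RD _ L.2) M k z m]
      rw [H.gg2 (RD _ K.2) (RD _ L.2)] at this; omega) ⟨y, (mR y).2 ⟨h.1, ys⟩⟩]
  have sub : ∀ S ∈ PP a, x ∈ S → ∀ T ∈ PP a, x ∈ T → (∀ K ∈ R, K ∈ S → K ∈ T) → S ⊆ T := fun S hS xS T hT xT e z m => by
    by_cases n : x = z; · exact n ▸ xT
    obtain ⟨-, c, o⟩ := mem_filter.1 hS
    obtain ⟨-, c', o'⟩ := mem_filter.1 hT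
    obtain ⟨K, k, l⟩ := mem_biUnion.1 (cov z ⟨n, o x xS z m⟩)
    exact (H.coc c' o' xT (e K k ((H.coc c o xS m n K).2 (by rw [← ce K k z l, H.g4 (RD K k)]))) (RD K k).1 z).2 (mc.1 l)
  refine card_bij (fun S _ => S.subtype (· ∈ R)) (fun S hS => ?_) (fun S hS T hT e => ?_) fun O hO => ?_
  · obtain ⟨hS, xS, yS⟩ := mem_filter.1 hS
    obtain ⟨-, c, o⟩ := mem_filter.1 hS
    refine mem_filter.2 ⟨mem_univ _, ?_, mem_subtype.2 yS, fun K k L l n => ?_⟩
    · have := sR S xS
      rw [H.six c o, if_neg fun m => by have := o x xS s m; omega] at this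
      rw [card_subtype]; omega
    · exact ((H.gc (RD _ K.2) (RD _ L.2)).1.resolve_left fun e => n (Subtype.ext (R4 _ K.2 _ L.2 e))).resolve_right
        ((H.coc c o xS (mem_subtype.1 k) (RD _ K.2).1 L).1 (mem_subtype.1 l))
  · obtain ⟨hS, xS, -⟩ := mem_filter.1 hS
    obtain ⟨hT, xT, -⟩ := mem_filter.1 hT
    refine subset_antisymm (sub S hS xS T hT xT fun K k m => ?_) (sub T hT xT S hS xS fun K k m => ?_)
    · exact mem_subtype.1 (e ▸ (mem_subtype (a := ⟨K, k⟩)).2 m)
    · exact mem_subtype.1 (e.symm ▸ (mem_subtype (a := ⟨K, k⟩)).2 m)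
  · obtain ⟨-, c, yO, o⟩ := mem_filter.1 hO
    have nx : x ∉ O.biUnion fun K => cl K := fun m => by
      obtain ⟨K, -, m⟩ := mem_biUnion.1 m
      exact (cD _ K.2 x m).1 rfl
    have sf : ∀ K ∈ O, K.1 ∈ insert x (O.biUnion fun K => cl K) := fun K k =>
      mem_insert_of_mem (mem_biUnion.2 ⟨K, k, mc.2 (H.g4 (RD _ K.2))⟩)
    refine ⟨insert x (O.biUnion fun K => cl K), mem_filter.2 ⟨mem_filter.2 ⟨mem_univ _, ?_, fun p hp q hq => ?_⟩, mem_insert_self _ _,
      sf _ yO⟩, Finset.ext fun K => ⟨fun m => ?_, fun m => mem_subtype.2 (sf K m)⟩⟩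
    · rw [card_insert_of_notMem nx, card_biUnion fun K _ L _ n => dj _ K.2 _ L.2 fun e => n (Subtype.ext e),
        sum_congr rfl fun K _ => H.c4 (RD _ K.2), sum_const, c]; rfl
    · simp only [mem_insert, mem_biUnion] at hp hq
      rcases hp with rfl | ⟨K, k, hp⟩ <;> rcases hq with rfl | ⟨L, l, hq⟩
      exacts [H.a0 _, (cD _ L.2 q hq).2, H.sy _ _ ▸ (cD _ K.2 p hp).2, (H.a01 p q).resolve_right fun e => by
        have := H.ga (cD _ L.2 q hq) e
        rw [← ce _ K.2 p hp, gc _ (RD _ K.2) _ L.2 q hq] at this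
        by_cases n : K = L
        · rw [n, H.g4 (RD _ L.2)] at this; omega
        · rw [o K k L l n] at this; omega]
    · obtain ⟨L, l, m⟩ := mem_biUnion.1 ((mem_insert.1 (mem_subtype.1 m)).resolve_left (RD _ K.2).1.symm)
      exact Subtype.ext (R4 _ L.2 _ K.2 (mc.1 m)) ▸ l

theorem SR.cnt : (PP a).card = 22 ∧
    ∀ x y, (((PP a).filter fun S => x ∈ S ∧ y ∈ S).card : ℤ) = 2 + 4 * (if x = y then 1 else 0) - 2 * a x y := by
  have e : ∀ x y, (((PP a).filter fun S => x ∈ S ∧ y ∈ S).card : ℤ) = 2 * (1 - (if x = y then 1 else 0) - a x y) +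
      (if x = y then (((PP a).filter fun S => x ∈ S).card : ℤ) else 0) := fun x y => by
    by_cases n : x = y
    · simp [← n, H.a0]
    rcases H.a01 x y with f | f
    · simp [H.two ⟨n, f⟩, n, f]
    · rw [filter_eq_empty_iff.2 fun S hS m => by have := (mem_filter.1 hS).2.2 x m.1 y m.2; omega]
      simp [n, f]
  have c : ∀ T ⊆ PP a, ∑ y, ((T.filter fun S => y ∈ S).card : ℤ) = 21 * T.card := fun T hT => by
    simp only [← sum_boole]
    rw [sum_comm, sum_congr rfl (g := fun _ => (21 : ℤ)) fun S m => by simp [(mem_filter.1 (hT m)).2.1]]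
    simp [mul_comm]
  have n : ∀ x, (((PP a).filter fun S => x ∈ S).card : ℤ) = 6 := fun x => by
    have := c _ (filter_subset (fun S => x ∈ S) (PP a))
    simp only [filter_filter, e, sum_add_distrib, ← mul_sum, H.sD, sum_ite_eq, mem_univ, if_true] at this
    omega
  refine ⟨?_, fun x y => by rw [e, n]; split_ifs <;> ring⟩
  have := c _ Subset.rfl
  simp only [n, sum_const, card_univ, H.c] at this
  simp at this; omega

theorem SR.st : ∃ β : V → Finset (PP a), Cfsg.IsSteinerSystem 3 6 (Set.range β) ∧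
    ∀ x y, ((β x ∩ β y).card : ℤ) = 2 + 4 * (if x = y then 1 else 0) - 2 * a x y := by
  obtain ⟨β, hβ⟩ : ∃ β : V → Finset (PP a), ∀ x y, ((β x ∩ β y).card : ℤ) = 2 + 4 * (if x = y then 1 else 0) - 2 * a x y :=
    ⟨fun x => univ.filter fun S => x ∈ S.1, fun x y => by
      rw [← H.cnt.2, ← filter_and, ← card_map (Function.Embedding.subtype _)]
      congr 2; ext S; simp [and_comm, and_assoc]⟩
  have c6 : ∀ x, (β x).card = 6 := fun x => by
    have := hβ x x
    rw [inter_self, if_pos rfl, H.a0] at this; omega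
  have c3 : ∀ w u, ∀ s : Finset (PP a), s.card = 3 → s ⊆ β w → s ⊆ β u → u = w := fun w u s hs b c => by
    by_contra n
    have := card_le_card (subset_inter c b)
    have := hβ u w
    have := H.nn u w
    rw [if_neg n] at *; omega
  refine ⟨β, ⟨by rintro _ ⟨w, rfl⟩; exact c6 w, fun s hs => ?_⟩, hβ⟩
  have e : univ.biUnion (fun w => powersetCard 3 (β w)) = powersetCard 3 univ := by
    refine eq_of_subset_of_card_le (fun s hs => ?_) ?_
    · simp only [mem_biUnion, mem_powersetCard] at hs ⊢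
      obtain ⟨w, -, -, h⟩ := hs
      exact ⟨subset_univ _, h⟩
    · rw [card_biUnion, sum_congr rfl (g := fun _ => 20) fun w _ => by rw [card_powersetCard, c6 w]; rfl,
        card_powersetCard, card_univ, Fintype.card_coe, H.cnt.1, sum_const, card_univ, H.c]
      · decide
      · intro w _ u _ n
        rw [Function.onFun, Finset.disjoint_left]
        intro s h1 h2
        rw [mem_powersetCard] at h1 h2
        exact n (c3 _ _ s h1.2 h2.1 h1.1)
  have : s ∈ univ.biUnion (fun w => powersetCard 3 (β w)) := by rw [e, mem_powersetCard]; exact ⟨subset_univ _, hs⟩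
  simp only [mem_biUnion, mem_powersetCard] at this
  obtain ⟨w, -, h, -⟩ := this
  refine ⟨β w, ⟨⟨w, rfl⟩, h⟩, ?_⟩
  rintro _ ⟨⟨u, rfl⟩, h'⟩
  rw [c3 w u s hs h h']

theorem SR.iso {W : Type*} [Fintype W] [DecidableEq W] {b : W → W → ℤ} (K : SR b) : ∃ φ : V ≃ W, ∀ x y, b (φ x) (φ y) = a x y := by
  obtain ⟨β, s, h⟩ := H.st
  obtain ⟨γ, s', h'⟩ := K.st
  obtain ⟨e, he⟩ := Cfsg.Agent.S0410.result (by rw [Fintype.card_coe, H.cnt.1]) (by rw [Fintype.card_coe, K.cnt.1]) s s'
  have : ∀ x, ∃ w, γ w = (β x).image e := fun x => by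
    have : (β x).image e ∈ Set.range γ := he ▸ ⟨β x, ⟨x, rfl⟩, rfl⟩
    exact this
  choose φ hφ using this
  have k : ∀ x y, 2 + 4 * (if φ x = φ y then 1 else 0) - 2 * b (φ x) (φ y) = 2 + 4 * (if x = y then 1 else 0) - 2 * a x y :=
    fun x y => by rw [← h, ← h', hφ, hφ, ← image_inter _ _ e.injective, card_image_of_injective _ e.injective]
  have i : Function.Injective φ := fun x y q => by
    by_contra n
    have := k x y
    have := H.nn x y
    rw [if_pos q, if_neg n, q, K.a0] at *; omega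
  refine ⟨Equiv.ofBijective φ ((Fintype.bijective_iff_injective_and_card φ).2 ⟨i, H.c.trans K.c.symm⟩), fun x y => ?_⟩
  have := k x y
  simp only [i.eq_iff] at this
  simp only [Equiv.ofBijective_apply]; omega

omit H in
theorem sr_of {G : SimpleGraph V} [DecidableRel G.Adj] (h : G.IsSRGWith 77 16 0 4) : SR fun x y => if G.Adj x y then 1 else 0 := by
  have s1 : ∀ x, ∑ y, (if G.Adj x y then (1 : ℤ) else 0) = 16 := fun x => by
    rw [sum_boole, ← SimpleGraph.neighborFinset_eq_filter, SimpleGraph.card_neighborFinset_eq_degree, h.regular x]; rfl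
  refine ⟨h.card, fun x y => by split_ifs <;> simp, fun x y => by simp only [G.adj_comm], fun x => by simp, s1, fun x y => ?_⟩
  have e : ∑ z, (if G.Adj x z then (1 : ℤ) else 0) * (if G.Adj y z then 1 else 0) = Fintype.card (G.commonNeighbors x y) := by
    simp only [ite_zero_mul_ite_zero, mul_one, sum_boole]
    rw [← Set.toFinset_card]; congr 2; ext z; simp [SimpleGraph.mem_commonNeighbors]
  by_cases n : x = y
  · simp only [← n, ite_zero_mul_ite_zero, and_self, mul_one, s1]; simp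
  rw [e]
  by_cases m : G.Adj x y
  · simp [h.of_adj x y m, n, m]
  · simp [h.of_not_adj n m, n, m]
end H9.Sr
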