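import Cfsg.Agent.H9.Basic

/-!
Breadth and the order of the derived subgroup of a finite p-group.
-/

set_option autoImplicit false

namespace H9.Vl

open Subgroup
open scoped commutatorElement

universe u

variable {G : Type u} [Group G]

/-- size of the conjugacy class -/
noncomputable def br (x : G) : ℕ := (centralizer ({x} : Set G)).index

theorem br_sub (E : Subgroup G) (x : E) :
    br x = (centralizer ({(x : G)} : Set G)).relIndex E := by
  unfold br Subgroup.relIndex
  congr 1
  ext y
  simp only [mem_centralizer_singleton_iff, mem_subgroupOf]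
  constructor
  · intro h; exact congrArg Subtype.val h
  · intro h; exact Subtype.ext h

theorem relIndex_le [Finite G] (C E : Subgroup G) : C.relIndex E ≤ C.index := by
  rw [← relIndex_top_right]
  exact relIndex_le_of_le_right le_top (by rw [relIndex_top_right]; exact index_ne_zero_of_finite)

theorem br_sub_le [Finite G] (E : Subgroup G) (x : E) : br x ≤ br (x : G) := by
  rw [br_sub]; exact relIndex_le _ _

theorem br_sub_mul (E : Subgroup G) (x : E) (h : centralizer ({(x : G)} : Set G) ≤ E) :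
    br x * E.index = br (x : G) := by
  rw [br_sub]; exact relIndex_mul_index h

/-- the part of `E` which is central modulo `E'` -/
def KK (E : Subgroup G) [E.Normal] : Subgroup E := (centMod ⁅E, E⁆ (Set.univ : Set G)).subgroupOf E

theorem mem_KK {E : Subgroup G} [E.Normal] {a : G} (ha : E ⊔ zpowers a = ⊤) (x : E) :
    x ∈ KK E ↔ ⁅(x : G), a⁆ ∈ ⁅E, E⁆ := by
  unfold KK
  rw [mem_subgroupOf, mem_centMod]
  constructor
  · intro h; exact h a trivial
  · intro h s _
    have h1 : E ⊔ zpowers a ≤ centMod ⁅E, E⁆ ({(x : G)} : Set G) := by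
      refine sup_le ?_ ?_
      · intro e he
        rw [mem_centMod]
        rintro s rfl
        exact commutator_mem_commutator he x.2
      · rw [zpowers_le, mem_centMod]
        rintro s rfl
        rw [← commutatorElement_inv]
        exact inv_mem h
    rw [ha] at h1
    have := mem_centMod.1 (h1 (mem_top s)) _ rfl
    rw [← commutatorElement_inv]
    exact inv_mem this

theorem KK_index_le [Finite G] {E : Subgroup G} [E.Normal] {a : G} (ha : E ⊔ zpowers a = ⊤) :
    (KK E).index ≤ br a := by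
  have h : (centralizer ({a} : Set G)).subgroupOf E ≤ KK E := by
    intro x hx
    rw [mem_subgroupOf, mem_centralizer_singleton_iff] at hx
    rw [mem_KK ha, commutatorElement_eq_one_iff_mul_comm.2 hx]
    exact one_mem _
  exact (index_antitone h).trans (relIndex_le _ _)

theorem cent_le {E : Subgroup G} [E.Normal] (hE : IsCoatom E) (x : E) (hx : x ∉ KK E) :
    centralizer ({(x : G)} : Set G) ≤ E := by
  intro g hg
  by_contra hn
  apply hx
  rw [mem_KK (sup_zpowers_eq_top_of_isCoatom hE hn)]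
  rw [mem_centralizer_singleton_iff] at hg
  rw [commutatorElement_eq_one_iff_mul_comm.2 hg.symm]
  exact one_mem _

theorem step [Finite G] {E : Subgroup G} [hEn : E.Normal] {a : G} (ha : E ⊔ zpowers a = ⊤) :
    Nat.card (_root_.commutator G) ≤ (KK E).index * Nat.card (_root_.commutator E) := by
  classical
  set N : Subgroup G := ⁅E, E⁆ with hN
  have hce : ∀ e ∈ E, ⁅e, a⁆ ∈ E := by
    intro e he
    have : ⁅e, a⁆ = e * (a * e⁻¹ * a⁻¹) := by simp [commutatorElement_def, mul_assoc]
    rw [this]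
    exact mul_mem he (hEn.conj_mem _ (inv_mem he) _)
  have hcomm : ∀ e ∈ E, ∀ f ∈ E, (e : G ⧸ N) * f = f * e := by
    intro e he f hf
    rw [← QuotientGroup.mk_mul, ← QuotientGroup.mk_mul, QuotientGroup.eq]
    have : (e * f)⁻¹ * (f * e) = ⁅f⁻¹, e⁻¹⁆ := by simp [commutatorElement_def, mul_assoc]
    rw [this]
    exact commutator_mem_commutator (inv_mem hf) (inv_mem he)
  let θ : E →* G ⧸ N := MonoidHom.mk' (fun e => ((⁅(e : G), a⁆ : G) : G ⧸ N)) (by
    intro e f
    have h1 : ⁅((e * f : E) : G), a⁆ = e * ⁅(f : G), a⁆ * (e : G)⁻¹ * ⁅(e : G), a⁆ := by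
      simp [commutatorElement_def, mul_assoc]
    show ((⁅((e * f : E) : G), a⁆ : G) : G ⧸ N) = _
    rw [h1, QuotientGroup.mk_mul, QuotientGroup.mk_mul, QuotientGroup.mk_mul,
      hcomm _ e.2 _ (hce _ f.2), QuotientGroup.mk_inv, mul_assoc _ _ (_ : G ⧸ N)⁻¹,
      mul_inv_cancel, mul_one, hcomm _ (hce _ f.2) _ (hce _ e.2)])
  have hker : θ.ker = KK E := by
    ext x
    rw [MonoidHom.mem_ker, mem_KK ha]
    exact QuotientGroup.eq_one_iff _
  set R : Subgroup G := θ.range.comap (QuotientGroup.mk' N) with hR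
  have hNR : N ≤ R := by
    intro n hn
    rw [hR, mem_comap]
    have : QuotientGroup.mk' N n = 1 := (QuotientGroup.eq_one_iff _).2 hn
    rw [this]; exact one_mem _
  have hmemR : ∀ g, g ∈ R ↔ ∃ e ∈ E, ((⁅e, a⁆ : G) : G ⧸ N) = g := by
    intro g
    rw [hR, mem_comap]
    constructor
    · rintro ⟨e, he⟩; exact ⟨e, e.2, he⟩
    · rintro ⟨e, he, h⟩; exact ⟨⟨e, he⟩, h⟩
  have hRn : R.Normal := by
    rw [← normalizer_eq_top_iff, eq_top_iff, ← ha]
    refine sup_le ?_ ?_
    · intro f hf
      apply mem_normalizer_fintype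
      intro g hg
      obtain ⟨e, he, h⟩ := (hmemR g).1 hg
      refine (hmemR _).2 ⟨e, he, ?_⟩
      rw [QuotientGroup.mk_mul, QuotientGroup.mk_mul, ← h, hcomm _ hf _ (hce _ he),
        QuotientGroup.mk_inv, mul_assoc, mul_inv_cancel, mul_one]
    · rw [zpowers_le]
      apply mem_normalizer_fintype
      intro g hg
      obtain ⟨e, he, h⟩ := (hmemR g).1 hg
      refine (hmemR _).2 ⟨a * e * a⁻¹, hEn.conj_mem _ he _, ?_⟩
      rw [QuotientGroup.mk_mul, QuotientGroup.mk_mul, ← h, ← QuotientGroup.mk_mul,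
        ← QuotientGroup.mk_mul]
      congr 1
      simp [commutatorElement_def, mul_assoc]
  have hle : _root_.commutator G ≤ R := by
    have htop : closure ((E : Set G) ∪ {a}) = ⊤ := by
      rw [Subgroup.closure_union, closure_eq, ← zpowers_eq_closure, ha]
    rw [_root_.commutator_def, ← htop]
    apply commutator_closure_le
    rintro s (hs | rfl) t (ht | rfl)
    · exact hNR (commutator_mem_commutator hs ht)
    · exact (hmemR _).2 ⟨s, hs, rfl⟩
    · rw [← commutatorElement_inv]
      exact inv_mem ((hmemR _).2 ⟨t, ht, rfl⟩)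
    · rw [commutatorElement_self]; exact one_mem _
  have hcR : Nat.card R = Nat.card θ.range * Nat.card N := H1.card_comap_mk' N θ.range
  have hcN : Nat.card N = Nat.card (_root_.commutator E) := by
    rw [hN, ← map_subtype_commutator, card_map_of_injective E.subtype_injective]
  calc Nat.card (_root_.commutator G) ≤ Nat.card R := card_le_of_le hle
    _ = _ := by rw [hcR, hcN, ← hker, index_ker]

variable {p : ℕ} [hp : Fact p.Prime]

theorem exists_hom [Finite G] (hG : IsPGroup p G) {H : Subgroup G} (hH : H.index = p) :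
    ∃ φ : G →* Multiplicative (ZMod p), φ.ker = H := by
  haveI := normal_of_index_eq_prime hG hH
  have e : (G ⧸ H) ≃* Multiplicative (ZMod p) :=
    mulEquivOfPrimeCardEq (p := p) hH (by simp)
  refine ⟨e.toMonoidHom.comp (QuotientGroup.mk' H), ?_⟩
  ext x
  simp [MonoidHom.mem_ker]

theorem index_ker_eq (φ : G →* Multiplicative (ZMod p)) (hφ : φ.ker ≠ ⊤) : φ.ker.index = p := by
  rw [index_ker]
  have hc : Nat.card (Multiplicative (ZMod p)) = p := by simp
  haveI : Fact (Nat.card (Multiplicative (ZMod p))).Prime := ⟨by rw [hc]; exact hp.out⟩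
  rcases eq_bot_or_eq_top_of_prime_card φ.range with h | h
  · exfalso
    apply hφ
    rw [eq_top_iff]
    intro x _
    have : φ x ∈ φ.range := ⟨x, rfl⟩
    rw [h] at this
    exact this
  · rw [h, card_top, hc]

theorem not_le_of_ne {H L : Subgroup G} (hH : H.index = p) (hL : L.index = p) (h : H ≠ L) :
    ¬ H ≤ L := by
  intro hle
  have h1 := isCoatom_of_index_eq_prime hH
  have h2 := isCoatom_of_index_eq_prime hL
  exact h ((h1.le_iff_eq h2.1).1 hle).symm

theorem exists_third [Finite G] (hG : IsPGroup p G) {H L : Subgroup G} (hH : H.index = p)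
    (hL : L.index = p) (h : H ≠ L) :
    ∃ E : Subgroup G, E.index = p ∧ (∀ x ∈ E, x ∈ H ↔ x ∈ L) ∧ (H.subgroupOf E).index = p := by
  obtain ⟨φ, rfl⟩ := exists_hom hG hH
  obtain ⟨ψ, rfl⟩ := exists_hom hG hL
  have hE : (φ / ψ).ker.index = p := by
    apply index_ker_eq
    intro ht
    apply h
    have : φ = ψ := by
      ext x
      have : x ∈ (φ / ψ).ker := by rw [ht]; trivial
      rw [MonoidHom.mem_ker, MonoidHom.div_apply, div_eq_one] at this
      rw [this]
    rw [this]
  have hiff : ∀ x ∈ (φ / ψ).ker, x ∈ φ.ker ↔ x ∈ ψ.ker := by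
    intro x hx
    rw [MonoidHom.mem_ker, MonoidHom.div_apply, div_eq_one] at hx
    rw [MonoidHom.mem_ker, MonoidHom.mem_ker, hx]
  refine ⟨(φ / ψ).ker, hE, hiff, ?_⟩
  have hk : φ.ker.subgroupOf (φ / ψ).ker = (φ.comp (φ / ψ).ker.subtype).ker := by
    ext x; rfl
  rw [hk]
  apply index_ker_eq
  rw [← hk]
  intro ht
  have h1 : (φ / ψ).ker ≤ φ.ker := subgroupOf_eq_top.1 ht
  by_cases he : (φ / ψ).ker = φ.ker
  · apply not_le_of_ne hH hL h
    intro x hx
    exact (hiff x (he ▸ hx)).1 hx
  · exact not_le_of_ne hE hH he h1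

/-- triangular numbers -/
def tri : ℕ → ℕ
  | 0 => 0
  | (m + 1) => tri m + (m + 1)

theorem tri_eq (m : ℕ) : tri m = m * (m + 1) / 2 := by
  induction m with
  | zero => rfl
  | succ m ih =>
    rw [tri, ih, show (m + 1) * (m + 1 + 1) = m * (m + 1) + (m + 1) * 2 by ring,
      Nat.add_mul_div_right _ _ (by norm_num)]

/-- the bound -/
def ff : ℕ → ℕ → ℕ
  | 0, _ => 0
  | (m + 1), r => tri m + r

theorem ff_self (m : ℕ) : ff m m = tri m := by
  cases m <;> rfl

/-- the two-subgroup statement -/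
def TT (p : ℕ) (G : Type u) [Group G] : Prop :=
  ∀ (H L : Subgroup G) (m r : ℕ), H.index = p → L.index = p → H ≠ L → m ≤ r →
    (∀ x, x ∉ H → x ∉ L → br x ≤ p ^ m) → (∃ b, b ∈ L ∧ b ∉ H ∧ br b ≤ p ^ r) →
    Nat.card (_root_.commutator G) ≤ p ^ ff m r

theorem card_comm_of_comm (h : ∀ x y : G, x * y = y * x) :
    Nat.card (_root_.commutator G) = 1 := by
  rw [card_eq_one, _root_.commutator_def, eq_bot_iff, commutator_le]
  intro x _ y _
  rw [mem_bot, commutatorElement_eq_one_iff_mul_comm]
  exact h x y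

theorem SS [Finite G] (hG : IsPGroup p G) (hT : TT p G) {H J : Subgroup G} {m : ℕ}
    (hH : H.index = p) (hJ : J ≤ H ∨ (J ≠ ⊤ ∧ J.index ≠ p))
    (hb : ∀ x, x ∉ H → x ∉ J → br x ≤ p ^ m) :
    Nat.card (_root_.commutator G) ≤ p ^ tri m := by
  have hHc := isCoatom_of_index_eq_prime hH
  by_cases hJH : J ≤ H
  · obtain ⟨x, hx⟩ : ∃ x, x ∉ H := by
      by_contra hn
      push Not at hn
      exact hHc.1 (eq_top_iff.2 fun x _ => hn x)
    rcases eq_top_or_exists_le_coatom (zpowers x) with ht | ⟨L, hL, hxL⟩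
    · rw [card_comm_of_comm]
      · exact Nat.one_le_pow _ _ hp.out.pos
      · intro a b
        obtain ⟨i, rfl⟩ := mem_zpowers_iff.1 (show a ∈ zpowers x by rw [ht]; trivial)
        obtain ⟨j, rfl⟩ := mem_zpowers_iff.1 (show b ∈ zpowers x by rw [ht]; trivial)
        exact (Commute.zpow_zpow_self x i j).eq
    · have hxL' : x ∈ L := hxL (mem_zpowers x)
      rw [← ff_self]
      refine hT H L m m hH (index_of_isCoatom hG hL) ?_ le_rfl ?_ ⟨x, hxL', hx, ?_⟩
      · rintro rfl; exact hx hxL'
      · intro y hy _; exact hb y hy fun h => hy (hJH h)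
      · exact hb x hx fun h => hx (hJH h)
  · obtain ⟨hJ1, hJ2⟩ := hJ.resolve_left hJH
    obtain ⟨L, hL, hJL⟩ := (eq_top_or_exists_le_coatom J).resolve_left hJ1
    have hLi := index_of_isCoatom hG hL
    have hne : H ≠ L := by rintro rfl; exact hJH hJL
    obtain ⟨j, hj, hjH⟩ := SetLike.not_le_iff_exists.1 hJH
    obtain ⟨l, hl, hlJ⟩ : ∃ l ∈ L, l ∉ J := by
      by_contra hn
      push Not at hn
      exact hJ2 (by rw [le_antisymm hJL hn]; exact hLi)
    obtain ⟨b, hbL, hbH, hbJ⟩ : ∃ b ∈ L, b ∉ H ∧ b ∉ J := by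
      by_cases hlH : l ∈ H
      · refine ⟨l * j, mul_mem hl (hJL hj), ?_, ?_⟩
        · intro h; exact hjH ((mul_mem_cancel_left hlH).1 h)
        · intro h; exact hlJ ((mul_mem_cancel_right hj).1 h)
      · exact ⟨l, hl, hlH, hlJ⟩
    rw [← ff_self]
    refine hT H L m m hH hLi hne le_rfl ?_ ⟨b, hbL, hbH, hb b hbH hbJ⟩
    intro y hy hyL
    exact hb y hy fun h => hyL (hJL h)

theorem TT_all (n : ℕ) : ∀ (G : Type u) [Group G] [Finite G], Nat.card G = n → IsPGroup p G →
    TT p G := by
  induction n using Nat.strong_induction_on with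
  | _ n ih =>
  intro G _ _ hn hG H L m r hH hL hne hmr hb ⟨b, hbL, hbH, hbr⟩
  obtain ⟨E, hE, hiff, hD⟩ := exists_third hG hH hL hne
  haveI := normal_of_index_eq_prime hG hE
  have hEc := isCoatom_of_index_eq_prime hE
  have hEp : IsPGroup p E := hG.to_subgroup E
  have hTE : TT p E := by
    refine ih (Nat.card E) ?_ E rfl hEp
    rw [← hn, ← E.card_mul_index, hE]
    have := hp.out.one_lt
    have h2 : 0 < Nat.card E := Nat.card_pos
    nlinarith
  have hbE : b ∉ E := fun h => hbH ((hiff b h).2 hbL)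
  have htop := sup_zpowers_eq_top_of_isCoatom hEc hbE
  have hst := step htop
  have hKi : (KK E).index ≤ p ^ r := (KK_index_le htop).trans hbr
  have hb1 : ∀ x : E, x ∉ H.subgroupOf E → br (x : G) ≤ p ^ m := by
    intro x hx
    exact hb x hx fun h => hx ((hiff x x.2).2 h)
  have hb2 : ∀ x : E, x ∉ H.subgroupOf E → br x ≤ p ^ m := fun x hx =>
    (br_sub_le E x).trans (hb1 x hx)
  have hb3 : ∀ x : E, x ∉ H.subgroupOf E → x ∉ KK E → br x * p ≤ p ^ m := by
    intro x hx hK
    have := br_sub_mul E x (cent_le hEc x hK)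
    rw [hE] at this
    rw [this]; exact hb1 x hx
  by_cases hK : KK E = ⊤
  · rw [hK, index_top, one_mul] at hst
    have h1 := SS hEp hTE (J := ⊥) hD (Or.inl bot_le) (fun x hx _ => hb2 x hx)
    refine hst.trans (h1.trans (Nat.pow_le_pow_right hp.out.pos ?_))
    cases m with
    | zero => exact le_rfl
    | succ m => simp only [tri, ff]; omega
  · obtain ⟨x, hxH, hxK⟩ : ∃ x : E, x ∉ H.subgroupOf E ∧ x ∉ KK E := by
      obtain ⟨y, hy⟩ : ∃ y : E, y ∉ KK E := by
        by_contra hn
        push Not at hn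
        exact hK (eq_top_iff.2 fun x _ => hn x)
      obtain ⟨z, hz⟩ : ∃ z : E, z ∉ H.subgroupOf E := by
        by_contra hn
        push Not at hn
        exact (isCoatom_of_index_eq_prime hD).1 (eq_top_iff.2 fun x _ => hn x)
      by_cases h1 : y ∈ H.subgroupOf E
      · by_cases h2 : z ∈ KK E
        · refine ⟨y * z, ?_, ?_⟩
          · intro h; exact hz ((mul_mem_cancel_left h1).1 h)
          · intro h; exact hy ((mul_mem_cancel_right h2).1 h)
        · exact ⟨z, hz, h2⟩
      · exact ⟨y, h1, hy⟩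
    cases m with
    | zero =>
      exfalso
      have h1 := hb3 x hxH hxK
      have h2 : 0 < br x := Nat.pos_of_ne_zero index_ne_zero_of_finite
      have := hp.out.one_lt
      rw [pow_zero] at h1
      nlinarith
    | succ m =>
      have hb4 : ∀ x : E, x ∉ H.subgroupOf E → x ∉ KK E → br x ≤ p ^ m := by
        intro x hx hK
        have := hb3 x hx hK
        rw [pow_succ] at this
        exact Nat.le_of_mul_le_mul_right this hp.out.pos
      by_cases hc : KK E ≤ H.subgroupOf E ∨ (KK E ≠ ⊤ ∧ (KK E).index ≠ p)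
      · have h1 := SS hEp hTE hD hc hb4
        refine hst.trans ((Nat.mul_le_mul hKi h1).trans (le_of_eq ?_))
        rw [← pow_add, ff, add_comm]
      · push Not at hc
        obtain ⟨hc1, hc2⟩ := hc
        have hKp := hc2 hK
        obtain ⟨y, hy, hyH⟩ := SetLike.not_le_iff_exists.1 hc1
        have h1 := hTE (H.subgroupOf E) (KK E) m (m + 1) hD hKp
          (by intro h; exact hc1 h.ge) (Nat.le_succ m) hb4 ⟨y, hy, hyH, hb2 y hyH⟩
        rw [hKp] at hst
        refine hst.trans ((Nat.mul_le_mul_left p h1).trans ?_)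
        rw [← pow_succ']
        apply Nat.pow_le_pow_right hp.out.pos
        cases m with
        | zero => simp only [ff, tri]; omega
        | succ m => simp only [ff, tri]; omega

theorem main [Finite G] (hG : IsPGroup p G) (b : ℕ) (hb : ∀ x : G, br x ≤ p ^ b) :
    Nat.card (_root_.commutator G) ≤ p ^ (b * (b + 1) / 2) := by
  rw [← tri_eq]
  rcases eq_top_or_exists_le_coatom (⊥ : Subgroup G) with h | ⟨H, hH, -⟩
  · rw [card_comm_of_comm]
    · exact Nat.one_le_pow _ _ hp.out.pos
    · intro x y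
      have hx : x ∈ (⊥ : Subgroup G) := by rw [h]; trivial
      rw [mem_bot] at hx
      simp [hx]
  · exact SS hG (TT_all _ G rfl hG) (J := ⊥) (index_of_isCoatom hG hH) (Or.inl bot_le)
      fun x _ _ => hb x

end H9.Vl
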